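import Mathlib
import Cfsg.Agent.Lib.Helper1.SZInternal
import Cfsg.Agent.Lib.Helper23.BG36.Defs

set_option autoImplicit false

namespace Cfsg.Agent.Lib.Helper27.BG36

open Pointwise Cfsg.Agent.Lib.Helper1

universe u

/-- Product formula when `A` normalises `N` (no coprimality). -/
theorem card_sup_mul_card_inf_nz {G : Type u} [Group G] [Finite G] (N A : Subgroup G)
    (hAN : A ≤ Subgroup.normalizer (N : Set G)) :
    Nat.card (N ⊔ A : Subgroup G) * Nat.card (N ⊓ A : Subgroup G) = Nat.card N * Nat.card A := by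
  set Γ : Subgroup G := N ⊔ A with hΓ
  have hNΓ : N ≤ Γ := le_sup_left
  have hAΓ : A ≤ Γ := le_sup_right
  have hΓnorm : Γ ≤ Subgroup.normalizer (N : Set G) := sup_le Subgroup.le_normalizer hAN
  have hNn : (N.subgroupOf Γ).Normal :=
    (Subgroup.normal_subgroupOf_iff_le_normalizer hNΓ).mpr hΓnorm
  have hcardN : Nat.card (N.subgroupOf Γ) = Nat.card N := card_subgroupOf_of_le hNΓ
  have hcardA : Nat.card (A.subgroupOf Γ) = Nat.card A := card_subgroupOf_of_le hAΓ
  have hsup : N.subgroupOf Γ ⊔ A.subgroupOf Γ = ⊤ := by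
    rw [← Subgroup.subgroupOf_sup hNΓ hAΓ, Subgroup.subgroupOf_self]
  have hinf : Nat.card (N.subgroupOf Γ ⊓ A.subgroupOf Γ : Subgroup Γ) =
      Nat.card (N ⊓ A : Subgroup G) := by
    have h1 : N.subgroupOf Γ ⊓ A.subgroupOf Γ = (N ⊓ A).subgroupOf Γ := by
      ext x
      simp [Subgroup.mem_subgroupOf]
    rw [h1]
    exact card_subgroupOf_of_le (inf_le_left.trans hNΓ)
  have := card_sup_mul_card_inf (N.subgroupOf Γ) (A.subgroupOf Γ)
  rwa [hsup, Subgroup.card_top, hinf, hcardN, hcardA] at this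

/-- membership in the normalizer from a fixed conjugate -/
theorem mem_normalizer_of_conj_smul_eq {G : Type u} [Group G] (Q : Subgroup G) (g : G)
    (h : MulAut.conj g • Q = Q) : g ∈ Subgroup.normalizer (Q : Set G) := by
  rw [Subgroup.mem_normalizer_iff]
  intro x
  constructor
  · intro hx
    rw [← h, mem_conj_smul]
    have : g⁻¹ * (g * x * g⁻¹) * g = x := by group
    rw [this]; exact hx
  · intro hx
    rw [← h, mem_conj_smul] at hx
    have : g⁻¹ * (g * x * g⁻¹) * g = x := by group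
    rwa [this] at hx

theorem conj_smul_eq_of_mem_normalizer {G : Type u} [Group G] (Q : Subgroup G) (g : G)
    (h : g ∈ Subgroup.normalizer (Q : Set G)) : MulAut.conj g • Q = Q := by
  ext x
  rw [mem_conj_smul]
  have hg' : g⁻¹ ∈ Subgroup.normalizer (Q : Set G) := inv_mem h
  rw [Subgroup.mem_normalizer_iff] at hg'
  have := hg' x
  rw [inv_inv] at this
  exact this.symm

/-- **P6 (invariant complement)** of the S1444 project. -/
theorem lemmaCompl : Cfsg.Agent.Lib.Helper23.BG36.LemmaCompl.{u} := by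
  intro X _ _ V L R hVL hLV hRV hRL hVab hcop hcopR hC
  classical
  have hVsolv : Group.IsSolvable V := by
    exact Group.isSolvable_of_comm (fun a b => Subtype.ext (hVab a a.2 b b.2))
  obtain ⟨Q0, hQ0L, hQ0card⟩ := sz_exists_internal L V hVL hLV hcop
  have hcop0 : (Nat.card Q0).Coprime (Nat.card V) := by rw [hQ0card]; exact hcop.symm
  have hQ0V : Q0 ≤ Subgroup.normalizer (V : Set X) := hQ0L.trans hLV
  have hsupcard : Nat.card (V ⊔ Q0 : Subgroup X) = Nat.card V * Nat.card Q0 :=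
    card_sup_of_normalizer_coprime V Q0 hQ0V hcop0
  have hsup : V ⊔ Q0 = L := by
    apply Subgroup.eq_of_le_of_card_ge (sup_le hVL hQ0L)
    rw [hsupcard, hQ0card, ← card_eq_card_mul_relIndex hVL]
  have hinf : V ⊓ Q0 = ⊥ := by
    rw [eq_bot_iff]
    intro x hx
    exact eq_one_of_mem_of_coprime hcop0 hx.2 hx.1
  -- every element of `R` is, modulo `V`, in the normalizer of `Q0`
  have key : ∀ ρ ∈ R, ∃ n ∈ V, n * ρ ∈ Subgroup.normalizer (Q0 : Set X) := by
    intro ρ hρ
    have hA₁ : MulAut.conj ρ • Q0 ≤ V ⊔ Q0 := by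
      rw [hsup]
      intro x hx
      rw [mem_conj_smul] at hx
      have h1 : ρ⁻¹ * x * ρ ∈ L := hQ0L hx
      have h2 := (Subgroup.mem_normalizer_iff.mp (hRL hρ) (ρ⁻¹ * x * ρ)).mp h1
      have : ρ * (ρ⁻¹ * x * ρ) * ρ⁻¹ = x := by group
      rwa [this] at h2
    obtain ⟨n, hn, hconj⟩ := sz_conj_internal V Q0 (MulAut.conj ρ • Q0) hQ0V hcop0
      (Or.inr hVsolv) hA₁ (card_conj_smul Q0 ρ)
    refine ⟨n, hn, mem_normalizer_of_conj_smul_eq Q0 (n * ρ) ?_⟩
    rw [map_mul, mul_smul]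
    exact hconj
  set R1 : Subgroup X := (V ⊔ R) ⊓ Subgroup.normalizer (Q0 : Set X) with hR1
  have hR1le : R1 ≤ V ⊔ R := inf_le_left
  have hΓV : V ⊔ R ≤ Subgroup.normalizer (V : Set X) := sup_le Subgroup.le_normalizer hRV
  have hR1V : R1 ≤ Subgroup.normalizer (V : Set X) := hR1le.trans hΓV
  have hsup1 : V ⊔ R1 = V ⊔ R := by
    apply le_antisymm (sup_le le_sup_left hR1le)
    apply sup_le le_sup_left
    intro ρ hρ
    obtain ⟨n, hn, hnρ⟩ := key ρ hρ
    have h1 : n * ρ ∈ R1 := ⟨Subgroup.mul_mem_sup hn hρ, hnρ⟩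
    have h2 : ρ = n⁻¹ * (n * ρ) := by group
    rw [h2]
    exact Subgroup.mul_mem_sup (inv_mem hn) h1
  have hinf1 : V ⊓ R1 = ⊥ := by
    rw [eq_bot_iff]
    intro v hv
    obtain ⟨hvV, hvR1⟩ := hv
    have hvN : v ∈ Subgroup.normalizer (Q0 : Set X) := hvR1.2
    -- `v` centralizes `Q0`
    have hvQ : ∀ q ∈ Q0, v * q = q * v := by
      intro q hq
      have h1 : v * q * v⁻¹ ∈ Q0 := (Subgroup.mem_normalizer_iff.mp hvN q).mp hq
      have h2 : v * q * v⁻¹ * q⁻¹ ∈ Q0 := mul_mem h1 (inv_mem hq)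
      have h3 : q * v⁻¹ * q⁻¹ ∈ V :=
        (Subgroup.mem_normalizer_iff.mp (hQ0V hq) v⁻¹).mp (inv_mem hvV)
      have h4 : v * q * v⁻¹ * q⁻¹ ∈ V := by
        have : v * q * v⁻¹ * q⁻¹ = v * (q * v⁻¹ * q⁻¹) := by group
        rw [this]; exact mul_mem hvV h3
      have h5 : v * q * v⁻¹ * q⁻¹ = 1 := by
        have : v * q * v⁻¹ * q⁻¹ ∈ V ⊓ Q0 := ⟨h4, h2⟩
        rw [hinf] at this
        exact this
      calc v * q = v * q * v⁻¹ * q⁻¹ * (q * v) := by group
        _ = q * v := by rw [h5, one_mul]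
    have hvL : v ∈ Subgroup.centralizer (L : Set X) := by
      rw [Subgroup.mem_centralizer_iff]
      intro l hl
      rw [← hsup] at hl
      -- l ∈ V ⊔ Q0
      have hcl : (V ⊔ Q0 : Subgroup X) ≤ Subgroup.centralizer ({v} : Set X) := by
        apply sup_le
        · intro w hw
          rw [Subgroup.mem_centralizer_iff]
          intro y hy
          rw [Set.mem_singleton_iff] at hy
          rw [hy]
          exact hVab v hvV w hw
        · intro q hq
          rw [Subgroup.mem_centralizer_iff]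
          intro y hy
          rw [Set.mem_singleton_iff] at hy
          rw [hy]
          exact hvQ q hq
      have := hcl hl
      rw [Subgroup.mem_centralizer_iff] at this
      exact (this v rfl).symm
    have : v ∈ V ⊓ Subgroup.centralizer (L : Set X) := ⟨hvV, hvL⟩
    rw [hC] at this
    exact this
  have hcardR1 : Nat.card R1 = Nat.card R := by
    have h1 := card_sup_mul_card_inf_nz V R1 hR1V
    rw [hsup1, hinf1, Subgroup.card_bot, mul_one,
      card_sup_of_normalizer_coprime V R hRV hcopR] at h1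
    exact (Nat.eq_of_mul_eq_mul_left Nat.card_pos h1).symm
  obtain ⟨n, hn, hconj⟩ := sz_conj_internal V R R1 hRV hcopR (Or.inr hVsolv) hR1le hcardR1
  refine ⟨MulAut.conj n • Q0, ?_, ?_, ?_, ?_⟩
  · intro x hx
    rw [mem_conj_smul] at hx
    have h1 : n⁻¹ * x * n ∈ L := hQ0L hx
    have hnL : n ∈ L := hVL hn
    have : x = n * (n⁻¹ * x * n) * n⁻¹ := by group
    rw [this]
    exact mul_mem (mul_mem hnL h1) (inv_mem hnL)
  · rw [eq_bot_iff]
    intro x hx
    obtain ⟨hxV, hxQ⟩ := hx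
    have hxQ' : x ∈ MulAut.conj n • Q0 := hxQ
    rw [mem_conj_smul] at hxQ'
    have hxQ := hxQ'
    have h1 : n⁻¹ * x * n ∈ V := mul_mem (mul_mem (inv_mem hn) hxV) hn
    have h2 : n⁻¹ * x * n ∈ V ⊓ Q0 := ⟨h1, hxQ⟩
    rw [hinf] at h2
    have h3 : n⁻¹ * x * n = 1 := h2
    have : x = n * (n⁻¹ * x * n) * n⁻¹ := by group
    rw [this, h3]; simp
  · apply le_antisymm
    · apply sup_le hVL
      intro x hx
      rw [mem_conj_smul] at hx
      have h1 : n⁻¹ * x * n ∈ L := hQ0L hx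
      have hnL : n ∈ L := hVL hn
      have : x = n * (n⁻¹ * x * n) * n⁻¹ := by group
      rw [this]
      exact mul_mem (mul_mem hnL h1) (inv_mem hnL)
    · rw [← hsup]
      apply sup_le le_sup_left
      intro q hq
      have h1 : n * q * n⁻¹ ∈ MulAut.conj n • Q0 := by
        rw [mem_conj_smul]
        have : n⁻¹ * (n * q * n⁻¹) * n = q := by group
        rw [this]; exact hq
      have h2 : q = n⁻¹ * (n * q * n⁻¹) * n := by group
      rw [h2]
      exact mul_mem (mul_mem (Subgroup.mem_sup_left (inv_mem hn)) (Subgroup.mem_sup_right h1))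
        (Subgroup.mem_sup_left hn)
  · -- `R = n R1 n⁻¹` normalizes `n Q0 n⁻¹`
    intro ρ hρ
    rw [← hconj, mem_conj_smul] at hρ
    have h1 : n⁻¹ * ρ * n ∈ Subgroup.normalizer (Q0 : Set X) := hρ.2
    have h2 := conj_smul_eq_of_mem_normalizer Q0 _ h1
    apply mem_normalizer_of_conj_smul_eq
    rw [← mul_smul, ← map_mul]
    have h3 : ρ * n = n * (n⁻¹ * ρ * n) := by group
    rw [h3, map_mul, mul_smul, h2]

end Cfsg.Agent.Lib.Helper27.BG36
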