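import Mathlib
import Cfsg.Agent.Lib.Helper21.HallDefs

set_option autoImplicit false

namespace Cfsg.Agent.Lib.Helper27.HallFiveT

open Cfsg.Agent.Lib.Helper21.Hall

universe u v

/-- the complement of a point, as a type -/
abbrev Compl {α : Type v} (a : α) : Type v := {p : α // p ≠ a}

instance complMulAction {G : Type u} [Group G] {α : Type v} [MulAction G α] (a : α) :
    MulAction (MulAction.stabilizer G a) (Compl a) where
  smul g p := ⟨(g : G) • p.1, fun h => p.2 (by
    have h1 : (g : G) • a = a := g.2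
    have h2 : (g : G) • p.1 = (g : G) • a := h.trans h1.symm
    exact MulAction.injective _ h2)⟩
  one_smul p := Subtype.ext (one_smul G p.1)
  mul_smul g g' p := Subtype.ext (mul_smul (g : G) (g' : G) p.1)

theorem compl_smul_val {G : Type u} [Group G] {α : Type v} [MulAction G α] (a : α)
    (g : MulAction.stabilizer G a) (p : Compl a) : (g • p).1 = (g : G) • p.1 := rfl

theorem card_compl {α : Type v} [Finite α] (a : α) : Nat.card α = Nat.card (Compl a) + 1 := by
  classical
  rw [← Nat.card_congr (Equiv.optionSubtypeNe a)]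
  exact Finite.card_option

theorem hyp_compl {G : Type u} [Group G] [Finite G] {α : Type v} [Finite α] [MulAction G α]
    (h : Hyp G α) (a b c d : α) (hd : Dist4 a b c d)
    (h5 : ∀ u v : α, u ≠ a → u ≠ b → u ≠ c → u ≠ d → v ≠ a → v ≠ b → v ≠ c → v ≠ d →
        ∃ g : G, g • a = a ∧ g • b = b ∧ g • c = c ∧ g • d = d ∧ g • u = v) :
    Hyp (MulAction.stabilizer G a) (Compl a) := by
  obtain ⟨hab, hac, had, hbc, hbd, hcd⟩ := hd
  refine ⟨?_, ?_⟩
  · intro p1 p2 p3 p4 q1 q2 q3 q4 hp hq
    obtain ⟨hp12, hp13, hp14, hp23, hp24, hp34⟩ := hp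
    obtain ⟨hq12, hq13, hq14, hq23, hq24, hq34⟩ := hq
    have ne : ∀ {s t : Compl a}, s ≠ t → s.1 ≠ t.1 := fun hst h' => hst (Subtype.ext h')
    obtain ⟨g1, g1a, g11, g12, g13⟩ := h.tr a p1.1 p2.1 p3.1 a q1.1 q2.1 q3.1
      ⟨p1.2.symm, p2.2.symm, p3.2.symm, ne hp12, ne hp13, ne hp23⟩
      ⟨q1.2.symm, q2.2.symm, q3.2.symm, ne hq12, ne hq13, ne hq23⟩
    obtain ⟨g2, g2a, g21, g22, g23⟩ := h.tr a b c d a q1.1 q2.1 q3.1
      ⟨hab, hac, had, hbc, hbd, hcd⟩
      ⟨q1.2.symm, q2.2.symm, q3.2.symm, ne hq12, ne hq13, ne hq23⟩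
    have inj1 := MulAction.injective (β := α) g1
    have inj2 := MulAction.injective (β := α) g2
    have key : ∀ {y z : α}, g2⁻¹ • y = z → y = g2 • z := by
      intro y z hyz
      rw [← hyz, smul_inv_smul]
    obtain ⟨g3, g3a, g3b, g3c, g3d, g3u⟩ := h5 (g2⁻¹ • (g1 • p4.1)) (g2⁻¹ • q4.1)
      (fun h' => p4.2 (inj1 ((key h').trans (g2a.trans g1a.symm))))
      (fun h' => by
        have := key h'
        rw [g21, ← g11] at this
        exact ne hp14 (inj1 this).symm)
      (fun h' => by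
        have := key h'
        rw [g22, ← g12] at this
        exact ne hp24 (inj1 this).symm)
      (fun h' => by
        have := key h'
        rw [g23, ← g13] at this
        exact ne hp34 (inj1 this).symm)
      (fun h' => q4.2 ((key h').trans g2a))
      (fun h' => by
        have := key h'
        rw [g21] at this
        exact ne hq14 this.symm)
      (fun h' => by
        have := key h'
        rw [g22] at this
        exact ne hq24 this.symm)
      (fun h' => by
        have := key h'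
        rw [g23] at this
        exact ne hq34 this.symm)
    have inv2 : ∀ {y z : α}, g2 • y = z → g2⁻¹ • z = y := by
      intro y z hyz
      rw [← hyz, inv_smul_smul]
    have hga : (g2 * g3 * g2⁻¹ * g1) • a = a := by
      have e1 : g2⁻¹ • a = a := inv2 g2a
      calc (g2 * g3 * g2⁻¹ * g1) • a = g2 • g3 • g2⁻¹ • g1 • a := by
            simp only [mul_smul]
        _ = g2 • g3 • g2⁻¹ • a := by exact congrArg (fun t => g2 • g3 • g2⁻¹ • t) g1a
        _ = g2 • g3 • a := by exact congrArg (fun t => g2 • g3 • t) e1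
        _ = g2 • a := by exact congrArg (fun t => g2 • t) g3a
        _ = a := g2a
    refine ⟨⟨g2 * g3 * g2⁻¹ * g1, hga⟩, ?_, ?_, ?_, ?_⟩
    · apply Subtype.ext
      rw [compl_smul_val]
      show (g2 * g3 * g2⁻¹ * g1) • p1.1 = q1.1
      rw [mul_smul, mul_smul, mul_smul, g11, inv2 g21, g3b, g21]
    · apply Subtype.ext
      rw [compl_smul_val]
      show (g2 * g3 * g2⁻¹ * g1) • p2.1 = q2.1
      rw [mul_smul, mul_smul, mul_smul, g12, inv2 g22, g3c, g22]
    · apply Subtype.ext
      rw [compl_smul_val]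
      show (g2 * g3 * g2⁻¹ * g1) • p3.1 = q3.1
      rw [mul_smul, mul_smul, mul_smul, g13, inv2 g23, g3d, g23]
    · apply Subtype.ext
      rw [compl_smul_val]
      show (g2 * g3 * g2⁻¹ * g1) • p4.1 = q4.1
      rw [mul_smul, mul_smul, mul_smul, g3u, smul_inv_smul]
  · intro g p1 p2 p3 p4 hp h1 h2 h3 h4
    obtain ⟨hp12, hp13, hp14, hp23, hp24, hp34⟩ := hp
    have ne : ∀ {s t : Compl a}, s ≠ t → s.1 ≠ t.1 := fun hst h' => hst (Subtype.ext h')
    have := h.odd (g : G) p1.1 p2.1 p3.1 p4.1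
      ⟨ne hp12, ne hp13, ne hp14, ne hp23, ne hp24, ne hp34⟩
      (congrArg Subtype.val h1) (congrArg Subtype.val h2) (congrArg Subtype.val h3)
      (congrArg Subtype.val h4)
    rwa [Subgroup.orderOf_coe] at this

theorem fiveT {G : Type u} [Group G] [Finite G] {α : Type v} [Finite α] [MulAction G α]
    (h : Hyp G α) (x : G) (a b c d e : α) (hd : Dist4 a b c d) (hea : e ≠ a) (heb : e ≠ b)
    (hx2 : x * x = 1) (hxa : x • a = a) (hxb : x • b = b) (hxc : x • c = d) (hxd : x • d = c)
    (hxe : x • e = e) (hfix : ∀ p, x • p = p → p = a ∨ p = b ∨ p = e)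
    (h5 : ∀ u v : α, u ≠ a → u ≠ b → u ≠ c → u ≠ d → v ≠ a → v ≠ b → v ≠ c → v ≠ d →
        ∃ g : G, g • a = a ∧ g • b = b ∧ g • c = c ∧ g • d = d ∧ g • u = v)
    (caseA : ∀ (G' : Type u) [Group G'] [Finite G'] (α' : Type v) [Finite α'] [MulAction G' α'],
        Hyp G' α' → ∀ (x : G') (a b c d : α'), Dist4 a b c d → x * x = 1 → x • a = a → x • b = b →
        x • c = d → x • d = c → (∀ p, x • p = p → p = a ∨ p = b) → Nat.card α' ≤ 6) :
    Nat.card α ≤ 7 := by
  have hyp := hyp_compl h a b c d hd h5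
  obtain ⟨hab, hac, had, hbc, hbd, hcd⟩ := hd
  have hec : e ≠ c := fun h' => hcd (by rw [← hxc, ← h', hxe])
  have hed : e ≠ d := fun h' => hcd (by rw [← hxd, ← h', hxe])
  have key := caseA (MulAction.stabilizer G a) (Compl a) hyp ⟨x, hxa⟩
    ⟨b, hab.symm⟩ ⟨e, hea⟩ ⟨c, hac.symm⟩ ⟨d, had.symm⟩
    ⟨fun h' => heb (congrArg Subtype.val h').symm, fun h' => hbc (congrArg Subtype.val h'),
      fun h' => hbd (congrArg Subtype.val h'), fun h' => hec (congrArg Subtype.val h'),
      fun h' => hed (congrArg Subtype.val h'), fun h' => hcd (congrArg Subtype.val h')⟩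
    (Subtype.ext hx2) (Subtype.ext hxb) (Subtype.ext hxe) (Subtype.ext hxc) (Subtype.ext hxd)
    (fun p hp => by
      rcases hfix p.1 (congrArg Subtype.val hp) with h' | h' | h'
      · exact absurd h' p.2
      · exact Or.inl (Subtype.ext h')
      · exact Or.inr (Subtype.ext h'))
  rw [card_compl a]
  omega

end Cfsg.Agent.Lib.Helper27.HallFiveT
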