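import Mathlib

set_option autoImplicit false

/-! Subsets of a finite type with a chosen numbering, as bit masks (natural numbers). -/

namespace Cfsg.Agent.Lib.Helper27.Bits

set_option linter.unusedSectionVars false

variable {α : Type*} [Fintype α] [DecidableEq α] {n : ℕ} (e : α ≃ Fin n)

/-- the subset encoded by a mask -/
def ofMask (m : ℕ) : Finset α := Finset.univ.filter (fun a => m.testBit (e a) = true)

/-- the mask of a subset -/
def toMask (s : Finset α) : ℕ := Nat.ofBits (fun i : Fin n => decide (e.symm i ∈ s))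

theorem mem_ofMask {m : ℕ} {a : α} : a ∈ ofMask e m ↔ m.testBit (e a) = true := by
  simp [ofMask]

theorem toMask_lt (s : Finset α) : toMask e s < 2 ^ n := Nat.ofBits_lt_two_pow _

theorem ofMask_toMask (s : Finset α) : ofMask e (toMask e s) = s := by
  ext a
  rw [mem_ofMask, toMask, Nat.testBit_ofBits_lt _ _ (e a).isLt]
  simp

theorem ofMask_and (m m' : ℕ) : ofMask e (m &&& m') = ofMask e m ∩ ofMask e m' := by
  ext a
  simp [mem_ofMask, Nat.testBit_and]

theorem ofMask_or (m m' : ℕ) : ofMask e (m ||| m') = ofMask e m ∪ ofMask e m' := by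
  ext a
  simp [mem_ofMask, Nat.testBit_or]

theorem ofMask_inj {m m' : ℕ} (hm : m < 2 ^ n) (hm' : m' < 2 ^ n)
    (h : ofMask e m = ofMask e m') : m = m' := by
  apply Nat.eq_of_testBit_eq
  intro i
  by_cases hi : i < n
  · have h1 : (e.symm ⟨i, hi⟩ ∈ ofMask e m) ↔ (e.symm ⟨i, hi⟩ ∈ ofMask e m') := by rw [h]
    simp only [mem_ofMask, Equiv.apply_symm_apply] at h1
    exact Bool.eq_iff_iff.mpr h1
  · have hle : n ≤ i := Nat.le_of_not_lt hi
    rw [Nat.testBit_lt_two_pow (lt_of_lt_of_le hm (Nat.pow_le_pow_right (by norm_num) hle)),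
      Nat.testBit_lt_two_pow (lt_of_lt_of_le hm' (Nat.pow_le_pow_right (by norm_num) hle))]

theorem toMask_ofMask {m : ℕ} (hm : m < 2 ^ n) : toMask e (ofMask e m) = m :=
  ofMask_inj e (toMask_lt e _) hm (ofMask_toMask e _)

theorem and_lt {m : ℕ} (m' : ℕ) (hm : m < 2 ^ n) : m &&& m' < 2 ^ n :=
  lt_of_le_of_lt Nat.and_le_left hm

theorem subset_iff {m m' : ℕ} (hm : m < 2 ^ n) : ofMask e m ⊆ ofMask e m' ↔ m &&& m' = m := by
  constructor
  · intro h
    apply ofMask_inj e (and_lt m' hm) hm
    rw [ofMask_and]
    exact Finset.inter_eq_left.mpr h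
  · intro h
    rw [← h, ofMask_and]
    exact Finset.inter_subset_right

/-- number of set bits below position `n` -/
def popc (n m : ℕ) : ℕ := ((List.range n).filter (fun i => m.testBit i)).length

theorem card_ofMask (m : ℕ) : (ofMask e m).card = popc n m := by
  have h1 : (ofMask e m).card = ((Finset.range n).filter (fun i => m.testBit i = true)).card := by
    apply Finset.card_bij (fun a _ => ((e a : Fin n) : ℕ))
    · intro a ha
      rw [Finset.mem_filter, Finset.mem_range]
      exact ⟨(e a).isLt, (mem_ofMask e).mp ha⟩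
    · intro a _ b _ hab
      exact e.injective (Fin.ext hab)
    · intro i hi
      rw [Finset.mem_filter, Finset.mem_range] at hi
      refine ⟨e.symm ⟨i, hi.1⟩, ?_, ?_⟩
      · rw [mem_ofMask]; simpa using hi.2
      · simp
  rw [h1, popc]
  show (Multiset.filter (fun i => m.testBit i = true) (Multiset.range n)).card = _
  rw [Multiset.range, Multiset.filter_coe, Multiset.coe_card]
  congr 1
  apply List.filter_congr
  intro i _
  simp

/-- quantification over all subsets reduces to quantification over masks -/
theorem forall_finset {P : Finset α → Prop} (h : ∀ m < 2 ^ n, P (ofMask e m)) (s : Finset α) : P s := by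
  have := h (toMask e s) (toMask_lt e s)
  rwa [ofMask_toMask] at this

/-- a bounded quantifier over `a * b` numbers, split in two levels (keeps kernel recursion shallow) -/
theorem forall_lt_of_split {P : ℕ → Prop} (a b : ℕ) (h : ∀ i < a, ∀ j < b, P (b * i + j)) :
    ∀ m < a * b, P m := by
  intro m hm
  have hb : 0 < b := by
    rcases Nat.eq_zero_or_pos b with h0 | h0
    · subst h0; simp at hm
    · exact h0
  have := h (m / b) (Nat.div_lt_of_lt_mul (by rwa [Nat.mul_comm] at hm)) (m % b) (Nat.mod_lt _ hb)
  rwa [Nat.div_add_mod] at this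

end Cfsg.Agent.Lib.Helper27.Bits
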