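import Mathlib
import Cfsg.Prelude.Def_Blocks
import Cfsg.Agent.Lib.Helper78.SectionNorm
import Cfsg.Agent.Lib.Helper78.BlockOrth
import Cfsg.Agent.Lib.Helper81.CharCore
import Cfsg.Agent.Lib.Helper16.ClassSum

set_option autoImplicit false

/-! # Brauer's column inner product formula for the principal block -/

namespace Cfsg.Agent.Lib.Helper27.Col

open Cfsg

section

variable {G : Type*} [Group G] [Finite G]

omit [Finite G] in
theorem isPPart_self {p : ℕ} [Fact p.Prime] {z : G} (hz : ∃ k : ℕ, orderOf z = p ^ k) :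
    Cfsg.IsPPart p z z := by
  refine ⟨1, mul_one z, Commute.one_right z, hz, ?_⟩
  rw [orderOf_one]
  exact (Fact.out : p.Prime).one_lt.ne' ∘ Nat.dvd_one.1

/-- the principal block sum of `χ z' * χ z⁻¹` for two `p`-elements -/
theorem block_sum (p : ℕ) [Fact p.Prime] (M : Ideal Cfsg.AlgInt) (hM : Cfsg.IsPModular p M)
    {z z' : G} (hz : ∃ k : ℕ, orderOf z = p ^ k) (hz' : ∃ k : ℕ, orderOf z' = p ^ k) :
    ∑ᶠ χ ∈ Cfsg.principalBlock M G, (χ : G → ℂ) z' * (χ : G → ℂ) z⁻¹ =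
      open scoped Classical in
      if IsConj z' z then
        ∑ᶠ ξ ∈ Cfsg.principalBlock M (Subgroup.centralizer ({z} : Set G)),
          (ξ : Subgroup.centralizer ({z} : Set G) → ℂ) 1 *
            (ξ : Subgroup.centralizer ({z} : Set G) → ℂ) 1⁻¹
      else 0 := by
  classical
  let _ := Fintype.ofFinite G
  have hB0 : Cfsg.IsPBlock M (Cfsg.principalBlock M G) :=
    ⟨⟨fun _ => (1 : ℂ), Cfsg.Agent.Lib.Helper81.isIrrCharacter_one⟩, rfl⟩
  split_ifs with hc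
  · obtain ⟨c, hc⟩ := isConj_iff.mp hc
    have h := Cfsg.Agent.Lib.Helper78.section_norm p M hM z hz 1 (by
      rw [orderOf_one]
      exact (Fact.out : p.Prime).one_lt.ne' ∘ Nat.dvd_one.1)
    rw [← h]
    apply finsum_mem_congr rfl
    intro χ _
    have e1 : (χ : G → ℂ) z' = (χ : G → ℂ) z := by
      rw [← hc, Cfsg.Agent.Lib.Helper81.irr_conj_class]
    rw [e1, Cfsg.Agent.Lib.Helper81.irr_inv]
    simp
  · exact Cfsg.Agent.Lib.Helper78.block_orth_sum hM _ hB0 (isPPart_self hz') (isPPart_self hz) hc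

/-- the value of the centraliser sum in terms of degrees -/
theorem lam_eq (M : Ideal Cfsg.AlgInt) (H : Type*) [Group H] [Finite H] :
    ∑ᶠ ξ ∈ Cfsg.principalBlock M H, (ξ : H → ℂ) 1 * (ξ : H → ℂ) 1⁻¹ =
      (((∑ᶠ ψ ∈ Cfsg.principalBlock M H, Cfsg.charDegree (ψ : H → ℂ) ^ 2 : ℚ)) : ℂ) := by
  classical
  have := Cfsg.Agent.Lib.Helper81.irr_finite (G := H)
  have hfin : (Cfsg.principalBlock M H).Finite := Set.toFinite _
  have e := AddMonoidHom.map_finsum_mem (fun ψ : Cfsg.IrrCharacter H =>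
    ((Cfsg.charDegree (ψ : H → ℂ) : ℚ)) ^ 2) (Rat.castHom ℂ).toAddMonoidHom hfin
  have e' : (((∑ᶠ ψ ∈ Cfsg.principalBlock M H, (Cfsg.charDegree (ψ : H → ℂ) : ℚ) ^ 2 : ℚ)) : ℂ) =
      ∑ᶠ ψ ∈ Cfsg.principalBlock M H, (((Cfsg.charDegree (ψ : H → ℂ) : ℚ) ^ 2 : ℚ) : ℂ) := e
  rw [e']
  apply finsum_mem_congr rfl
  intro ξ _
  obtain ⟨n, hn, h1⟩ := Cfsg.Agent.Lib.Helper81.irr_one_eq ξ
  have hd : Cfsg.charDegree (ξ : H → ℂ) = n := by
    unfold Cfsg.charDegree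
    rw [h1]
    simp
  rw [inv_one, h1, hd]
  simp [sq]

omit [Finite G] in
/-- the number of elements of `N` conjugating `z` to `z'` -/
theorem card_conj (P N : Subgroup G) [Fintype ↥N] [DecidableEq G] (U : Set G)
    (hfus : ∀ u ∈ U, ∀ g : G, g * u * g⁻¹ ∈ (P : Set G) → ∃ n ∈ N, n * u * n⁻¹ = g * u * g⁻¹)
    (z z' : ↥P) (hzU : (z : G) ∈ U) :
    ((Finset.univ.filter (fun x : ↥N => (x : G) * (z : G) * (x : G)⁻¹ = (z' : G))).card : ℂ) =
      open scoped Classical in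
      if IsConj (z' : G) (z : G) then (Nat.card ↥(N ⊓ Subgroup.centralizer ({(z : G)} : Set G)) : ℂ)
      else 0 := by
  classical
  split_ifs with hconj
  · obtain ⟨g, hg⟩ := isConj_iff.1 hconj.symm
    have hgP : g * (z : G) * g⁻¹ ∈ (P : Set G) := by rw [hg]; exact z'.2
    obtain ⟨n0, hn0, hn0z⟩ := hfus z hzU g hgP
    rw [hg] at hn0z
    congr 1
    rw [← Fintype.card_subtype, ← Nat.card_eq_fintype_card]
    apply Nat.card_congr
    exact
      { toFun := fun x => ⟨n0⁻¹ * (x.1 : G), Subgroup.mem_inf.2 ⟨N.mul_mem (N.inv_mem hn0) x.1.2, by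
          rw [Subgroup.mem_centralizer_iff]
          intro m hm
          rw [Set.mem_singleton_iff] at hm
          subst hm
          have h1 : (x.1 : G) * (z : G) = n0 * (z : G) * n0⁻¹ * (x.1 : G) := by
            have hx : (x.1 : G) * (z : G) * (x.1 : G)⁻¹ = n0 * (z : G) * n0⁻¹ :=
              x.2.trans hn0z.symm
            calc (x.1 : G) * (z : G) = ((x.1 : G) * (z : G) * (x.1 : G)⁻¹) * (x.1 : G) := by group
              _ = n0 * (z : G) * n0⁻¹ * (x.1 : G) := by rw [hx]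
          calc (z : G) * (n0⁻¹ * (x.1 : G)) = n0⁻¹ * (n0 * (z : G) * n0⁻¹ * (x.1 : G)) := by group
            _ = n0⁻¹ * (x.1 : G) * (z : G) := by rw [← h1]; group⟩⟩
        invFun := fun c => ⟨⟨n0 * (c : G), N.mul_mem hn0 (Subgroup.mem_inf.1 c.2).1⟩, by
          have hc := Subgroup.mem_centralizer_iff.1 (Subgroup.mem_inf.1 c.2).2 (z : G)
            (Set.mem_singleton _)
          show n0 * (c : G) * (z : G) * (n0 * (c : G))⁻¹ = (z' : G)
          rw [← hn0z]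
          calc n0 * (c : G) * (z : G) * (n0 * (c : G))⁻¹
              = n0 * ((c : G) * (z : G)) * (c : G)⁻¹ * n0⁻¹ := by group
            _ = n0 * (z : G) * n0⁻¹ := by rw [← hc]; group⟩
        left_inv := fun x => by
          apply Subtype.ext
          apply Subtype.ext
          show n0 * (n0⁻¹ * (x.1 : G)) = (x.1 : G)
          group
        right_inv := fun c => by
          apply Subtype.ext
          show n0⁻¹ * (n0 * (c : G)) = (c : G)
          group }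
  · rw [Nat.cast_eq_zero, Finset.card_eq_zero, Finset.filter_eq_empty_iff]
    intro x _ hx
    exact hconj (isConj_iff.2 ⟨(x : G), hx⟩).symm

/-- **Brauer's column inner product formula** -/
theorem columns (p : ℕ) [Fact p.Prime] (M : Ideal Cfsg.AlgInt) (hM : Cfsg.IsPModular p M)
    (P : Subgroup G) (hP : IsPGroup p P) (N : Subgroup G)
    (hNN : N ≤ Subgroup.normalizer (P : Set G)) (U : Set G)
    (hfus : ∀ u ∈ U, ∀ g : G, g * u * g⁻¹ ∈ (P : Set G) → ∃ n ∈ N, n * u * n⁻¹ = g * u * g⁻¹)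
    (w : ℚ)
    (hw : ∀ y ∈ U, ((∑ᶠ ψ ∈ Cfsg.principalBlock M ↥(Subgroup.centralizer ({y} : Set G)),
      Cfsg.charDegree (ψ : ↥(Subgroup.centralizer ({y} : Set G)) → ℂ) ^ 2) : ℚ) =
        w * Nat.card ↥(N ⊓ Subgroup.centralizer ({y} : Set G)))
    (θ η : ↥P → ℂ) (hθU : ∀ y : ↥P, (y : G) ∉ U → θ y = 0) :
    ∑ᶠ χ ∈ Cfsg.principalBlock M G,
      ((Nat.card ↥P : ℂ)⁻¹ * ∑ᶠ y : ↥P, (χ : G → ℂ) (y : G) * θ y⁻¹) *
        (starRingEnd ℂ) ((Nat.card ↥P : ℂ)⁻¹ * ∑ᶠ y : ↥P, (χ : G → ℂ) (y : G) * η y⁻¹) =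
      ((w : ℂ) / ((Nat.card ↥P : ℂ) ^ 2)) * ∑ᶠ y : ↥P, θ y *
        (starRingEnd ℂ) (∑ᶠ x : ↥N, Cfsg.extendByZero P η ((x : G) * (y : G) * (x : G)⁻¹)) := by
  classical
  let _ := Fintype.ofFinite G
  let _ := Fintype.ofFinite ↥P
  let _ := Fintype.ofFinite ↥N
  have := Cfsg.Agent.Lib.Helper81.irr_finite (G := G)
  let _ := Fintype.ofFinite (Cfsg.IrrCharacter G)
  have hpe : ∀ z : ↥P, ∃ k : ℕ, orderOf (z : G) = p ^ k := by
    intro z
    obtain ⟨k, hk⟩ := hP z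
    have h1 : (z : G) ^ p ^ k = 1 := by
      have := congrArg Subtype.val hk
      simpa using this
    obtain ⟨j, -, hj⟩ := (Nat.dvd_prime_pow (Fact.out : p.Prime)).1 (orderOf_dvd_of_pow_eq_one h1)
    exact ⟨j, hj⟩
  have hA : ∀ (χ : Cfsg.IrrCharacter G) (f : ↥P → ℂ),
      ∑ᶠ y : ↥P, (χ : G → ℂ) (y : G) * f y⁻¹ = ∑ z : ↥P, (χ : G → ℂ) ((z : G)⁻¹) * f z := by
    intro χ f
    rw [finsum_eq_sum_of_fintype]
    exact Fintype.sum_equiv (Equiv.inv ↥P) _ _ (fun y => by simp)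
  have hcc : starRingEnd ℂ ((Nat.card ↥P : ℂ)⁻¹) = (Nat.card ↥P : ℂ)⁻¹ := by
    rw [map_inv₀, Complex.conj_natCast]
  have hterm : ∀ χ : Cfsg.IrrCharacter G,
      ((Nat.card ↥P : ℂ)⁻¹ * ∑ᶠ y : ↥P, (χ : G → ℂ) (y : G) * θ y⁻¹) *
        (starRingEnd ℂ) ((Nat.card ↥P : ℂ)⁻¹ * ∑ᶠ y : ↥P, (χ : G → ℂ) (y : G) * η y⁻¹) =
      ((Nat.card ↥P : ℂ)⁻¹) ^ 2 * ∑ z : ↥P, ∑ z' : ↥P, θ z * starRingEnd ℂ (η z') *
        ((χ : G → ℂ) (z' : G) * (χ : G → ℂ) (z : G)⁻¹) := by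
    intro χ
    rw [hA, hA, map_mul, map_sum, hcc]
    have e : (∑ z : ↥P, (χ : G → ℂ) ((z : G)⁻¹) * θ z) *
        (∑ z' : ↥P, starRingEnd ℂ ((χ : G → ℂ) ((z' : G)⁻¹) * η z')) =
        ∑ z : ↥P, ∑ z' : ↥P, θ z * starRingEnd ℂ (η z') *
          ((χ : G → ℂ) (z' : G) * (χ : G → ℂ) (z : G)⁻¹) := by
      rw [Finset.sum_mul_sum]
      apply Finset.sum_congr rfl; intro z _
      apply Finset.sum_congr rfl; intro z' _
      rw [map_mul, ← Cfsg.Agent.Lib.Helper81.irr_inv, inv_inv]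
      ring
    rw [← e]
    ring
  -- the block sums
  have hS : ∀ z z' : ↥P, (∑ χ : Cfsg.IrrCharacter G, if χ ∈ Cfsg.principalBlock M G then
      (χ : G → ℂ) (z' : G) * (χ : G → ℂ) (z : G)⁻¹ else 0) =
      if IsConj (z' : G) (z : G) then
        ∑ᶠ ξ ∈ Cfsg.principalBlock M (Subgroup.centralizer ({(z : G)} : Set G)),
          (ξ : Subgroup.centralizer ({(z : G)} : Set G) → ℂ) 1 *
            (ξ : Subgroup.centralizer ({(z : G)} : Set G) → ℂ) 1⁻¹
      else 0 := by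
    intro z z'
    rw [← Cfsg.Agent.Lib.Helper16.finsum_mem_eq_sum_ite]
    have := block_sum p M hM (hpe z) (hpe z')
    convert this using 2
  have hL : (∑ᶠ χ ∈ Cfsg.principalBlock M G,
      ((Nat.card ↥P : ℂ)⁻¹ * ∑ᶠ y : ↥P, (χ : G → ℂ) (y : G) * θ y⁻¹) *
        (starRingEnd ℂ) ((Nat.card ↥P : ℂ)⁻¹ * ∑ᶠ y : ↥P, (χ : G → ℂ) (y : G) * η y⁻¹)) =
      ((Nat.card ↥P : ℂ)⁻¹) ^ 2 * ∑ z : ↥P, ∑ z' : ↥P, θ z * starRingEnd ℂ (η z') *
        (if IsConj (z' : G) (z : G) then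
        ∑ᶠ ξ ∈ Cfsg.principalBlock M (Subgroup.centralizer ({(z : G)} : Set G)),
          (ξ : Subgroup.centralizer ({(z : G)} : Set G) → ℂ) 1 *
            (ξ : Subgroup.centralizer ({(z : G)} : Set G) → ℂ) 1⁻¹
        else 0) := by
    rw [Cfsg.Agent.Lib.Helper16.finsum_mem_eq_sum_ite]
    have e1 : ∀ χ : Cfsg.IrrCharacter G, (if χ ∈ Cfsg.principalBlock M G then
        ((Nat.card ↥P : ℂ)⁻¹ * ∑ᶠ y : ↥P, (χ : G → ℂ) (y : G) * θ y⁻¹) *
        (starRingEnd ℂ) ((Nat.card ↥P : ℂ)⁻¹ * ∑ᶠ y : ↥P, (χ : G → ℂ) (y : G) * η y⁻¹) else 0) =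
        ((Nat.card ↥P : ℂ)⁻¹) ^ 2 * ∑ z : ↥P, ∑ z' : ↥P, θ z * starRingEnd ℂ (η z') *
          (if χ ∈ Cfsg.principalBlock M G then
            (χ : G → ℂ) (z' : G) * (χ : G → ℂ) (z : G)⁻¹ else 0) := by
      intro χ
      split_ifs with h
      · exact hterm χ
      · simp
    rw [Finset.sum_congr rfl (fun χ _ => e1 χ), ← Finset.mul_sum]
    congr 1
    rw [Finset.sum_comm]
    apply Finset.sum_congr rfl; intro z _
    rw [Finset.sum_comm]
    apply Finset.sum_congr rfl; intro z' _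
    rw [← Finset.mul_sum, hS]
  rw [hL]
  have hc2 : (w : ℂ) / ((Nat.card ↥P : ℂ) ^ 2) = ((Nat.card ↥P : ℂ)⁻¹) ^ 2 * (w : ℂ) := by
    rw [div_eq_mul_inv, inv_pow, mul_comm]
  rw [hc2, mul_assoc, finsum_eq_sum_of_fintype]
  congr 1
  rw [Finset.mul_sum]
  apply Finset.sum_congr rfl
  intro z _
  by_cases hzU : (z : G) ∈ U
  · -- the value of the centraliser sum
    have hLz : (∑ᶠ ξ ∈ Cfsg.principalBlock M (Subgroup.centralizer ({(z : G)} : Set G)),
          (ξ : Subgroup.centralizer ({(z : G)} : Set G) → ℂ) 1 *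
            (ξ : Subgroup.centralizer ({(z : G)} : Set G) → ℂ) 1⁻¹) =
        (w : ℂ) * (Nat.card ↥(N ⊓ Subgroup.centralizer ({(z : G)} : Set G)) : ℂ) := by
      rw [lam_eq, hw (z : G) hzU]
      push_cast
      rfl
    -- the orbit sum
    have hmem : ∀ x : ↥N, (x : G) * (z : G) * (x : G)⁻¹ ∈ P := fun x =>
      (Subgroup.mem_normalizer_iff.1 (hNN x.2) (z : G)).1 z.2
    have hstar : (∑ᶠ x : ↥N, Cfsg.extendByZero P η ((x : G) * (z : G) * (x : G)⁻¹)) =
        (Nat.card ↥(N ⊓ Subgroup.centralizer ({(z : G)} : Set G)) : ℂ) *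
          ∑ z' : ↥P, if IsConj (z' : G) (z : G) then η z' else 0 := by
      rw [finsum_eq_sum_of_fintype]
      have e1 : ∀ x : ↥N, Cfsg.extendByZero P η ((x : G) * (z : G) * (x : G)⁻¹) =
          ∑ z' : ↥P, if (x : G) * (z : G) * (x : G)⁻¹ = (z' : G) then η z' else 0 := by
        intro x
        have e2 : Cfsg.extendByZero P η ((x : G) * (z : G) * (x : G)⁻¹) =
            η ⟨(x : G) * (z : G) * (x : G)⁻¹, hmem x⟩ :=
          Function.Injective.extend_apply Subtype.val_injective η 0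
            ⟨(x : G) * (z : G) * (x : G)⁻¹, hmem x⟩
        rw [e2, Finset.sum_eq_single ⟨(x : G) * (z : G) * (x : G)⁻¹, hmem x⟩]
        · simp
        · intro b _ hb
          rw [if_neg]
          intro h
          exact hb (Subtype.ext h.symm)
        · intro h
          exact absurd (Finset.mem_univ _) h
      rw [Finset.sum_congr rfl (fun x _ => e1 x), Finset.sum_comm, Finset.mul_sum]
      apply Finset.sum_congr rfl
      intro z' _
      rw [← Finset.sum_filter, Finset.sum_const, nsmul_eq_mul, card_conj P N U hfus z z' hzU]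
      split_ifs <;> simp
    rw [hstar, map_mul, Complex.conj_natCast, map_sum]
    simp only [Finset.mul_sum]
    apply Finset.sum_congr rfl
    intro z' _
    split_ifs with hconj
    · rw [hLz]; ring
    · simp
  · rw [hθU z hzU]
    simp

end

end Cfsg.Agent.Lib.Helper27.Col
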