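import Cfsg.Agent.Lib.Helper27.CosetFixData

set_option autoImplicit false

open scoped Pointwise

namespace Cfsg.Agent.Lib.Helper27.CF

open Cfsg.Agent.Lib.Helper7 Cfsg.Agent.Lib.Helper27.OO Cfsg.Agent.Lib.Helper27.GC
  Cfsg.Agent.Lib.Helper27.Dod

theorem syn_zero : syn 0 = 0 := by decide +kernel

/-- A word outside the code is congruent to the first leader of a nonzero syndrome. -/
theorem leader (w : Cfsg.GolayPt → ZMod 2) (hw : w ∉ Cfsg.golayCode) :
    ∃ s, 0 < s ∧ s < 4096 ∧ w - wordOf (ent s 0) ∈ Cfsg.golayCode := by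
  have hm := maskOf_lt w
  have hs := syn_lt hm
  have hc := all_range chk_all _ hs
  refine ⟨syn (maskOf w), ?_, hs, ?_⟩
  · by_contra h0
    have h1 : syn (maskOf w) = 0 := by omega
    apply hw
    rw [mem_golayCode_iff_isCode]
    have := isCode_xor_of_syn (m := maskOf w) (a := 0) (h1.trans syn_zero.symm)
    simpa using this
  · have hsyn : syn (ent (syn (maskOf w)) 0) = syn (maskOf w) := by
      rw [chk, Bool.or_eq_true] at hc
      rcases hc with hc | hc
      · rw [Bool.and_eq_true, beq_iff_eq] at hc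
        exact hc.1
      · rw [Bool.and_eq_true, Bool.and_eq_true] at hc
        have := List.all_eq_true.mp hc.1.1 0 (by simp)
        rw [Bool.and_eq_true, beq_iff_eq] at this
        exact this.1
    have := sub_wordOf_mem hm (ent_lt _ 0) hsyn
    rwa [wordOf_maskOf] at this

/-- The coordinate action of a group element on a word given by a mask. -/
theorem wordOf_comp_inv {σ : Equiv.Perm Cfsg.GolayPt} {t : ℕ} (h : RepT σ t) (m : ℕ) :
    wordOf m ∘ (σ⁻¹).symm = wordOf (preT t m) := by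
  apply eq_wordOf_of_support
  rw [← smul_support₂, support₂_wordOf, setOf_preT h]

theorem comp_sub (v w : Cfsg.GolayPt → ZMod 2) (σ : Equiv.Perm Cfsg.GolayPt) :
    (v - w) ∘ σ.symm = v ∘ σ.symm - w ∘ σ.symm := rfl

/-- From a kernel check on the leaders: some element of the group generated by the words
stabilises the base set and moves the given word out of its coset. -/
theorem key (ws : List (List ℕ)) (T : List ℕ) (hT : ws.map (evalT ltabs) = T) (U0 : ℕ)
    (hfix : T.all (fun t => preT t U0 == U0) = true)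
    (hmov : (List.range 4096).all (fun s => s == 0 || moves T s) = true)
    (w : Cfsg.GolayPt → ZMod 2) (hw : w ∉ Cfsg.golayCode) :
    ∃ σ ∈ Cfsg.M24, σ • setOf U0 = setOf U0 ∧ w ∘ σ.symm - w ∉ Cfsg.golayCode := by
  obtain ⟨s, hs0, hs, hc⟩ := leader w hw
  have hm := all_range hmov s hs
  rw [Bool.or_eq_true, beq_iff_eq] at hm
  rcases hm with hm | hm
  · omega
  rw [moves, List.any_eq_true] at hm
  obtain ⟨t, ht, hcode⟩ := hm
  rw [← hT] at ht
  obtain ⟨wd, hwd, rfl⟩ := List.mem_map.mp ht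
  have hR := repT_evalW letters_rep wd
  have hM : evalW letters wd ∈ Cfsg.M24 := evalW_mem _ letters_mem_M24 wd
  have hM' := Cfsg.M24.inv_mem hM
  refine ⟨(evalW letters wd)⁻¹, hM', ?_, ?_⟩
  · have h1 := List.all_eq_true.mp hfix (evalT ltabs wd) (hT ▸ List.mem_map.mpr ⟨wd, hwd, rfl⟩)
    rw [beq_iff_eq] at h1
    have h2 := setOf_preT hR U0
    rw [h1] at h2
    exact h2.symm
  · intro hmem
    have h1 : (w - wordOf (ent s 0)) ∘ ((evalW letters wd)⁻¹).symm ∈ Cfsg.golayCode :=
      comp_symm_mem_of_mem_M24 hM' hc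
    rw [comp_sub, wordOf_comp_inv hR] at h1
    have h2 : wordOf (preT (evalT ltabs wd) (ent s 0) ^^^ ent s 0) ∈ Cfsg.golayCode := by
      rw [wordOf_xor]
      have h3 := Cfsg.golayCode.sub_mem (Cfsg.golayCode.sub_mem hmem h1) hc
      have h4 : w ∘ ((evalW letters wd)⁻¹).symm - w -
          (w ∘ ((evalW letters wd)⁻¹).symm - wordOf (preT (evalT ltabs wd) (ent s 0))) -
          (w - wordOf (ent s 0)) =
          wordOf (preT (evalT ltabs wd) (ent s 0)) + wordOf (ent s 0) - (w + w) := by abel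
      have h5 : w + w = 0 := by rw [← sub_eq_add₂, sub_self]
      rwa [h4, h5, sub_zero] at h3
    rw [wordOf_mem_golayCode_iff (Nat.xor_lt_two_pow (preT_lt _ _) (ent_lt _ _))] at h2
    rw [h2] at hcode
    exact absurd hcode (by decide)

/-- Transport along a conjugating element. -/
theorem of_base (U0 : ℕ)
    (hbase : ∀ w : Cfsg.GolayPt → ZMod 2, w ∉ Cfsg.golayCode →
      ∃ σ ∈ Cfsg.M24, σ • setOf U0 = setOf U0 ∧ w ∘ σ.symm - w ∉ Cfsg.golayCode)
    (u : Cfsg.GolayPt → ZMod 2) {g : Equiv.Perm Cfsg.GolayPt} (hg : g ∈ Cfsg.M24)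
    (hgu : g • Cfsg.support₂ u = setOf U0)
    (w : Cfsg.GolayPt → ZMod 2) (hw : w ∉ Cfsg.golayCode) :
    ∃ σ ∈ Cfsg.M24, u ∘ σ.symm = u ∧ w ∘ σ.symm - w ∉ Cfsg.golayCode := by
  have hw' : w ∘ g.symm ∉ Cfsg.golayCode := by
    intro h
    apply hw
    have := comp_symm_mem_of_mem_M24 (Cfsg.M24.inv_mem hg) h
    have h2 : (w ∘ g.symm) ∘ (g⁻¹).symm = w := by
      funext p
      simp [Equiv.Perm.inv_def]
    rwa [h2] at this
  obtain ⟨σ₀, hσ₀, hfix, hmv⟩ := hbase _ hw'
  refine ⟨g⁻¹ * σ₀ * g, Cfsg.M24.mul_mem (Cfsg.M24.mul_mem (Cfsg.M24.inv_mem hg) hσ₀) hg, ?_, ?_⟩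
  · apply support₂_injective
    rw [← smul_support₂, mul_smul, mul_smul, hgu, hfix, ← hgu, inv_smul_smul]
  · intro hmem
    apply hmv
    have := comp_symm_mem_of_mem_M24 hg hmem
    have h2 : (w ∘ (g⁻¹ * σ₀ * g).symm - w) ∘ g.symm = (w ∘ g.symm) ∘ σ₀.symm - w ∘ g.symm := by
      funext p
      simp [Equiv.Perm.mul_def, Equiv.Perm.inv_def]
    rwa [h2] at this

theorem O0_mem : setOf O0 ∈ Cfsg.octads := by
  have h : O0 = enc 1 := by decide +kernel
  rw [h]
  exact setOf_enc_mem_octads (by decide +kernel)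

/-- The stabiliser of a word of the code fixes no nonzero coset of the code. -/
theorem stab_moves (u : Cfsg.GolayPt → ZMod 2) (hu : u ∈ Cfsg.golayCode)
    (w : Cfsg.GolayPt → ZMod 2) (hw : w ∉ Cfsg.golayCode) :
    ∃ σ ∈ Cfsg.M24, u ∘ σ.symm = u ∧ w ∘ σ.symm - w ∉ Cfsg.golayCode := by
  have hO := key wsO TO hTO O0 hfixO hmovO
  have hD := key wsD TD hTD RA hfixD hmovD
  obtain ⟨k, hk, rfl⟩ := (mem_golayCode_iff u).mp hu
  have hwt := all_range weights_all k hk
  simp only [wtOk, Bool.or_eq_true, beq_iff_eq] at hwt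
  rcases hwt with (((h | h) | h) | h) | h
  · -- the zero word
    have h0 : wordOf (enc k) = 0 := by
      apply support₂_eq_empty
      rw [support₂_wordOf, ← Finset.card_eq_zero, card_setOf, h]
    obtain ⟨σ, hσ, -, hmv⟩ := hO w hw
    exact ⟨σ, hσ, by rw [h0]; rfl, hmv⟩
  · -- an octad
    have ho : setOf (enc k) ∈ Cfsg.octads := setOf_enc_mem_octads h
    obtain ⟨g, hg, hgo⟩ := octad_transitive ho O0_mem
    exact of_base O0 hO _ hg (by rw [support₂_wordOf]; exact hgo) w hw
  · -- a dodecad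
    have hd : setOf (enc k) ∈ Cfsg.dodecads :=
      ⟨setOf_enc_mem_supports k, by rw [card_setOf, h]⟩
    obtain ⟨g, hg, hgd⟩ := dodecad_conj hd
    exact of_base RA hD _ hg (by rw [support₂_wordOf]; exact hgd) w hw
  · -- weight 16: pass to the complement
    have h8 : popc (enc k ^^^ 16777215) = 8 := by
      have := all_range Irr.compl16 k hk
      rw [h] at this
      simpa using this
    have hc : isCode (enc k ^^^ 16777215) = true := by
      rw [← wordOf_mem_golayCode_iff (Nat.xor_lt_two_pow (enc_lt k) (by norm_num)), wordOf_xor,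
        wordOf_allOnes]
      exact Cfsg.golayCode.add_mem hu one_mem_golayCode
    have ho : Helper7.setOf (enc k ^^^ 16777215) ∈ Cfsg.octads :=
      ⟨setOf_mem_golaySupports (Nat.xor_lt_two_pow (enc_lt k) (by norm_num)) hc, by
        rw [card_setOf, h8]⟩
    obtain ⟨g, hg, hgo⟩ := octad_transitive ho O0_mem
    obtain ⟨σ, hσ, hfix, hmv⟩ := of_base O0 hO (wordOf (enc k ^^^ 16777215)) hg
      (by rw [support₂_wordOf]; exact hgo) w hw
    refine ⟨σ, hσ, ?_, hmv⟩
    rw [wordOf_xor, wordOf_allOnes] at hfix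
    have h1 : (wordOf (enc k) + 1) ∘ σ.symm = wordOf (enc k) ∘ σ.symm + 1 := rfl
    rw [h1] at hfix
    exact add_right_cancel hfix
  · -- the all-ones word
    have h1 : wordOf (enc k) = 1 := by
      apply support₂_injective
      rw [support₂_wordOf, support₂_one]
      apply Finset.eq_univ_of_card
      rw [card_setOf, h]
      rfl
    obtain ⟨σ, hσ, -, hmv⟩ := hO w hw
    exact ⟨σ, hσ, by rw [h1]; rfl, hmv⟩

end Cfsg.Agent.Lib.Helper27.CF
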