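import Cfsg.Agent.Lib.Helper27.DodData

set_option autoImplicit false

open scoped Pointwise

namespace Cfsg.Agent.Lib.Helper27.Irr

open Cfsg.Agent.Lib.Helper7 Cfsg.Agent.Lib.Helper27.OO Cfsg.Agent.Lib.Helper27.Dod

theorem comp_wordOf_of_smul {W : Submodule (ZMod 2) (Cfsg.GolayPt → ZMod 2)}
    (hinv : ∀ σ ∈ Cfsg.M24, ∀ w ∈ W, w ∘ σ.symm ∈ W) {g : Equiv.Perm Cfsg.GolayPt}
    (hg : g ∈ Cfsg.M24) {m m' : ℕ} (hm : wordOf m ∈ W) (h : g • setOf m = setOf m') :
    wordOf m' ∈ W := by
  have h1 := hinv g hg _ hm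
  have h2 : Cfsg.support₂ (wordOf m ∘ g.symm) = setOf m' := by
    rw [← smul_support₂, support₂_wordOf, h]
  rwa [eq_wordOf_of_support h2] at h1

/-- An invariant subspace containing an octad word contains the code. -/
theorem le_of_octad {W : Submodule (ZMod 2) (Cfsg.GolayPt → ZMod 2)}
    (hinv : ∀ σ ∈ Cfsg.M24, ∀ w ∈ W, w ∘ σ.symm ∈ W) {m : ℕ} (hm : wordOf m ∈ W)
    (ho : setOf m ∈ Cfsg.octads) : Cfsg.golayCode ≤ W := by
  have hrows : ∀ r ∈ rows, wordOf r ∈ W := by
    intro r hr
    obtain ⟨h8, hc, hlt⟩ := rows_weight r hr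
    have ho' : setOf r ∈ Cfsg.octads :=
      ⟨setOf_mem_golaySupports hlt hc, by rw [card_setOf, h8]⟩
    obtain ⟨g, hg, hgo⟩ := octad_transitive ho ho'
    exact comp_wordOf_of_smul hinv hg hm hgo
  intro w hw
  obtain ⟨k, -, rfl⟩ := (mem_golayCode_iff w).mp hw
  exact wordOf_encAux_mem W rows hrows 0 k

theorem compl16 : (List.range 4096).all
    (fun k => popc (enc k) != 16 || popc (enc k ^^^ 16777215) == 8) = true := by decide +kernel

/-- The code modulo the all-ones word is irreducible for its group. -/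
theorem irred (W : Submodule (ZMod 2) (Cfsg.GolayPt → ZMod 2))
    (h1 : (1 : Cfsg.GolayPt → ZMod 2) ∈ W) (hle : W ≤ Cfsg.golayCode)
    (hinv : ∀ σ ∈ Cfsg.M24, ∀ w ∈ W, w ∘ σ.symm ∈ W) :
    W = Submodule.span (ZMod 2) {(1 : Cfsg.GolayPt → ZMod 2)} ∨ W = Cfsg.golayCode := by
  by_cases hex : ∃ w ∈ W, w ≠ 0 ∧ w ≠ 1
  · right
    refine le_antisymm hle ?_
    obtain ⟨w, hw, hw0, hw1⟩ := hex
    obtain ⟨k, hk, rfl⟩ := (mem_golayCode_iff w).mp (hle hw)
    have hwt := all_range weights_all k hk
    simp only [wtOk, Bool.or_eq_true, beq_iff_eq] at hwt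
    rcases hwt with (((h | h) | h) | h) | h
    · exfalso
      apply hw0
      apply support₂_eq_empty
      rw [support₂_wordOf, ← Finset.card_eq_zero, card_setOf, h]
    · exact le_of_octad hinv hw (setOf_enc_mem_octads h)
    · -- a dodecad
      have hd : setOf (enc k) ∈ Cfsg.dodecads :=
        ⟨setOf_enc_mem_supports k, by rw [card_setOf, h]⟩
      obtain ⟨u, hu, hud⟩ := dodecad_conj hd
      have hRA : wordOf RA ∈ W := comp_wordOf_of_smul hinv hu hw hud
      have hτ : letters.getD 0 1 ∈ Cfsg.M24 := getD_mem_subgroup _ letters_mem_M24 0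
      have hrep := repT_getD letters_rep 0
      have h2 : wordOf (preT (ltabs.getD 0 idT) RA) ∈ W :=
        comp_wordOf_of_smul hinv (Cfsg.M24.inv_mem hτ) hRA (setOf_preT hrep RA).symm
      have h3 : wordOf (RA ^^^ preT (ltabs.getD 0 idT) RA) ∈ W := by
        rw [wordOf_xor]
        exact W.add_mem hRA h2
      refine le_of_octad hinv h3 ⟨⟨_, hle h3, support₂_wordOf _⟩, ?_⟩
      rw [card_setOf]
      exact RA_octad
    · -- weight 16: add the all-ones word
      have h3 : wordOf (enc k ^^^ 16777215) ∈ W := by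
        rw [wordOf_xor, wordOf_allOnes]
        exact W.add_mem hw h1
      refine le_of_octad hinv h3 ⟨⟨_, hle h3, support₂_wordOf _⟩, ?_⟩
      rw [card_setOf]
      have := all_range compl16 k hk
      rw [h] at this
      simpa using this
    · exfalso
      apply hw1
      apply support₂_injective
      rw [support₂_wordOf, support₂_one]
      apply Finset.eq_univ_of_card
      rw [card_setOf, h]
      rfl
  · left
    push Not at hex
    apply le_antisymm
    · intro w hw
      by_cases h0 : w = 0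
      · rw [h0]; exact Submodule.zero_mem _
      · rw [hex w hw h0]
        exact Submodule.subset_span rfl
    · rw [Submodule.span_le]
      rintro x rfl
      exact h1

end Cfsg.Agent.Lib.Helper27.Irr
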