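import Cfsg.Agent.Lib.Helper27.GolayCosets
import Cfsg.Agent.Lib.Helper27.GolayIrred

set_option autoImplicit false

open scoped Pointwise

namespace Cfsg.Agent.Lib.Helper27.CF

open Cfsg.Agent.Lib.Helper7 Cfsg.Agent.Lib.Helper27.OO Cfsg.Agent.Lib.Helper27.GC
  Cfsg.Agent.Lib.Helper27.Dod

/-- Some table of the list moves the leader of the coset with syndrome `s` out of its coset. -/
def moves (T : List ℕ) (s : ℕ) : Bool :=
  T.any (fun t => !isCode (preT t (ent s 0) ^^^ ent s 0))

/-- Base octad. -/
def O0 : ℕ := 5279

/-- Words generating (a large part of) the stabiliser of the base octad. -/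
def wsO : List (List ℕ) := [[9, 1, 0, 1, 3, 2, 0, 3, 3, 2, 4, 3, 5, 11, 11, 8, 7], [7, 1, 0, 1, 3, 3, 0, 0, 3, 2, 9, 3, 10, 5, 11, 11, 10, 9]]

/-- Their tables. -/
def TO : List ℕ := [889815547690114876018282732919522412, 837931358061082886824966294003129738]

theorem hTO : wsO.map (evalT ltabs) = TO := by decide +kernel

theorem hfixO : TO.all (fun t => preT t O0 == O0) = true := by decide +kernel

theorem hmovO : (List.range 4096).all (fun s => s == 0 || moves TO s) = true := by decide +kernel

/-- Words generating (a large part of) the stabiliser of the base dodecad. -/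
def wsD : List (List ℕ) := [[4, 0, 0, 1, 5, 0, 0, 0, 3, 2, 2, 9, 6, 11, 11, 10, 9], [7, 1, 0, 1, 2, 4, 2, 5, 5, 11, 10, 8, 7]]

/-- Their tables. -/
def TD : List ℕ := [692790800186512794074354038024247332, 853756387559659962694008163715593696]

theorem hTD : wsD.map (evalT ltabs) = TD := by decide +kernel

theorem hfixD : TD.all (fun t => preT t RA == RA) = true := by decide +kernel

theorem hmovD : (List.range 4096).all (fun s => s == 0 || moves TD s) = true := by decide +kernel

end Cfsg.Agent.Lib.Helper27.CF
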