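import Cfsg.Agent.Lib.Helper27.DodData

set_option autoImplicit false

open scoped Pointwise

namespace Cfsg.Agent.Lib.Helper27.Dod

open Cfsg.Agent.Lib.Helper7 Cfsg.Agent.Lib.Helper27.OO

/-- The stabiliser of the three base points and the base dodecad. -/
noncomputable def A0 : Subgroup (Equiv.Perm Cfsg.GolayPt) :=
  fixSub F ⊓ MulAction.stabilizer (Equiv.Perm Cfsg.GolayPt) (setOf R)

theorem fixSub_F_iff (u : Equiv.Perm Cfsg.GolayPt) :
    u ∈ fixSub F ↔ u ∈ Cfsg.M24 ∧ u (pt 23) = pt 23 ∧ u (pt 0) = pt 0 ∧ u (pt 1) = pt 1 := by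
  rw [mem_fixSub]
  constructor
  · rintro ⟨h1, h2⟩
    exact ⟨h1, h2 23 (by norm_num) (by decide), h2 0 (by norm_num) (by decide),
      h2 1 (by norm_num) (by decide)⟩
  · rintro ⟨h1, h23, h0, h1'⟩
    refine ⟨h1, fun i hi hF => ?_⟩
    have hcases : i = 23 ∨ i = 0 ∨ i = 1 := by
      revert hF
      unfold F
      interval_cases i <;> decide
    rcases hcases with rfl | rfl | rfl
    · exact h23
    · exact h0
    · exact h1'

theorem mem_A0_iff (u : Equiv.Perm Cfsg.GolayPt) :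
    u ∈ A0 ↔ (u ∈ Cfsg.M24 ∧ u (pt 23) = pt 23 ∧ u (pt 0) = pt 0 ∧ u (pt 1) = pt 1) ∧
      u • setOf R = setOf R := by
  rw [A0, Subgroup.mem_inf, fixSub_F_iff]
  rfl

theorem orbit_eq : {y : Finset Cfsg.GolayPt | ∃ g ∈ fixSub F, g • setOf R = y} =
    {o : Finset Cfsg.GolayPt | (o ∈ golaySupports ∧ o.card = 12) ∧ Inc o} := by
  ext o
  simp only [Set.mem_ofPred_eq]
  constructor
  · rintro ⟨g, hg, rfl⟩
    have hg' := (fixSub_F_iff g).mp hg
    refine ⟨⟨smul_mem_golaySupports hg'.1 setOf_R_mem.1, ?_⟩, ?_⟩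
    · rw [Finset.card_smul_finset]; exact setOf_R_mem.2
    · have hi := inc_R
      unfold Inc at hi ⊢
      rw [← hg'.2.1, ← hg'.2.2.1, ← hg'.2.2.2, apply_mem_smul_iff, apply_mem_smul_iff,
        apply_mem_smul_iff]
      exact hi
  · rintro ⟨ho, hi⟩
    obtain ⟨u, hu, huo⟩ := lvl1 ho hi
    exact ⟨u⁻¹, (fixSub F).inv_mem hu, by rw [← huo, inv_smul_smul]⟩

/-- The stabiliser of three points of a dodecad in the stabiliser of the dodecad has order 72. -/
theorem card_A0 : Nat.card A0 = 72 := by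
  have h1 := card_eq_orbit_mul' (fixSub F) (setOf R)
  rw [orbit_eq, cnt] at h1
  have h2 : Nat.card (fixSub F) = 20160 := card_fixSub3
  rw [h2] at h1
  unfold A0
  omega

/-- The stabiliser is transitive on the complement of the dodecad. -/
theorem A0_trans {x y : Cfsg.GolayPt} (hx : x ∉ setOf R) (hy : y ∉ setOf R) :
    ∃ u ∈ A0, u x = y := by
  have key : ∀ z : Cfsg.GolayPt, z ∉ setOf R → ∃ u ∈ A0, u (pt 3) = z := by
    intro z hz
    have hb : R.testBit (idx z) = false := by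
      rw [mem_setOf] at hz
      simpa using hz
    obtain ⟨u, hu, hub⟩ := compl_orbit (idx_lt z) hb
    exact ⟨u, hu, by rw [hub, pt_idx]⟩
  obtain ⟨u1, hu1, h1⟩ := key x hx
  obtain ⟨u2, hu2, h2⟩ := key y hy
  refine ⟨u2 * u1⁻¹, A0.mul_mem hu2 (A0.inv_mem hu1), ?_⟩
  rw [Equiv.Perm.mul_apply, ← h1, ← h2]
  simp

end Cfsg.Agent.Lib.Helper27.Dod
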