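import Mathlib

set_option autoImplicit false
open Matrix

namespace Cfsg.Agent.Lib.Helper27

section
variable {n : Type*} [Fintype n]

/-- bilinear form symmetric -/
theorem bil_symm (B : Matrix n n ℤ) (hsymm : B.IsSymm) (v w : n → ℤ) :
    v ⬝ᵥ (B *ᵥ w) = w ⬝ᵥ (B *ᵥ v) := by
  rw [Matrix.dotProduct_mulVec, ← Matrix.mulVec_transpose, hsymm.eq, dotProduct_comm]

theorem q_add (B : Matrix n n ℤ) (hsymm : B.IsSymm) (v w : n → ℤ) :
    (v + w) ⬝ᵥ (B *ᵥ (v + w)) = v ⬝ᵥ (B *ᵥ v) + w ⬝ᵥ (B *ᵥ w) + 2 * (v ⬝ᵥ (B *ᵥ w)) := by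
  rw [Matrix.mulVec_add, add_dotProduct, dotProduct_add, dotProduct_add,
    bil_symm B hsymm w v]
  ring

theorem q_sub (B : Matrix n n ℤ) (hsymm : B.IsSymm) (v w : n → ℤ) :
    (v - w) ⬝ᵥ (B *ᵥ (v - w)) = v ⬝ᵥ (B *ᵥ v) + w ⬝ᵥ (B *ᵥ w) - 2 * (v ⬝ᵥ (B *ᵥ w)) := by
  rw [Matrix.mulVec_sub, sub_dotProduct, dotProduct_sub, dotProduct_sub,
    bil_symm B hsymm w v]
  ring

theorem q_two_smul (B : Matrix n n ℤ) (z : n → ℤ) :
    ((2 : ℤ) • z) ⬝ᵥ (B *ᵥ ((2 : ℤ) • z)) = 4 * (z ⬝ᵥ (B *ᵥ z)) := by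
  rw [Matrix.mulVec_smul, smul_dotProduct, dotProduct_smul]
  simp only [smul_eq_mul]
  ring

theorem q_neg (B : Matrix n n ℤ) (z : n → ℤ) :
    (-z) ⬝ᵥ (B *ᵥ (-z)) = z ⬝ᵥ (B *ᵥ z) := by
  rw [Matrix.mulVec_neg, neg_dotProduct, dotProduct_neg, neg_neg]

/-- In an even lattice without roots, a nonzero vector has norm at least 4. -/
theorem four_le_q (B : Matrix n n ℤ)
    (hpos : ∀ x : n → ℤ, x ≠ 0 → 0 < x ⬝ᵥ (B *ᵥ x))
    (heven : ∀ x : n → ℤ, (2 : ℤ) ∣ x ⬝ᵥ (B *ᵥ x))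
    (h2 : ∀ x : n → ℤ, x ⬝ᵥ (B *ᵥ x) ≠ 2) (z : n → ℤ) (hz : z ≠ 0) :
    4 ≤ z ⬝ᵥ (B *ᵥ z) := by
  have h1 := hpos z hz
  have h3 := heven z
  have h4 := h2 z
  omega

/-- existence of half of a vector with even coordinates -/
theorem exists_half (v : n → ℤ) (h : ∀ i, (2 : ℤ) ∣ v i) : ∃ z : n → ℤ, v = (2 : ℤ) • z := by
  refine ⟨fun i => v i / 2, ?_⟩
  funext i
  simp only [Pi.smul_apply, smul_eq_mul]
  exact (Int.mul_ediv_cancel' (h i)).symm

/-- Key lemma: norm-8 vectors congruent modulo 2 are equal, opposite or orthogonal. -/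
theorem norm8_congr (B : Matrix n n ℤ) (hsymm : B.IsSymm)
    (hpos : ∀ x : n → ℤ, x ≠ 0 → 0 < x ⬝ᵥ (B *ᵥ x))
    (heven : ∀ x : n → ℤ, (2 : ℤ) ∣ x ⬝ᵥ (B *ᵥ x))
    (h2 : ∀ x : n → ℤ, x ⬝ᵥ (B *ᵥ x) ≠ 2) (x y : n → ℤ)
    (hx : x ⬝ᵥ (B *ᵥ x) = 8) (hy : y ⬝ᵥ (B *ᵥ y) = 8) (hc : ∀ i, (2 : ℤ) ∣ (x - y) i) :
    y = x ∨ y = -x ∨ x ⬝ᵥ (B *ᵥ y) = 0 := by
  obtain ⟨z, hz⟩ := exists_half (x - y) hc
  by_cases hz0 : z = 0
  · left
    rw [hz0, smul_zero] at hz
    exact (sub_eq_zero.mp hz).symm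
  by_cases hz1 : z + y = 0
  · right; left
    have hxy : x + y = (2 : ℤ) • (z + y) := by
      have : x = (2 : ℤ) • z + y := by rw [← hz]; abel
      rw [this, smul_add, two_smul ℤ y]; abel
    rw [hz1, smul_zero] at hxy
    exact (eq_neg_of_add_eq_zero_right hxy)
  · right; right
    have hxy : x + y = (2 : ℤ) • (z + y) := by
      have : x = (2 : ℤ) • z + y := by rw [← hz]; abel
      rw [this, smul_add, two_smul ℤ y]; abel
    have e1 := q_sub B hsymm x y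
    have e2 := q_add B hsymm x y
    rw [hz, q_two_smul, hx, hy] at e1
    rw [hxy, q_two_smul, hx, hy] at e2
    have g1 := four_le_q B hpos heven h2 z hz0
    have g2 := four_le_q B hpos heven h2 (z + y) hz1
    omega

/-- Short vectors congruent modulo 2: equal, opposite, or both of norm 8 and orthogonal. -/
theorem congr_cases (B : Matrix n n ℤ) (hsymm : B.IsSymm)
    (hpos : ∀ x : n → ℤ, x ≠ 0 → 0 < x ⬝ᵥ (B *ᵥ x))
    (heven : ∀ x : n → ℤ, (2 : ℤ) ∣ x ⬝ᵥ (B *ᵥ x))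
    (h2 : ∀ x : n → ℤ, x ⬝ᵥ (B *ᵥ x) ≠ 2) (v w : n → ℤ)
    (hv : v ⬝ᵥ (B *ᵥ v) ≤ 8) (hw : w ⬝ᵥ (B *ᵥ w) ≤ 8) (hc : ∀ i, (2 : ℤ) ∣ (v - w) i) :
    w = v ∨ w = -v ∨
      (v ⬝ᵥ (B *ᵥ v) = 8 ∧ w ⬝ᵥ (B *ᵥ w) = 8 ∧ v ⬝ᵥ (B *ᵥ w) = 0) := by
  obtain ⟨z, hz⟩ := exists_half (v - w) hc
  by_cases hz0 : z = 0
  · left
    rw [hz0, smul_zero] at hz
    exact (sub_eq_zero.mp hz).symm
  have hxy : v + w = (2 : ℤ) • (z + w) := by
    have : v = (2 : ℤ) • z + w := by rw [← hz]; abel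
    rw [this, smul_add, two_smul ℤ w]; abel
  by_cases hz1 : z + w = 0
  · right; left
    rw [hz1, smul_zero] at hxy
    exact (eq_neg_of_add_eq_zero_right hxy)
  · right; right
    have e1 := q_sub B hsymm v w
    have e2 := q_add B hsymm v w
    rw [hz, q_two_smul] at e1
    rw [hxy, q_two_smul] at e2
    have g1 := four_le_q B hpos heven h2 z hz0
    have g2 := four_le_q B hpos heven h2 (z + w) hz1
    refine ⟨by omega, by omega, by omega⟩

/-- Pairwise orthogonal anisotropic vectors are at most `card n` many. -/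
theorem orth_card_le (B : Matrix n n ℤ) (R : Finset (n → ℤ))
    (hq : ∀ r ∈ R, r ⬝ᵥ (B *ᵥ r) ≠ 0)
    (horth : ∀ r ∈ R, ∀ s ∈ R, r ≠ s → r ⬝ᵥ (B *ᵥ s) = 0) : R.card ≤ Fintype.card n := by
  classical
  have hli : LinearIndependent ℤ (fun r : R => (r : n → ℤ)) := by
    rw [linearIndependent_iff']
    intro s g hsum i hi
    have h1 := congrArg (fun u => u ⬝ᵥ (B *ᵥ (i : n → ℤ))) hsum
    simp only [zero_dotProduct, sum_dotProduct, smul_dotProduct, smul_eq_mul] at h1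
    rw [Finset.sum_eq_single i] at h1
    · exact (mul_eq_zero.mp h1).resolve_right (hq i i.2)
    · intro j _ hji
      rw [horth j j.2 i i.2 (fun h => hji (Subtype.ext h)), mul_zero]
    · intro h; exact absurd hi h
  have := hli.fintype_card_le_finrank
  simpa using this

/-- A finite set of anisotropic vectors, any two equal, opposite or orthogonal, has at most
`2 * card n` members. -/
theorem frame_card_le (B : Matrix n n ℤ) (hsymm : B.IsSymm) (F : Finset (n → ℤ))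
    (hq : ∀ r ∈ F, r ⬝ᵥ (B *ᵥ r) ≠ 0)
    (horth : ∀ v ∈ F, ∀ w ∈ F, w = v ∨ w = -v ∨ v ⬝ᵥ (B *ᵥ w) = 0) :
    F.card ≤ 2 * Fintype.card n := by
  classical
  let P : Finset (Finset (n → ℤ)) :=
    F.powerset.filter (fun R => ∀ r ∈ R, ∀ s ∈ R, r ≠ s → r ⬝ᵥ (B *ᵥ s) = 0)
  have hne : P.Nonempty := ⟨∅, by simp [P]⟩
  obtain ⟨R, hR, hmax⟩ := Finset.exists_max_image P Finset.card hne
  have hRF : R ⊆ F := Finset.mem_powerset.mp (Finset.mem_filter.mp hR).1
  have hRo := (Finset.mem_filter.mp hR).2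
  have hsub : F ⊆ R ∪ R.image (fun v => -v) := by
    intro v hv
    by_contra hcon
    have hvR : v ∉ R := fun h => hcon (Finset.mem_union_left _ h)
    have hvR' : -v ∉ R := fun h =>
      hcon (Finset.mem_union_right _ (Finset.mem_image.mpr ⟨-v, h, neg_neg v⟩))
    have hins : insert v R ∈ P := by
      refine Finset.mem_filter.mpr ⟨Finset.mem_powerset.mpr (Finset.insert_subset hv hRF), ?_⟩
      intro r hr s hs hrs
      rcases Finset.mem_insert.mp hr with rfl | hr'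
      · rcases Finset.mem_insert.mp hs with rfl | hs'
        · exact absurd rfl hrs
        · rcases horth r hv s (hRF hs') with h | h | h
          · exact absurd h.symm hrs
          · exact absurd (by rw [h] at hs'; exact hs') hvR'
          · exact h
      · rcases Finset.mem_insert.mp hs with rfl | hs'
        · rcases horth s hv r (hRF hr') with h | h | h
          · exact absurd h hrs
          · exact absurd (by rw [h] at hr'; exact hr') hvR'
          · rw [bil_symm B hsymm]; exact h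
        · exact hRo r hr' s hs' hrs
    have := hmax _ hins
    rw [Finset.card_insert_of_notMem hvR] at this
    omega
  have hRc := orth_card_le B R (fun r hr => hq r (hRF hr)) hRo
  calc F.card ≤ (R ∪ R.image (fun v => -v)).card := Finset.card_le_card hsub
    _ ≤ R.card + (R.image (fun v => -v)).card := Finset.card_union_le _ _
    _ ≤ R.card + R.card := Nat.add_le_add_left Finset.card_image_le _
    _ ≤ 2 * Fintype.card n := by omega

end

end Cfsg.Agent.Lib.Helper27
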