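import Cfsg.Agent.Lib.Helper6.M24Fix
import Cfsg.Agent.Lib.Helper26.SextetOrb
import Cfsg.Agent.Lib.Helper26.TrioOrb
import Cfsg.Agent.Lib.Helper27.OctOrbit

set_option autoImplicit false

open scoped Pointwise

namespace Cfsg.Agent.Lib.Helper27.FC

open Cfsg.Agent.Lib.Helper7 Cfsg.Agent.Lib.Helper26 Cfsg.Agent.Lib.Helper93
  Cfsg.Agent.Lib.Helper27.OO

/-- A permutation acting on indices by a function is represented by a matching table. -/
theorem repT_of_acts {σ : Equiv.Perm Cfsg.GolayPt} {f : ℕ → ℕ}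
    (h : Cfsg.Agent.Lib.Helper6.Cls.Acts σ f) (t : ℕ)
    (ht : (List.range 24).all (fun j => nlane t j == f j) = true) : RepT σ t := by
  intro p
  have hj := idx_lt p
  obtain ⟨-, h2⟩ := h (idx p) hj
  have h3 : σ (pt (idx p)) = pt (f (idx p)) := h2
  rw [pt_idx] at h3
  have h4 := all_range ht (idx p) hj
  rw [beq_iff_eq] at h4
  rw [h3, h4]

/-- Counting the fixed objects of a conjugate. -/
theorem ncard_fix_conj {X : Type*} [MulAction (Equiv.Perm Cfsg.GolayPt) X] (Ω : Set X)
    (k g u : Equiv.Perm Cfsg.GolayPt) (hk : ∀ S, k • S ∈ Ω ↔ S ∈ Ω) (hconj : k * g * k⁻¹ = u) :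
    {S | S ∈ Ω ∧ g • S = S}.ncard = {S | S ∈ Ω ∧ u • S = S}.ncard := by
  have hg : g = k⁻¹ * u * k := by rw [← hconj]; group
  have : {S | S ∈ Ω ∧ u • S = S} = (fun S : X => k • S) '' {S | S ∈ Ω ∧ g • S = S} := by
    ext S'
    simp only [Set.mem_ofPred_eq, Set.mem_image]
    constructor
    · rintro ⟨h1, h2⟩
      refine ⟨k⁻¹ • S', ⟨(hk _).mp (by rwa [smul_inv_smul]), ?_⟩, smul_inv_smul k S'⟩
      rw [hg, mul_smul, mul_smul, smul_inv_smul, h2]
    · rintro ⟨S, ⟨h1, h2⟩, rfl⟩
      refine ⟨(hk S).mpr h1, ?_⟩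
      rw [← hconj, mul_smul, mul_smul, inv_smul_smul, h2]
  rw [this, Set.ncard_image_of_injective _ (MulAction.injective k)]

/-- Counting through an injective enumeration. -/
theorem ncard_param {X : Type*} (Ω : Set X) (hfin : Ω.Finite) (N : ℕ) (den : ℕ → X)
    (hmem : ∀ i < N, den i ∈ Ω) (hinj : ∀ i < N, ∀ j < N, den i = den j → i = j)
    (hcard : Ω.ncard = N) (P : X → Prop) (q : ℕ → Bool) (hq : ∀ i < N, P (den i) ↔ q i = true) :
    {y | y ∈ Ω ∧ P y}.ncard = cntL q N := by
  classical
  have hinjOn : Set.InjOn den (↑(Finset.range N) : Set ℕ) := by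
    intro i hi j hj h
    exact hinj i (Finset.mem_range.mp hi) j (Finset.mem_range.mp hj) h
  have hΩ : den '' (↑(Finset.range N) : Set ℕ) = Ω := by
    apply Set.eq_of_subset_of_ncard_le _ _ hfin
    · rintro _ ⟨i, hi, rfl⟩
      exact hmem i (Finset.mem_range.mp hi)
    · rw [Set.InjOn.ncard_image hinjOn, Set.ncard_coe_finset, Finset.card_range, hcard]
  have hset : {y | y ∈ Ω ∧ P y} =
      den '' (↑((Finset.range N).filter (fun i => q i = true)) : Set ℕ) := by
    ext y
    simp only [Set.mem_ofPred_eq, Set.mem_image, Finset.coe_filter, Finset.mem_range]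
    constructor
    · rintro ⟨h1, h2⟩
      rw [← hΩ] at h1
      obtain ⟨i, hi, rfl⟩ := h1
      have hi' := Finset.mem_range.mp hi
      exact ⟨i, ⟨hi', (hq i hi').mp h2⟩, rfl⟩
    · rintro ⟨i, ⟨hi, hqi⟩, rfl⟩
      exact ⟨hmem i hi, (hq i hi).mpr hqi⟩
  have hinjOn' : Set.InjOn den (↑((Finset.range N).filter (fun i => q i = true)) : Set ℕ) :=
    hinjOn.mono (by
      intro i hi
      simp only [Finset.coe_filter, Set.mem_ofPred_eq] at hi
      exact Finset.mem_coe.mpr hi.1)
  rw [hset, Set.InjOn.ncard_image hinjOn', Set.ncard_coe_finset, cntL_eq]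

theorem smul_eq_self_iff {α : Type*} [DecidableEq α] [MulAction (Equiv.Perm Cfsg.GolayPt) α]
    (g : Equiv.Perm Cfsg.GolayPt) (T : Finset α) : g • T = T ↔ ∀ o ∈ T, g • o ∈ T := by
  constructor
  · intro h o ho
    rw [← h]
    exact Finset.smul_mem_smul_finset ho
  · intro h
    apply Finset.eq_of_subset_of_card_le
    · intro x hx
      obtain ⟨o, ho, rfl⟩ := Finset.mem_smul_finset.mp hx
      exact h o ho
    · rw [Finset.card_smul_finset]

/-! ### octads -/

/-- The number of octads fixed by a permutation with a given inverse table. -/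
theorem ncard_fixed_octads {u : Equiv.Perm Cfsg.GolayPt} {t : ℕ} (hR : RepT u⁻¹ t) :
    {o : Finset Cfsg.GolayPt | o ∈ Cfsg.octads ∧ u • o = o}.ncard =
      ((Finset.range 4096).filter (fun k => popc (enc k) = 8 ∧
        (permT t (enc k) == enc k) = true)).card := by
  refine ncard_octads_and (fun o => u • o = o) (fun m => permT t m == m) ?_
  intro k
  rw [smul_setOf hR, beq_iff_eq]
  exact ⟨fun h => setOf_injective (permT_lt _ _) (enc_lt k) h, fun h => by rw [h]⟩

/-! ### sextets -/

theorem setOf_union (a b : ℕ) : Helper7.setOf a ∪ Helper7.setOf b = Helper7.setOf (a ||| b) := by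
  ext p
  simp [mem_setOf, Nat.testBit_or]

theorem setOf_zero : Helper7.setOf 0 = ∅ := by
  ext p
  simp [mem_setOf]

/-- Completeness of the relation "same sextet" on tetrad masks. -/
theorem relS_complete {a b : ℕ} (ha4 : popc a = 4) (ha : a < 2 ^ 24) (hb : b < 2 ^ 24)
    (h : denS a = denS b) : relS a b = true := by
  have hmem : Helper7.setOf b ∈ sextetOf (Helper7.setOf a) := by
    have h1 : Helper7.setOf b ∈ denS b := self_mem_sextetOf _
    rw [← h] at h1
    exact h1
  unfold relS
  rcases mem_sextetOf.mp hmem with h1 | ⟨o, ho, hsub, hdiff⟩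
  · rw [setOf_injective hb ha h1]
    simp
  · have hdisj : a &&& b = 0 := by
      apply setOf_injective (Nat.and_lt_two_pow _ hb) (by norm_num)
      rw [← setOf_inter, setOf_zero, ← hdiff]
      ext p
      simp
    have ho' : o = Helper7.setOf (a ||| b) := by
      rw [← setOf_union, ← hdiff]
      ext p
      simp only [Finset.mem_union, Finset.mem_sdiff]
      constructor
      · intro hp
        by_cases hpa : p ∈ Helper7.setOf a
        · exact Or.inl hpa
        · exact Or.inr ⟨hp, hpa⟩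
      · rintro (hp | hp)
        · exact hsub hp
        · exact hp.1
    have hlt : a ||| b < 2 ^ 24 := Nat.or_lt_two_pow ha hb
    obtain ⟨k, hk, hok, h8⟩ := octad_exists_enc ho
    have hab : a ||| b = enc k := setOf_injective hlt (enc_lt k) (ho'.symm.trans hok)
    have hcode : isCode (a ||| b) = true := by rw [hab]; exact isCode_enc k
    have hpop : popc (a ||| b) = 8 := by rw [hab]; exact h8
    have hlt' : a ||| b < 16777216 := hlt
    simp [ha4, hdisj, hlt', hcode, hpop]

/-- The number of sextets fixed by a permutation with a given inverse table. -/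
theorem ncard_fixed_sextets {u : Equiv.Perm Cfsg.GolayPt} (hu : u ∈ Cfsg.M24) {t : ℕ}
    (hR : RepT u⁻¹ t) :
    {S : Finset (Finset Cfsg.GolayPt) | S ∈ Cfsg.sextets ∧ u • S = S}.ncard =
      cntL (fun i => relS (sxObj i) (permT t (sxObj i))) 1771 := by
  have hgood : ∀ i < 1771, goodS (sxObj i) = true := allB_spec sxGood
  have hinj : ∀ i < 1771, ∀ j < 1771, denS (sxObj i) = denS (sxObj j) → i = j := by
    intro i hi j hj h
    exact inj_of_sorted sxSorted i hi j hj (denS_inj (hgood i hi) (hgood j hj) h)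
  refine ncard_param Cfsg.sextets (Set.toFinite _) 1771 (fun i => denS (sxObj i))
    (fun i hi => denS_mem (hgood i hi)) hinj ncard_sextets (fun S => u • S = S) _ ?_
  intro i hi
  have hg := hgood i hi
  unfold goodS at hg
  simp only [Bool.and_eq_true, beq_iff_eq, decide_eq_true_eq] at hg
  obtain ⟨⟨h4, -⟩, hlt⟩ := hg
  show u • denS (sxObj i) = denS (sxObj i) ↔ _
  have e : u • denS (sxObj i) = denS (permT t (sxObj i)) := by
    rw [denS, smul_sextetOf hu, smul_setOf hR]
    rfl
  rw [e]
  constructor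
  · intro h
    exact relS_complete h4 hlt (permT_lt _ _) h.symm
  · intro h
    exact (relS_sound _ _ h).symm

/-! ### trios -/

/-- A mask is one of the three octads of a trio code. -/
def inT (c x : ℕ) : Bool := x == lo c || x == hi c || x == third (lo c) (hi c)

/-- The trio of a code is fixed by the permutation with a given inverse table. -/
def fixT (t c : ℕ) : Bool :=
  inT c (permT t (lo c)) && inT c (permT t (hi c)) && inT c (permT t (third (lo c) (hi c)))

theorem inT_iff {c x : ℕ} (hc : goodT c = true) (hx : x < 2 ^ 24) :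
    Helper7.setOf x ∈ denT c ↔ inT c x = true := by
  obtain ⟨-, -, -, -, hblt, -⟩ := good_facts hc
  unfold denT inT
  rw [mem_trioSet, ← setOf_third]
  simp only [Bool.or_eq_true, beq_iff_eq]
  constructor
  · rintro (h | h | h)
    · exact Or.inl (Or.inl (setOf_injective hx (lo_lt c) h))
    · exact Or.inl (Or.inr (setOf_injective hx hblt h))
    · exact Or.inr (setOf_injective hx (third_lt (lo_lt c) hblt) h)
  · rintro ((h | h) | h)
    · exact Or.inl (by rw [h])
    · exact Or.inr (Or.inl (by rw [h]))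
    · exact Or.inr (Or.inr (by rw [h]))

/-- The number of trios fixed by a permutation with a given inverse table. -/
theorem ncard_fixed_trios {u : Equiv.Perm Cfsg.GolayPt} {t : ℕ} (hR : RepT u⁻¹ t) :
    {T : Finset (Finset Cfsg.GolayPt) | T ∈ Cfsg.trios ∧ u • T = T}.ncard =
      cntL (fun i => fixT t (trObj i)) 3795 := by
  have hgood : ∀ i < 3795, goodT (trObj i) = true := allB_spec trGood
  have hinj : ∀ i < 3795, ∀ j < 3795, denT (trObj i) = denT (trObj j) → i = j := by
    intro i hi j hj h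
    exact inj_of_sorted trSorted i hi j hj (denT_inj (hgood i hi) (hgood j hj) h)
  refine ncard_param Cfsg.trios (Set.toFinite _) 3795 (fun i => denT (trObj i))
    (fun i hi => denT_mem (hgood i hi)) hinj ncard_trios (fun T => u • T = T) _ ?_
  intro i hi
  have hg := hgood i hi
  show u • denT (trObj i) = denT (trObj i) ↔ _
  rw [smul_eq_self_iff]
  unfold fixT
  rw [Bool.and_eq_true, Bool.and_eq_true, ← inT_iff hg (permT_lt _ _),
    ← inT_iff hg (permT_lt _ _), ← inT_iff hg (permT_lt _ _), ← smul_setOf hR, ← smul_setOf hR,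
    ← smul_setOf hR]
  constructor
  · intro h
    refine ⟨⟨h _ ?_, h _ ?_⟩, h _ ?_⟩
    · exact (mem_trioSet _ _ _).mpr (Or.inl rfl)
    · exact (mem_trioSet _ _ _).mpr (Or.inr (Or.inl rfl))
    · exact (mem_trioSet _ _ _).mpr (Or.inr (Or.inr (setOf_third _ _)))
  · rintro ⟨⟨h1, h2⟩, h3⟩ o ho
    rcases (mem_trioSet _ _ _).mp ho with rfl | rfl | rfl
    · exact h1
    · exact h2
    · rw [← setOf_third]; exact h3

theorem smul_mem_trios {g : Equiv.Perm Cfsg.GolayPt} (hg : g ∈ Cfsg.M24)
    {T : Finset (Finset Cfsg.GolayPt)} (hT : T ∈ Cfsg.trios) : g • T ∈ Cfsg.trios := by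
  obtain ⟨hcard, hoct, hdisj⟩ := hT
  refine ⟨by rw [Finset.card_smul_finset]; exact hcard, ?_, ?_⟩
  · intro o ho
    obtain ⟨o', ho', rfl⟩ := Finset.mem_smul_finset.mp ho
    exact smul_mem_octads hg (hoct o' ho')
  · intro o ho o2 ho2 hne
    obtain ⟨o', ho', rfl⟩ := Finset.mem_smul_finset.mp ho
    obtain ⟨o2', ho2', rfl⟩ := Finset.mem_smul_finset.mp ho2
    exact disjoint_smul g (hdisj o' ho' o2' ho2' (fun h => hne (by rw [h])))

theorem smul_mem_trios_iff {g : Equiv.Perm Cfsg.GolayPt} (hg : g ∈ Cfsg.M24)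
    (T : Finset (Finset Cfsg.GolayPt)) : g • T ∈ Cfsg.trios ↔ T ∈ Cfsg.trios := by
  constructor
  · intro h
    have := smul_mem_trios (Cfsg.M24.inv_mem hg) h
    rwa [inv_smul_smul] at this
  · exact smul_mem_trios hg

theorem smul_mem_sextets_iff {g : Equiv.Perm Cfsg.GolayPt} (hg : g ∈ Cfsg.M24)
    (S : Finset (Finset Cfsg.GolayPt)) : g • S ∈ Cfsg.sextets ↔ S ∈ Cfsg.sextets := by
  constructor
  · intro h
    have := smul_mem_sextets (Cfsg.M24.inv_mem hg) h
    rwa [inv_smul_smul] at this
  · exact smul_mem_sextets hg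

end Cfsg.Agent.Lib.Helper27.FC
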