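import Cfsg.Agent.Lib.Helper27.FixCount

set_option autoImplicit false

open scoped Pointwise

namespace Cfsg.Agent.Lib.Helper27.FC

open Cfsg.Agent.Lib.Helper7 Cfsg.Agent.Lib.Helper26 Cfsg.Agent.Lib.Helper93
  Cfsg.Agent.Lib.Helper27.OO Cfsg.Agent.Lib.Helper6.Cls

/-- Table of the standard involution with eight fixed points. -/
def tUA : ℕ := 648333173198446926654847902756766784

/-- Table of the standard fixed-point-free involution. -/
def tUB : ℕ := 715584430715203471881262908645116929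

/-- Table of the inverse of the standard fixed-point-free element of order three. -/
def tVBi : ℕ := 175980697585932795115221646149649410

/-- Table of the inverse of the standard element of order three with six fixed points. -/
def tVAi : ℕ := 486151158751563644853559970862793730

theorem UA_inv : UA⁻¹ = UA := inv_eq_of_mul_eq_one_left UA_sq

theorem UB_inv : UB⁻¹ = UB := inv_eq_of_mul_eq_one_left UB_sq

theorem VB_inv : VB⁻¹ = VB * VB := inv_eq_of_mul_eq_one_right VB_cube

theorem VA_inv : VA⁻¹ = VA * VA := inv_eq_of_mul_eq_one_right VA_cube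

theorem repUA : RepT UA⁻¹ tUA := by
  rw [UA_inv]
  exact repT_of_acts UA_acts tUA (by decide +kernel)

theorem repUB : RepT UB⁻¹ tUB := by
  rw [UB_inv]
  exact repT_of_acts UB_acts tUB (by decide +kernel)

theorem repVB : RepT VB⁻¹ tVBi := by
  rw [VB_inv]
  exact repT_of_acts (VB_acts.mul VB_acts) tVBi (by decide +kernel)

theorem repVA : RepT VA⁻¹ tVAi := by
  rw [VA_inv]
  exact repT_of_acts (VA_acts.mul VA_acts) tVAi (by decide +kernel)

theorem cnt_oct_UA : ((Finset.range 4096).filter (fun k => popc (enc k) = 8 ∧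
    (permT tUA (enc k) == enc k) = true)).card = 71 := by decide +kernel

theorem cnt_oct_UB : ((Finset.range 4096).filter (fun k => popc (enc k) = 8 ∧
    (permT tUB (enc k) == enc k) = true)).card = 15 := by decide +kernel

theorem cnt_oct_VB : ((Finset.range 4096).filter (fun k => popc (enc k) = 8 ∧
    (permT tVBi (enc k) == enc k) = true)).card = 0 := by decide +kernel

theorem cnt_oct_VA : ((Finset.range 4096).filter (fun k => popc (enc k) = 8 ∧
    (permT tVAi (enc k) == enc k) = true)).card = 21 := by decide +kernel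

set_option maxRecDepth 1000000 in
theorem cnt_sx_UA : cntL (fun i => relS (sxObj i) (permT tUA (sxObj i))) 1771 = 91 := by
  decide +kernel

set_option maxRecDepth 1000000 in
theorem cnt_sx_UB : cntL (fun i => relS (sxObj i) (permT tUB (sxObj i))) 1771 = 51 := by
  decide +kernel

set_option maxRecDepth 1000000 in
theorem cnt_sx_VB : cntL (fun i => relS (sxObj i) (permT tVBi (sxObj i))) 1771 = 7 := by
  decide +kernel

set_option maxRecDepth 1000000 in
theorem cnt_sx_VA : cntL (fun i => relS (sxObj i) (permT tVAi (sxObj i))) 1771 = 16 := by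
  decide +kernel

set_option maxRecDepth 1000000 in
theorem cnt_tr_UA : cntL (fun i => fixT tUA (trObj i)) 3795 = 99 := by
  decide +kernel

set_option maxRecDepth 1000000 in
theorem cnt_tr_UB : cntL (fun i => fixT tUB (trObj i)) 3795 = 75 := by
  decide +kernel

set_option maxRecDepth 1000000 in
theorem cnt_tr_VB : cntL (fun i => fixT tVBi (trObj i)) 3795 = 15 := by
  decide +kernel

set_option maxRecDepth 1000000 in
theorem cnt_tr_VA : cntL (fun i => fixT tVAi (trObj i)) 3795 = 15 := by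
  decide +kernel

/-- Numbers of octads, trios and sextets fixed by an element conjugate to one with a given
inverse table. -/
theorem counts_of_conj {g k u : Equiv.Perm Cfsg.GolayPt} (hk : k ∈ Cfsg.M24) (hu : u ∈ Cfsg.M24)
    (hconj : k * g * k⁻¹ = u) {t : ℕ} (hR : RepT u⁻¹ t) :
    {o : Finset Cfsg.GolayPt | o ∈ Cfsg.octads ∧ g • o = o}.ncard =
      ((Finset.range 4096).filter (fun k => popc (enc k) = 8 ∧
        (permT t (enc k) == enc k) = true)).card ∧
    {T : Finset (Finset Cfsg.GolayPt) | T ∈ Cfsg.trios ∧ g • T = T}.ncard =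
      cntL (fun i => fixT t (trObj i)) 3795 ∧
    {S : Finset (Finset Cfsg.GolayPt) | S ∈ Cfsg.sextets ∧ g • S = S}.ncard =
      cntL (fun i => relS (sxObj i) (permT t (sxObj i))) 1771 := by
  refine ⟨?_, ?_, ?_⟩
  · rw [ncard_fix_conj Cfsg.octads k g u (smul_mem_octads_iff hk) hconj]
    exact ncard_fixed_octads hR
  · rw [ncard_fix_conj Cfsg.trios k g u (smul_mem_trios_iff hk) hconj]
    exact ncard_fixed_trios hR
  · rw [ncard_fix_conj Cfsg.sextets k g u (smul_mem_sextets_iff hk) hconj]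
    exact ncard_fixed_sextets hu hR

/-- An involution with eight fixed points fixes `71` octads, `99` trios and `91` sextets. -/
theorem counts_2A {g : Equiv.Perm Cfsg.GolayPt} (hg : g ∈ Cfsg.M24) (h₂ : orderOf g = 2)
    (h₈ : (Finset.univ.filter fun p => g p = p).card = 8) :
    {o : Finset Cfsg.GolayPt | o ∈ Cfsg.octads ∧ g • o = o}.ncard = 71 ∧
    {T : Finset (Finset Cfsg.GolayPt) | T ∈ Cfsg.trios ∧ g • T = T}.ncard = 99 ∧
    {S : Finset (Finset Cfsg.GolayPt) | S ∈ Cfsg.sextets ∧ g • S = S}.ncard = 91 := by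
  obtain ⟨k, hk, ⟨-, hconj⟩ | ⟨hfpf, -⟩⟩ := inv_cases hg h₂
  · have h := counts_of_conj hk UA_mem hconj repUA
    rw [cnt_oct_UA, cnt_tr_UA, cnt_sx_UA] at h
    exact h
  · rw [card_fixed_of_fpf hfpf] at h₈
    exact absurd h₈ (by norm_num)

/-- A fixed-point-free involution fixes `15` octads, `75` trios and `51` sextets. -/
theorem counts_2B {g : Equiv.Perm Cfsg.GolayPt} (hg : g ∈ Cfsg.M24) (h₂ : orderOf g = 2)
    (h₀ : ∀ p, g p ≠ p) :
    {o : Finset Cfsg.GolayPt | o ∈ Cfsg.octads ∧ g • o = o}.ncard = 15 ∧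
    {T : Finset (Finset Cfsg.GolayPt) | T ∈ Cfsg.trios ∧ g • T = T}.ncard = 75 ∧
    {S : Finset (Finset Cfsg.GolayPt) | S ∈ Cfsg.sextets ∧ g • S = S}.ncard = 51 := by
  obtain ⟨k, hk, ⟨h8, -⟩ | ⟨-, hconj⟩⟩ := inv_cases hg h₂
  · rw [card_fixed_of_fpf h₀] at h8
    exact absurd h8 (by norm_num)
  · have h := counts_of_conj hk UB_mem hconj repUB
    rw [cnt_oct_UB, cnt_tr_UB, cnt_sx_UB] at h
    exact h

/-- A fixed-point-free element of order three fixes no octad, `15` trios and `7` sextets. -/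
theorem counts_3B {g : Equiv.Perm Cfsg.GolayPt} (hg : g ∈ Cfsg.M24) (h₃ : orderOf g = 3)
    (h₀ : ∀ p, g p ≠ p) :
    {o : Finset Cfsg.GolayPt | o ∈ Cfsg.octads ∧ g • o = o}.ncard = 0 ∧
    {T : Finset (Finset Cfsg.GolayPt) | T ∈ Cfsg.trios ∧ g • T = T}.ncard = 15 ∧
    {S : Finset (Finset Cfsg.GolayPt) | S ∈ Cfsg.sextets ∧ g • S = S}.ncard = 7 := by
  obtain ⟨k, hk, ⟨h6, -⟩ | ⟨-, hconj⟩⟩ := ord3_cases hg h₃
  · rw [card_fixed_of_fpf h₀] at h6
    exact absurd h6 (by norm_num)
  · have h := counts_of_conj hk VB_mem hconj repVB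
    rw [cnt_oct_VB, cnt_tr_VB, cnt_sx_VB] at h
    exact h

/-- An element of order three with six fixed points fixes `21` octads, `15` trios and `16`
sextets. -/
theorem counts_3A {g : Equiv.Perm Cfsg.GolayPt} (hg : g ∈ Cfsg.M24) (h₃ : orderOf g = 3)
    {p : Cfsg.GolayPt} (hp : g p = p) :
    {o : Finset Cfsg.GolayPt | o ∈ Cfsg.octads ∧ g • o = o}.ncard = 21 ∧
    {T : Finset (Finset Cfsg.GolayPt) | T ∈ Cfsg.trios ∧ g • T = T}.ncard = 15 ∧
    {S : Finset (Finset Cfsg.GolayPt) | S ∈ Cfsg.sextets ∧ g • S = S}.ncard = 16 := by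
  obtain ⟨k, hk, ⟨-, hconj⟩ | ⟨hfpf, -⟩⟩ := ord3_cases hg h₃
  · have h := counts_of_conj hk VA_mem hconj repVA
    rw [cnt_oct_VA, cnt_tr_VA, cnt_sx_VA] at h
    exact h
  · exact absurd hp (hfpf p)

end Cfsg.Agent.Lib.Helper27.FC
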