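import Cfsg.Agent.Lib.Helper27.FixData
import Cfsg.Agent.Lib.Helper27.CodeOrbit

set_option autoImplicit false

open scoped Pointwise

namespace Cfsg.Agent.Lib.Helper27.FC

open Cfsg.Agent.Lib.Helper7 Cfsg.Agent.Lib.Helper26 Cfsg.Agent.Lib.Helper93
  Cfsg.Agent.Lib.Helper27.OO Cfsg.Agent.Lib.Helper6.Cls

/-- The number of dodecads fixed by a permutation with a given inverse table. -/
theorem ncard_fixed_dodecads {u : Equiv.Perm Cfsg.GolayPt} {t : ℕ} (hR : RepT u⁻¹ t) :
    {d : Finset Cfsg.GolayPt | d ∈ Cfsg.dodecads ∧ u • d = d}.ncard =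
      ((Finset.range 4096).filter (fun k => popc (enc k) = 12 ∧
        (permT t (enc k) == enc k) = true)).card := by
  refine ncard_supports_and 12 (fun o => u • o = o) (fun m => permT t m == m) ?_
  intro k
  rw [smul_setOf hR, beq_iff_eq]
  exact ⟨fun h => setOf_injective (permT_lt _ _) (enc_lt k) h, fun h => by rw [h]⟩

theorem smul_mem_dodecads_iff {g : Equiv.Perm Cfsg.GolayPt} (hg : g ∈ Cfsg.M24)
    (o : Finset Cfsg.GolayPt) : g • o ∈ Cfsg.dodecads ↔ o ∈ Cfsg.dodecads := by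
  have h1 : ∀ o : Finset Cfsg.GolayPt, o ∈ Cfsg.dodecads ↔ (o ∈ golaySupports ∧ o.card = 12) :=
    fun _ => Iff.rfl
  rw [h1, h1, smul_mem_supports_iff hg, Finset.card_smul_finset]

/-- Number of dodecads fixed by an element conjugate to one with a given inverse table. -/
theorem dod_of_conj {g k u : Equiv.Perm Cfsg.GolayPt} (hk : k ∈ Cfsg.M24)
    (hconj : k * g * k⁻¹ = u) {t : ℕ} (hR : RepT u⁻¹ t) :
    {d : Finset Cfsg.GolayPt | d ∈ Cfsg.dodecads ∧ g • d = d}.ncard =
      ((Finset.range 4096).filter (fun k => popc (enc k) = 12 ∧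
        (permT t (enc k) == enc k) = true)).card := by
  rw [ncard_fix_conj Cfsg.dodecads k g u (smul_mem_dodecads_iff hk) hconj]
  exact ncard_fixed_dodecads hR

theorem cnt_dod_VA : ((Finset.range 4096).filter (fun k => popc (enc k) = 12 ∧
    (permT tVAi (enc k) == enc k) = true)).card = 20 := by decide +kernel

/-- An element of order three with six fixed points fixes `20` dodecads. -/
theorem dod_3A {g : Equiv.Perm Cfsg.GolayPt} (hg : g ∈ Cfsg.M24) (h₃ : orderOf g = 3)
    {p : Cfsg.GolayPt} (hp : g p = p) :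
    {d : Finset Cfsg.GolayPt | d ∈ Cfsg.dodecads ∧ g • d = d}.ncard = 20 := by
  obtain ⟨k, hk, ⟨-, hconj⟩ | ⟨hfpf, -⟩⟩ := ord3_cases hg h₃
  · rw [dod_of_conj hk hconj repVA, cnt_dod_VA]
  · exact absurd hp (hfpf p)

end Cfsg.Agent.Lib.Helper27.FC
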