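import Cfsg.Agent.Lib.Helper27.GolayCosets

set_option autoImplicit false

namespace Cfsg.Agent.Lib.Helper27.G23

open Cfsg.Agent.Lib.Helper7 Cfsg.Agent.Lib.Helper27.GC

/-- Puncturing at the extra point. -/
def punct (w : Cfsg.GolayPt → ZMod 2) : ZMod 23 → ZMod 2 := fun x => w (some x)

/-- The punctured code, as a set. -/
abbrev P23 : Set (ZMod 23 → ZMod 2) :=
  {u : ZMod 23 → ZMod 2 | ∃ w ∈ Cfsg.golayCode, ∀ x : ZMod 23, u x = w (some x)}

theorem mem_P23 (u : ZMod 23 → ZMod 2) : u ∈ P23 ↔ ∃ w ∈ Cfsg.golayCode, u = punct w := by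
  simp only [Set.mem_ofPred_eq, punct, funext_iff]

theorem punct_add (v w : Cfsg.GolayPt → ZMod 2) : punct (v + w) = punct v + punct w := rfl

theorem punct_sub (v w : Cfsg.GolayPt → ZMod 2) : punct (v - w) = punct v - punct w := rfl

theorem punct_neg (v : Cfsg.GolayPt → ZMod 2) : punct (-v) = -punct v := rfl

theorem punct_zero : punct 0 = 0 := rfl

theorem neg_eq₂ {α : Type*} (v : α → ZMod 2) : -v = v := by
  funext p
  have h : ∀ a : ZMod 2, -a = a := by decide
  exact h _

theorem hammingNorm_punct (w : Cfsg.GolayPt → ZMod 2) :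
    hammingNorm w = hammingNorm (punct w) + (if w none ≠ 0 then 1 else 0) := by
  rw [hammingNorm, hammingNorm, Finset.card_filter, Finset.card_filter, Fintype.sum_option,
    add_comm]
  rfl

theorem hammingNorm_punct_le (w : Cfsg.GolayPt → ZMod 2) :
    hammingNorm (punct w) ≤ hammingNorm w := by
  rw [hammingNorm_punct w]; omega

theorem hammingNorm_le_punct (w : Cfsg.GolayPt → ZMod 2) :
    hammingNorm w ≤ hammingNorm (punct w) + 1 := by
  rw [hammingNorm_punct w]; split <;> omega

/-- Puncturing is injective on the code. -/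
theorem punct_inj {v w : Cfsg.GolayPt → ZMod 2} (hv : v ∈ Cfsg.golayCode)
    (hw : w ∈ Cfsg.golayCode) (h : punct v = punct w) : v = w := by
  by_contra hne
  have h8 := eight_le_hammingNorm (Cfsg.golayCode.sub_mem hv hw) (sub_ne_zero.mpr hne)
  have h1 := hammingNorm_le_punct (v - w)
  rw [punct_sub, h, sub_self, hammingNorm_zero] at h1
  omega

/-- The nonzero words of the punctured code have weight at least `7`. -/
theorem seven_le {u : ZMod 23 → ZMod 2} (hu : u ∈ P23) (h0 : u ≠ 0) : 7 ≤ hammingNorm u := by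
  obtain ⟨w, hw, rfl⟩ := (mem_P23 u).mp hu
  have hw0 : w ≠ 0 := by
    rintro rfl
    exact h0 punct_zero
  have h8 := eight_le_hammingNorm hw hw0
  have h1 := hammingNorm_le_punct w
  omega

/-- The `k`-th word of the punctured code. -/
def f (k : ℕ) : ZMod 23 → ZMod 2 := punct (wordOf (enc k))

/-- The weight of the `k`-th word of the punctured code. -/
def pw (k : ℕ) : ℕ := popc (enc k) - (if (enc k).testBit 23 then 1 else 0)

theorem hammingNorm_f (k : ℕ) : hammingNorm (f k) = pw k := by
  have h := hammingNorm_punct (wordOf (enc k))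
  rw [hammingNorm_wordOf] at h
  have h2 : (wordOf (enc k) none ≠ 0) ↔ (enc k).testBit 23 = true := by
    simp only [wordOf, idx]
    by_cases hb : (enc k).testBit 23 = true <;> simp [hb]
  rw [f, pw]
  by_cases hb : (enc k).testBit 23 = true
  · rw [if_pos (h2.mpr hb)] at h
    rw [if_pos hb]; omega
  · rw [if_neg (fun hh => hb (h2.mp hh))] at h
    rw [if_neg hb]; omega

theorem f_inj {k l : ℕ} (hk : k < 4096) (hl : l < 4096) (h : f k = f l) : k = l := by
  have h1 := punct_inj (wordOf_enc_mem k) (wordOf_enc_mem l) h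
  have h2 := wordOf_inj (enc_lt k) (enc_lt l) h1
  rw [← enc_shift k hk, ← enc_shift l hl, h2]

theorem mem_P23' (u : ZMod 23 → ZMod 2) : u ∈ P23 ↔ ∃ k < 4096, u = f k := by
  rw [mem_P23]
  constructor
  · rintro ⟨w, hw, rfl⟩
    obtain ⟨k, hk, rfl⟩ := (mem_golayCode_iff w).mp hw
    exact ⟨k, hk, rfl⟩
  · rintro ⟨k, -, rfl⟩
    exact ⟨_, wordOf_enc_mem k, rfl⟩

theorem setOf_mem_and (Q : (ZMod 23 → ZMod 2) → Prop) [DecidablePred Q] :
    {u : ZMod 23 → ZMod 2 | u ∈ P23 ∧ Q u} =
      (((Finset.range 4096).filter (fun k => Q (f k))).image f : Finset (ZMod 23 → ZMod 2)) := by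
  ext u
  simp only [Finset.coe_image, Finset.coe_filter, Finset.mem_range, Set.mem_image]
  constructor
  · rintro ⟨hu, hq⟩
    obtain ⟨k, hk, rfl⟩ := (mem_P23' u).mp hu
    exact ⟨k, ⟨hk, hq⟩, rfl⟩
  · rintro ⟨k, ⟨hk, hq⟩, rfl⟩
    exact ⟨(mem_P23' _).mpr ⟨k, hk, rfl⟩, hq⟩

theorem ncard_mem_and (Q : (ZMod 23 → ZMod 2) → Prop) [DecidablePred Q] :
    {u : ZMod 23 → ZMod 2 | u ∈ P23 ∧ Q u}.ncard =
      ((Finset.range 4096).filter (fun k => Q (f k))).card := by
  rw [setOf_mem_and, Set.ncard_coe_finset, Finset.card_image_of_injOn]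
  intro k hk l hl h
  simp only [Finset.coe_filter, Finset.mem_range, Set.mem_ofPred_eq] at hk hl
  exact f_inj hk.1 hl.1 h

theorem ncard_weight (n : ℕ) :
    {u : ZMod 23 → ZMod 2 | u ∈ P23 ∧ hammingNorm u = n}.ncard =
      ((Finset.range 4096).filter (fun k => pw k = n)).card := by
  rw [ncard_mem_and]
  simp only [hammingNorm_f]

theorem ncard_P23 : P23.ncard = 4096 := by
  have h := ncard_mem_and (fun _ => True)
  simp only [and_true, Finset.filter_true, Finset.card_range] at h
  exact h

theorem count7 : ((Finset.range 4096).filter (fun k => pw k = 7)).card = 253 := by decide +kernel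
theorem count8 : ((Finset.range 4096).filter (fun k => pw k = 8)).card = 506 := by decide +kernel
theorem count11 : ((Finset.range 4096).filter (fun k => pw k = 11)).card = 1288 := by decide +kernel
theorem count12 : ((Finset.range 4096).filter (fun k => pw k = 12)).card = 1288 := by decide +kernel
theorem count15 : ((Finset.range 4096).filter (fun k => pw k = 15)).card = 506 := by decide +kernel
theorem count16 : ((Finset.range 4096).filter (fun k => pw k = 16)).card = 253 := by decide +kernel

/-- The punctured code is closed under differences. -/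
theorem neg_add_mem {c c' : ZMod 23 → ZMod 2} (hc : c ∈ P23) (hc' : c' ∈ P23) : -c + c' ∈ P23 := by
  obtain ⟨w, hw, rfl⟩ := (mem_P23 c).mp hc
  obtain ⟨w', hw', rfl⟩ := (mem_P23 c').mp hc'
  exact (mem_P23 _).mpr ⟨-w + w', Cfsg.golayCode.add_mem (Cfsg.golayCode.neg_mem hw) hw', rfl⟩

/-- Every word of length `23` is within distance `3` of a word of the punctured code. -/
theorem exists_close (u : ZMod 23 → ZMod 2) : ∃ c ∈ P23, hammingDist u c ≤ 3 := by
  set w0 : Cfsg.GolayPt → ZMod 2 := fun p => p.elim 0 u with hw0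
  have hp0 : punct w0 = u := rfl
  have key : ∀ v : Cfsg.GolayPt → ZMod 2, w0 - v ∈ Cfsg.golayCode →
      punct (w0 - v) ∈ P23 ∧ hammingDist u (punct (w0 - v)) = hammingNorm (punct v) := by
    intro v hv
    refine ⟨(mem_P23 _).mpr ⟨_, hv, rfl⟩, ?_⟩
    rw [hammingDist_eq_hammingNorm, punct_sub, hp0]
    have : -u + (u - punct v) = -punct v := by abel
    rw [this, neg_eq₂]
  rcases coset_leaders w0 with ⟨v, h3, hv⟩ | ⟨v, -, hv, hcov⟩
  · refine ⟨_, (key v hv).1, ?_⟩
    rw [(key v hv).2]
    exact (hammingNorm_punct_le v).trans h3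
  · obtain ⟨i, hi⟩ := hcov none
    refine ⟨_, (key (v i) (hv i).2).1, ?_⟩
    rw [(key (v i) (hv i).2).2]
    have h := hammingNorm_punct (v i)
    rw [(hv i).1, if_pos hi] at h
    omega

/-- Two words of the punctured code within distance `3` of a common word coincide. -/
theorem eq_of_close {u c c' : ZMod 23 → ZMod 2} (hc : c ∈ P23) (hc' : c' ∈ P23)
    (h : hammingDist u c ≤ 3) (h' : hammingDist u c' ≤ 3) : c = c' := by
  by_contra hne
  have h1 : hammingDist c c' ≤ 6 := by
    have := hammingDist_triangle c u c'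
    rw [hammingDist_comm c u] at this
    omega
  rw [hammingDist_eq_hammingNorm] at h1
  have h0 : -c + c' ≠ 0 := by
    intro h0
    apply hne
    have : c' = c := by
      have h2 : c' = c + (-c + c') := by abel
      rw [h2, h0, add_zero]
    exact this.symm
  have := seven_le (neg_add_mem hc hc') h0
  omega

end Cfsg.Agent.Lib.Helper27.G23
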