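import Cfsg.Agent.Lib.Helper27.GolayCosetTab

set_option autoImplicit false

namespace Cfsg.Agent.Lib.Helper27.GC

open Cfsg.Agent.Lib.Helper7

theorem chk_all : (List.range 4096).all chk = true := by decide +kernel

theorem hammingNorm_eq (v : Cfsg.GolayPt → ZMod 2) : hammingNorm v = (Cfsg.support₂ v).card := rfl

theorem hammingNorm_wordOf (m : ℕ) : hammingNorm (wordOf m) = popc m := by
  rw [hammingNorm_eq, card_support₂_wordOf]

theorem sub_eq_add₂ {α : Type*} (v w : α → ZMod 2) : v - w = v + w := by
  funext p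
  have h : ∀ a b : ZMod 2, a - b = a + b := by decide
  exact h _ _

/-- Nonzero code words have weight at least `8`. -/
theorem eight_le_hammingNorm {c : Cfsg.GolayPt → ZMod 2} (hc : c ∈ Cfsg.golayCode) (h0 : c ≠ 0) :
    8 ≤ hammingNorm c := eight_le_card_support₂ hc h0

theorem sub_wordOf_mem {m a : ℕ} (hm : m < 2 ^ 24) (ha : a < 2 ^ 24) (h : syn a = syn m) :
    wordOf m - wordOf a ∈ Cfsg.golayCode := by
  rw [sub_eq_add₂, ← wordOf_xor, wordOf_mem_golayCode_iff (Nat.xor_lt_two_pow hm ha)]
  exact isCode_xor_of_syn h.symm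

theorem testBit_or6 {a0 a1 a2 a3 a4 a5 j : ℕ}
    (h : (a0 ||| a1 ||| a2 ||| a3 ||| a4 ||| a5).testBit j = true) :
    a0.testBit j = true ∨ a1.testBit j = true ∨ a2.testBit j = true ∨ a3.testBit j = true ∨
      a4.testBit j = true ∨ a5.testBit j = true := by
  simp only [Nat.testBit_or, Bool.or_eq_true] at h
  tauto

/-- Every coset of the code has a leader of weight at most `3`, or contains six words of weight
`4` whose supports cover the `24` points. -/
theorem coset_leaders (w : Cfsg.GolayPt → ZMod 2) :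
    (∃ v : Cfsg.GolayPt → ZMod 2, hammingNorm v ≤ 3 ∧ w - v ∈ Cfsg.golayCode) ∨
    (∃ v : Fin 6 → Cfsg.GolayPt → ZMod 2, Function.Injective v ∧
      (∀ i, hammingNorm (v i) = 4 ∧ w - v i ∈ Cfsg.golayCode) ∧ ∀ p, ∃ i, v i p ≠ 0) := by
  have hm := maskOf_lt w
  have hs := syn_lt hm
  have hc := all_range chk_all _ hs
  have hw : w = wordOf (maskOf w) := (wordOf_maskOf w).symm
  generalize maskOf w = m at hm hs hc hw
  subst hw
  generalize hsm : syn m = s at hs hc
  rw [chk, Bool.or_eq_true] at hc
  rcases hc with hc | hc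
  · left
    rw [Bool.and_eq_true, beq_iff_eq, decide_eq_true_eq] at hc
    refine ⟨wordOf (ent s 0), ?_, ?_⟩
    · rw [hammingNorm_wordOf]; exact hc.2
    · exact sub_wordOf_mem hm (ent_lt _ _) (hc.1.trans hsm.symm)
  · right
    rw [Bool.and_eq_true, Bool.and_eq_true, beq_iff_eq] at hc
    obtain ⟨⟨h1, h2⟩, h3⟩ := hc
    have h1' : ∀ i < 6, syn (ent s i) = s ∧ popc (ent s i) = 4 := by
      intro i hi
      have := List.all_eq_true.mp h1 i (List.mem_range.mpr hi)
      rw [Bool.and_eq_true, beq_iff_eq, beq_iff_eq] at this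
      exact this
    have h3' : ∀ i < 5, ent s i < ent s (i + 1) := by
      intro i hi
      have := List.all_eq_true.mp h3 i (List.mem_range.mpr hi)
      rwa [decide_eq_true_eq] at this
    refine ⟨fun i => wordOf (ent s i), ?_, ?_, ?_⟩
    · have hmono : StrictMono (fun i : Fin 6 => ent s i) := by
        rw [Fin.strictMono_iff_lt_succ]
        intro i
        have := h3' i i.isLt
        simpa using this
      intro i j hij
      have h4 : ent s i = ent s j := wordOf_inj (ent_lt _ _) (ent_lt _ _) hij
      exact hmono.injective h4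
    · intro i
      refine ⟨?_, ?_⟩
      · rw [hammingNorm_wordOf]; exact (h1' i i.isLt).2
      · exact sub_wordOf_mem hm (ent_lt _ _) ((h1' i i.isLt).1.trans hsm.symm)
    · intro p
      have hb : (ent s 0 ||| ent s 1 ||| ent s 2 ||| ent s 3 ||| ent s 4 ||| ent s 5).testBit (idx p)
          = true := by
        rw [h2]; exact testBit_allOnes (idx_lt p)
      have key : ∀ a : ℕ, a.testBit (idx p) = true → wordOf a p ≠ 0 := by
        intro a ha
        simp [wordOf, ha]
      rcases testBit_or6 hb with h | h | h | h | h | h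
      · exact ⟨0, key _ h⟩
      · exact ⟨1, key _ h⟩
      · exact ⟨2, key _ h⟩
      · exact ⟨3, key _ h⟩
      · exact ⟨4, key _ h⟩
      · exact ⟨5, key _ h⟩

/-- Two words of the same coset with weights adding up to less than `8` coincide. -/
theorem eq_of_coset {w v v' : Cfsg.GolayPt → ZMod 2} (hv : w - v ∈ Cfsg.golayCode)
    (hv' : w - v' ∈ Cfsg.golayCode) (h : hammingNorm v + hammingNorm v' < 8) : v = v' := by
  by_contra hne
  have hmem : v - v' ∈ Cfsg.golayCode := by
    have := Cfsg.golayCode.sub_mem hv' hv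
    have h2 : w - v' - (w - v) = v - v' := by abel
    rwa [h2] at this
  have h8 := eight_le_hammingNorm hmem (sub_ne_zero.mpr hne)
  have hle : hammingNorm (v - v') ≤ hammingNorm v + hammingNorm v' := by
    rw [hammingNorm_eq, hammingNorm_eq, hammingNorm_eq, sub_eq_add₂, support₂_add]
    exact (Finset.card_le_card (Finset.symmDiff_subset_union)).trans (Finset.card_union_le _ _)
  omega

/-- Two distinct words of weight `4` in the same coset have disjoint supports. -/
theorem disjoint_of_coset {w v v' : Cfsg.GolayPt → ZMod 2} (hv : w - v ∈ Cfsg.golayCode)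
    (hv' : w - v' ∈ Cfsg.golayCode) (h : hammingNorm v ≤ 4) (h' : hammingNorm v' ≤ 4)
    (hne : v ≠ v') (p : Cfsg.GolayPt) (hp : v p ≠ 0) : v' p = 0 := by
  by_contra hp'
  have hmem : v - v' ∈ Cfsg.golayCode := by
    have := Cfsg.golayCode.sub_mem hv' hv
    have h2 : w - v' - (w - v) = v - v' := by abel
    rwa [h2] at this
  have h8 := eight_le_hammingNorm hmem (sub_ne_zero.mpr hne)
  have hsub : Cfsg.support₂ (v - v') ⊆ (Cfsg.support₂ v ∪ Cfsg.support₂ v').erase p := by
    rw [sub_eq_add₂, support₂_add]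
    intro q hq
    rw [Finset.mem_erase]
    refine ⟨?_, Finset.symmDiff_subset_union hq⟩
    rintro rfl
    rw [Finset.mem_symmDiff] at hq
    simp only [Cfsg.support₂, Finset.mem_filter, Finset.mem_univ, true_and] at hq
    tauto
  have hpm : p ∈ Cfsg.support₂ v ∪ Cfsg.support₂ v' := by
    simp [Cfsg.support₂, hp]
  have hc := Finset.card_le_card hsub
  rw [Finset.card_erase_of_mem hpm] at hc
  have hu := Finset.card_union_le (Cfsg.support₂ v) (Cfsg.support₂ v')
  rw [hammingNorm_eq] at h h' h8
  omega

end Cfsg.Agent.Lib.Helper27.GC
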