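import Cfsg.Agent.Lib.Helper27.CosetFix
import Cfsg.Agent.Lib.Helper6.Golay
import Cfsg.Agent.Lib.Helper26.SetTrans

set_option autoImplicit false

open scoped Pointwise

namespace Cfsg.Agent.Lib.Helper27.GD

open Cfsg.Agent.Lib.Helper7 Cfsg.Agent.Lib.Helper27.OO Cfsg.Agent.Lib.Helper27.GC
  Cfsg.Agent.Lib.Helper27.CF Cfsg.Agent.Lib.Helper26

/-- Indicator word of a set of points. -/
def ind (A : Finset Cfsg.GolayPt) : Cfsg.GolayPt → ZMod 2 := fun r => if r ∈ A then 1 else 0

theorem support₂_ind (A : Finset Cfsg.GolayPt) : Cfsg.support₂ (ind A) = A := by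
  ext r
  simp [Cfsg.support₂, ind]

theorem ind_support₂ (w : Cfsg.GolayPt → ZMod 2) : ind (Cfsg.support₂ w) = w :=
  support₂_injective (support₂_ind _)

theorem ind_injective {A B : Finset Cfsg.GolayPt} (h : ind A = ind B) : A = B := by
  rw [← support₂_ind A, ← support₂_ind B, h]

theorem sum_mul_ind (c : Cfsg.GolayPt → ZMod 2) (A : Finset Cfsg.GolayPt) :
    ∑ r, c r * ind A r = ∑ r ∈ A, c r := by
  classical
  simp [ind, Finset.sum_ite_mem]

theorem sum_mul_supp (c w : Cfsg.GolayPt → ZMod 2) :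
    ∑ r, c r * w r = ∑ r ∈ Cfsg.support₂ w, c r := by
  have h := sum_mul_ind c (Cfsg.support₂ w)
  rwa [ind_support₂] at h

theorem sum_ind (S o : Finset Cfsg.GolayPt) :
    ∑ r ∈ S, ind o r = (((o ∩ S).card : ℕ) : ZMod 2) := by
  classical
  simp only [ind]
  rw [Finset.sum_boole, Finset.inter_comm]
  congr 2

theorem dot_wordOf (a b : ℕ) :
    ∑ p, wordOf a p * wordOf b p = ((popc (a &&& b) : ℕ) : ZMod 2) := by
  rw [sum_mul_supp, support₂_wordOf, ← ind_support₂ (wordOf a), sum_ind, support₂_wordOf,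
    setOf_inter, card_setOf]

theorem dual_check : (List.range 4096).all
    (fun s => s == 0 || rows.any (fun r => popc (ent s 0 &&& r) % 2 == 1)) = true := by
  decide +kernel

/-- The code contains every word orthogonal to it. -/
theorem dual_mem {v : Cfsg.GolayPt → ZMod 2}
    (h : ∀ c ∈ Cfsg.golayCode, ∑ r, v r * c r = 0) : v ∈ Cfsg.golayCode := by
  by_contra hv
  obtain ⟨s, hs0, hs, hc⟩ := leader v hv
  have hm := all_range dual_check s hs
  rw [Bool.or_eq_true, beq_iff_eq] at hm
  rcases hm with hm | hm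
  · omega
  rw [List.any_eq_true] at hm
  obtain ⟨r, hr, hodd⟩ := hm
  rw [beq_iff_eq] at hodd
  obtain ⟨-, hcode, hlt⟩ := rows_weight r hr
  have hrC : wordOf r ∈ Cfsg.golayCode := (wordOf_mem_golayCode_iff hlt).mpr hcode
  have e1 := h _ hrC
  have e2 := Cfsg.Agent.Lib.Helper6.Golay.self_orthogonal hc hrC
  have e3 : ∑ i, v i * wordOf r i =
      ∑ i, (v - wordOf (ent s 0)) i * wordOf r i + ∑ i, wordOf (ent s 0) i * wordOf r i := by
    rw [← Finset.sum_add_distrib]
    refine Finset.sum_congr rfl (fun i _ => ?_)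
    rw [Pi.sub_apply]
    ring
  rw [e3, e2, zero_add, dot_wordOf, ZMod.natCast_eq_zero_iff_even, Nat.even_iff] at e1
  omega

/-- Two small sets of points defining the same functional on the code coincide. -/
theorem uniq {A B : Finset Cfsg.GolayPt}
    (h : ∀ c ∈ Cfsg.golayCode, ∑ r ∈ A, c r = ∑ r ∈ B, c r) (hcard : A.card + B.card < 8) :
    A = B := by
  have hv : ind A + ind B ∈ Cfsg.golayCode := by
    apply dual_mem
    intro c hc
    have e : ∑ r, (ind A + ind B) r * c r = ∑ r, c r * ind A r + ∑ r, c r * ind B r := by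
      rw [← Finset.sum_add_distrib]
      refine Finset.sum_congr rfl (fun i _ => ?_)
      rw [Pi.add_apply]
      ring
    rw [e, sum_mul_ind, sum_mul_ind, h c hc]
    exact CharTwo.add_self_eq_zero _
  have hs : Cfsg.support₂ (ind A + ind B) = symmDiff A B := by
    rw [support₂_add, support₂_ind, support₂_ind]
  have h0 : ind A + ind B = 0 := by
    by_contra hne
    have h8 := eight_le_card_support₂ hv hne
    rw [hs] at h8
    have := Finset.card_le_card (Finset.symmDiff_subset_union (s := A) (t := B))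
    have := Finset.card_union_le A B
    omega
  rw [h0, support₂_zero] at hs
  exact symmDiff_eq_bot.mp hs.symm

/-- The number of octads meeting a set in an odd number of points. -/
noncomputable def N (S : Finset Cfsg.GolayPt) : ℕ :=
  {o : Finset Cfsg.GolayPt | o ∈ Cfsg.octads ∧ (o ∩ S).card % 2 = 1}.ncard

theorem N_smul {g : Equiv.Perm Cfsg.GolayPt} (hg : g ∈ Cfsg.M24) (S : Finset Cfsg.GolayPt) :
    N (g • S) = N S := by
  unfold N
  symm
  apply ncard_transport g
  intro o
  rw [smul_mem_octads_iff hg, card_smul_inter]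

theorem N_mask (m : ℕ) : N (Helper7.setOf m) =
    ((Finset.range 4096).filter (fun k => popc (enc k) = 8 ∧
      (popc (enc k &&& m) % 2 == 1) = true)).card := by
  unfold N
  refine ncard_octads_and (fun o => (o ∩ Helper7.setOf m).card % 2 = 1)
    (fun a => popc (a &&& m) % 2 == 1) ?_
  intro k
  rw [setOf_inter, card_setOf, beq_iff_eq]

theorem N_base2 : N (Helper7.setOf 3) = 352 := by
  rw [N_mask]; decide +kernel

theorem N_base4 : N (Helper7.setOf 15) = 384 := by
  rw [N_mask]; decide +kernel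

theorem N_of_card {S : Finset Cfsg.GolayPt} {m : ℕ} (h : S.card = popc m) (h5 : popc m ≤ 5) :
    N S = N (Helper7.setOf m) := by
  obtain ⟨g, hg, -, hgS⟩ := M24_pair_transport (s := ∅) (y := S) (z := Helper7.setOf m)
    (by rw [h, card_setOf]) (by simp) (by simpa [h] using h5)
  rw [← hgS, N_smul hg]

theorem N_two {S : Finset Cfsg.GolayPt} (h : S.card = 2) : N S = 352 := by
  rw [N_of_card (m := 3) (by rw [h]; decide) (by decide), N_base2]

theorem N_four {S : Finset Cfsg.GolayPt} (h : S.card = 4) : N S = 384 := by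
  rw [N_of_card (m := 15) (by rw [h]; decide) (by decide), N_base4]

theorem N_empty : N ∅ = 0 := by
  unfold N
  have : {o : Finset Cfsg.GolayPt | o ∈ Cfsg.octads ∧ (o ∩ ∅).card % 2 = 1} = ∅ := by
    ext o
    simp
  rw [this, Set.ncard_empty]

end Cfsg.Agent.Lib.Helper27.GD
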