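import Mathlib
import Cfsg.Prelude.Def_SporadicCombinatorics

set_option autoImplicit false

/-! The hexacode over an abstract field with four elements, via tables on `Fin 4`. -/

namespace Cfsg.Agent.Lib.Helper27.Hex

open Cfsg

/-- addition table of the field with four elements (codes 0, 1, ω, ω+1) -/
def addT (i j : Fin 4) : Fin 4 :=
  (![![0, 1, 2, 3], ![1, 0, 3, 2], ![2, 3, 0, 1], ![3, 2, 1, 0]] : Fin 4 → Fin 4 → Fin 4) i j

/-- multiplication table -/
def mulT (i j : Fin 4) : Fin 4 :=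
  (![![0, 0, 0, 0], ![0, 1, 2, 3], ![0, 2, 3, 1], ![0, 3, 1, 2]] : Fin 4 → Fin 4 → Fin 4) i j

def V1 : Fin 6 → Fin 4 := ![2, 3, 3, 2, 3, 2]
def V2 : Fin 6 → Fin 4 := ![3, 2, 2, 3, 3, 2]
def V3 : Fin 6 → Fin 4 := ![3, 2, 3, 2, 2, 3]

/-- the hexacode word with coefficients `i j k`, in codes -/
def encT (i j k : Fin 4) : Fin 6 → Fin 4 :=
  fun t => addT (addT (mulT i (V1 t)) (mulT j (V2 t))) (mulT k (V3 t))

/-- weight of a coded word -/
def wtT (y : Fin 6 → Fin 4) : ℕ := (Finset.univ.filter fun t => y t ≠ 0).card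

/-- parameter space -/
abbrev P3 : Type := Fin 4 × Fin 4 × Fin 4

theorem encT_inj : ∀ m m' : P3, encT m.1 m.2.1 m.2.2 = encT m'.1 m'.2.1 m'.2.2 → m = m' := by
  decide +kernel

set_option linter.unusedSectionVars false

section
variable {F : Type*} [Field F] (ω : F)

/-- decoding of the four codes -/
def g : Fin 4 → F := ![0, 1, ω, ω + 1]

/-- the hexacode word with coefficients `a b c` -/
def encF (a b c : F) : Fin 6 → F :=
  a • ![ω, ω ^ 2, ω ^ 2, ω, ω ^ 2, ω] + b • ![ω ^ 2, ω, ω, ω ^ 2, ω ^ 2, ω]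
    + c • ![ω ^ 2, ω, ω ^ 2, ω, ω, ω ^ 2]

theorem mem_hex (x : Fin 6 → F) : x ∈ hexacode F ω ↔ ∃ a b c : F, x = encF ω a b c := by
  rw [hexacode, Submodule.mem_span_triple]
  constructor
  · rintro ⟨a, b, c, h⟩
    exact ⟨a, b, c, h.symm⟩
  · rintro ⟨a, b, c, h⟩
    exact ⟨a, b, c, h.symm⟩

variable [Fintype F] (hF : Fintype.card F = 4) (hω : ω ^ 2 + ω + 1 = 0)
include hF

theorem two_eq_zero : (2 : F) = 0 := by
  have h4 : ((4 : ℕ) : F) = 0 := by
    have := FiniteField.cast_card_eq_zero F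
    rwa [hF] at this
  have h22 : (2 : F) ^ 2 = 0 := by
    have : (2 : F) ^ 2 = ((4 : ℕ) : F) := by norm_num
    rw [this, h4]
  exact pow_eq_zero_iff (by norm_num) |>.mp h22

include hω

theorem g_add (i j : Fin 4) : g ω (addT i j) = g ω i + g ω j := by
  have h2 := two_eq_zero (F := F) hF
  fin_cases i <;> fin_cases j
  · show (0 : F) = (0) + (0)
    linear_combination (0) * h2
  · show (1 : F) = (0) + (1)
    linear_combination (0) * h2
  · show (ω : F) = (0) + (ω)
    linear_combination (0) * h2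
  · show (ω + 1 : F) = (0) + (ω + 1)
    linear_combination (0) * h2
  · show (1 : F) = (1) + (0)
    linear_combination (0) * h2
  · show (0 : F) = (1) + (1)
    linear_combination ((-1)) * h2
  · show (ω + 1 : F) = (1) + (ω)
    linear_combination (0) * h2
  · show (ω : F) = (1) + (ω + 1)
    linear_combination ((-1)) * h2
  · show (ω : F) = (ω) + (0)
    linear_combination (0) * h2
  · show (ω + 1 : F) = (ω) + (1)
    linear_combination (0) * h2
  · show (0 : F) = (ω) + (ω)
    linear_combination ((-1) * ω) * h2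
  · show (1 : F) = (ω) + (ω + 1)
    linear_combination ((-1) * ω) * h2
  · show (ω + 1 : F) = (ω + 1) + (0)
    linear_combination (0) * h2
  · show (ω : F) = (ω + 1) + (1)
    linear_combination ((-1)) * h2
  · show (1 : F) = (ω + 1) + (ω)
    linear_combination ((-1) * ω) * h2
  · show (0 : F) = (ω + 1) + (ω + 1)
    linear_combination ((-1) + (-1) * ω) * h2

theorem g_mul (i j : Fin 4) : g ω (mulT i j) = g ω i * g ω j := by
  have h2 := two_eq_zero (F := F) hF
  fin_cases i <;> fin_cases j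
  · show (0 : F) = (0) * (0)
    linear_combination (0) * h2 + (0) * hω
  · show (0 : F) = (0) * (1)
    linear_combination (0) * h2 + (0) * hω
  · show (0 : F) = (0) * (ω)
    linear_combination (0) * h2 + (0) * hω
  · show (0 : F) = (0) * (ω + 1)
    linear_combination (0) * h2 + (0) * hω
  · show (0 : F) = (1) * (0)
    linear_combination (0) * h2 + (0) * hω
  · show (1 : F) = (1) * (1)
    linear_combination (0) * h2 + (0) * hω
  · show (ω : F) = (1) * (ω)
    linear_combination (0) * h2 + (0) * hω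
  · show (ω + 1 : F) = (1) * (ω + 1)
    linear_combination (0) * h2 + (0) * hω
  · show (0 : F) = (ω) * (0)
    linear_combination (0) * h2 + (0) * hω
  · show (ω : F) = (ω) * (1)
    linear_combination (0) * h2 + (0) * hω
  · show (ω + 1 : F) = (ω) * (ω)
    linear_combination ((1) + (1) * ω) * h2 + ((-1)) * hω
  · show (1 : F) = (ω) * (ω + 1)
    linear_combination ((1)) * h2 + ((-1)) * hω
  · show (0 : F) = (ω + 1) * (0)
    linear_combination (0) * h2 + (0) * hω
  · show (ω + 1 : F) = (ω + 1) * (1)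
    linear_combination (0) * h2 + (0) * hω
  · show (1 : F) = (ω + 1) * (ω)
    linear_combination ((1)) * h2 + ((-1)) * hω
  · show (ω : F) = (ω + 1) * (ω + 1)
    linear_combination (0) * h2 + ((-1)) * hω

theorem omega_sq : ω ^ 2 = ω + 1 := by
  have h2 := two_eq_zero (F := F) hF
  linear_combination hω - (ω + 1) * h2

theorem g_eq_zero (i : Fin 4) : g ω i = 0 ↔ i = 0 := by
  have h2 := two_eq_zero (F := F) hF
  have h1 : (1 : F) ≠ 0 := one_ne_zero
  have hw0 : ω ≠ 0 := by
    intro h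
    apply h1
    linear_combination hω - (ω + 1) * h
  have hw1 : ω + 1 ≠ 0 := by
    intro h
    apply h1
    linear_combination hω - ω * h
  fin_cases i
  · simp [g]
  · simp [g]
  · simpa [g] using hw0
  · simpa [g] using hw1

theorem g_inj : Function.Injective (g ω) := by
  intro i j hij
  have h2 := two_eq_zero (F := F) hF
  have h0 : g ω (addT i j) = 0 := by
    rw [g_add ω hF hω, hij]
    linear_combination (g ω j) * h2
  have h3 := (g_eq_zero ω hF hω _).mp h0
  have key : ∀ i j : Fin 4, addT i j = 0 → i = j := by decide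
  exact key i j h3

theorem g_surj : Function.Surjective (g ω) := by
  have hinj := g_inj ω hF hω
  have hbij : Function.Bijective (g ω) := by
    rw [Fintype.bijective_iff_injective_and_card]
    exact ⟨hinj, by rw [hF]; rfl⟩
  exact hbij.2

theorem enc_eq (i j k : Fin 4) :
    encF ω (g ω i) (g ω j) (g ω k) = fun t => g ω (encT i j k t) := by
  have e3 := omega_sq ω hF hω
  have q2 : g ω 2 = ω := rfl
  have q3 : g ω 3 = ω ^ 2 := by rw [e3]; rfl
  funext t
  simp only [encT, g_add ω hF hω, g_mul ω hF hω]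
  fin_cases t
  · show g ω i * ω + g ω j * ω ^ 2 + g ω k * ω ^ 2 = g ω i * g ω 2 + g ω j * g ω 3 + g ω k * g ω 3
    rw [q2, q3]
  · show g ω i * ω ^ 2 + g ω j * ω + g ω k * ω = g ω i * g ω 3 + g ω j * g ω 2 + g ω k * g ω 2
    rw [q2, q3]
  · show g ω i * ω ^ 2 + g ω j * ω + g ω k * ω ^ 2 = g ω i * g ω 3 + g ω j * g ω 2 + g ω k * g ω 3
    rw [q2, q3]
  · show g ω i * ω + g ω j * ω ^ 2 + g ω k * ω = g ω i * g ω 2 + g ω j * g ω 3 + g ω k * g ω 2
    rw [q2, q3]
  · show g ω i * ω ^ 2 + g ω j * ω ^ 2 + g ω k * ω = g ω i * g ω 3 + g ω j * g ω 3 + g ω k * g ω 2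
    rw [q2, q3]
  · show g ω i * ω + g ω j * ω + g ω k * ω ^ 2 = g ω i * g ω 2 + g ω j * g ω 2 + g ω k * g ω 3
    rw [q2, q3]

/-- the hexacode word attached to a parameter -/
def wordF (m : P3) : Fin 6 → F := fun t => g ω (encT m.1 m.2.1 m.2.2 t)

theorem mem_hex' (x : Fin 6 → F) : x ∈ hexacode F ω ↔ ∃ m : P3, wordF ω m = x := by
  rw [mem_hex]
  constructor
  · rintro ⟨a, b, c, rfl⟩
    obtain ⟨i, rfl⟩ := g_surj ω hF hω a
    obtain ⟨j, rfl⟩ := g_surj ω hF hω b
    obtain ⟨k, rfl⟩ := g_surj ω hF hω c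
    exact ⟨(i, j, k), (enc_eq ω hF hω i j k).symm⟩
  · rintro ⟨⟨i, j, k⟩, rfl⟩
    exact ⟨g ω i, g ω j, g ω k, (enc_eq ω hF hω i j k).symm⟩

theorem wordF_inj : Function.Injective (wordF (F := F) ω) := by
  intro m m' h
  apply encT_inj
  funext t
  exact g_inj ω hF hω (congrFun h t)

theorem wordF_eq_zero (m : P3) : wordF ω m = 0 ↔ encT m.1 m.2.1 m.2.2 = 0 := by
  constructor
  · intro h
    funext t
    exact (g_eq_zero ω hF hω _).mp (congrFun h t)
  · intro h
    funext t
    show g ω (encT m.1 m.2.1 m.2.2 t) = 0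
    rw [h]
    exact (g_eq_zero ω hF hω _).mpr rfl

theorem wt_wordF [DecidableEq F] (m : P3) :
    (Finset.univ.filter fun t => wordF ω m t ≠ 0).card = wtT (encT m.1 m.2.1 m.2.2) := by
  rw [wtT]
  congr 1
  apply Finset.filter_congr
  intro t _
  exact not_congr (g_eq_zero ω hF hω _)

/-- sets of hexacode words cut out by a predicate on the weight -/
theorem setOf_mem_and [DecidableEq F] (Q : ℕ → Prop) [DecidablePred Q] :
    {x : Fin 6 → F | x ∈ hexacode F ω ∧ Q (Finset.univ.filter fun t => x t ≠ 0).card} =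
      ((Finset.univ.filter (fun m : P3 => Q (wtT (encT m.1 m.2.1 m.2.2)))).image (wordF ω) :
        Finset (Fin 6 → F)) := by
  ext x
  simp only [Set.mem_ofPred_eq, Finset.coe_image, Finset.coe_filter, Finset.mem_univ, true_and,
    Set.mem_image, mem_hex' ω hF hω]
  constructor
  · rintro ⟨⟨m, rfl⟩, hq⟩
    rw [wt_wordF ω hF hω] at hq
    exact ⟨m, hq, rfl⟩
  · rintro ⟨m, hq, rfl⟩
    rw [← wt_wordF ω hF hω] at hq
    exact ⟨⟨m, rfl⟩, hq⟩

theorem ncard_mem_and [DecidableEq F] (Q : ℕ → Prop) [DecidablePred Q] :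
    {x : Fin 6 → F | x ∈ hexacode F ω ∧ Q (Finset.univ.filter fun t => x t ≠ 0).card}.ncard =
      (Finset.univ.filter (fun m : P3 => Q (wtT (encT m.1 m.2.1 m.2.2)))).card := by
  rw [setOf_mem_and ω hF hω, Set.ncard_coe_finset,
    Finset.card_image_of_injective _ (wordF_inj ω hF hω)]

end

end Cfsg.Agent.Lib.Helper27.Hex
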