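import Cfsg.Agent.Lib.Helper27.CosetFix
import Cfsg.Agent.Lib.Helper27.SixPt

set_option autoImplicit false

open scoped Pointwise

namespace Cfsg.Agent.Lib.Helper27.IS

open Cfsg.Agent.Lib.Helper7 Cfsg.Agent.Lib.Helper27.OO Cfsg.Agent.Lib.Helper27.GC
  Cfsg.Agent.Lib.Helper27.Dod Cfsg.Agent.Lib.Helper27.CF Cfsg.Agent.Lib.Helper27.Irr
  Cfsg.Agent.Lib.Helper27.SixPt Cfsg.Agent.Lib.Helper26

theorem O0c_octad : popc ((O0 ^^^ 16777215) ^^^ preT (ltabs.getD 0 idT) (O0 ^^^ 16777215)) = 8 := by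
  decide +kernel

/-- An invariant subspace of the code with a word other than `0` and `1` is the code. -/
theorem code_le {W : Submodule (ZMod 2) (Cfsg.GolayPt → ZMod 2)}
    (hle : W ≤ Cfsg.golayCode) (hinv : ∀ σ ∈ Cfsg.M24, ∀ w ∈ W, w ∘ σ.symm ∈ W)
    {w : Cfsg.GolayPt → ZMod 2} (hw : w ∈ W) (hw0 : w ≠ 0) (hw1 : w ≠ 1) :
    Cfsg.golayCode ≤ W := by
  obtain ⟨k, hk, rfl⟩ := (mem_golayCode_iff w).mp (hle hw)
  have hwt := all_range weights_all k hk
  simp only [wtOk, Bool.or_eq_true, beq_iff_eq] at hwt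
  have hτ : letters.getD 0 1 ∈ Cfsg.M24 := getD_mem_subgroup _ letters_mem_M24 0
  have hrep := repT_getD letters_rep 0
  rcases hwt with (((h | h) | h) | h) | h
  · exfalso
    apply hw0
    apply support₂_eq_empty
    rw [support₂_wordOf, ← Finset.card_eq_zero, card_setOf, h]
  · exact le_of_octad hinv hw (setOf_enc_mem_octads h)
  · -- a dodecad
    have hd : Helper7.setOf (enc k) ∈ Cfsg.dodecads :=
      ⟨setOf_enc_mem_supports k, by rw [card_setOf, h]⟩
    obtain ⟨u, hu, hud⟩ := dodecad_conj hd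
    have hRA : wordOf RA ∈ W := comp_wordOf_of_smul hinv hu hw hud
    have h2 : wordOf (preT (ltabs.getD 0 idT) RA) ∈ W :=
      comp_wordOf_of_smul hinv (Cfsg.M24.inv_mem hτ) hRA (setOf_preT hrep RA).symm
    have h3 : wordOf (RA ^^^ preT (ltabs.getD 0 idT) RA) ∈ W := by
      rw [wordOf_xor]
      exact W.add_mem hRA h2
    refine le_of_octad hinv h3 ⟨⟨_, hle h3, support₂_wordOf _⟩, ?_⟩
    rw [card_setOf]
    exact RA_octad
  · -- weight 16: the complement of an octad
    have h8 : popc (enc k ^^^ 16777215) = 8 := by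
      have := all_range compl16 k hk
      rw [h] at this
      simpa using this
    have hc : isCode (enc k ^^^ 16777215) = true := by
      rw [← wordOf_mem_golayCode_iff (Nat.xor_lt_two_pow (enc_lt k) (by norm_num)), wordOf_xor,
        wordOf_allOnes]
      exact Cfsg.golayCode.add_mem (hle hw) one_mem_golayCode
    have ho : Helper7.setOf (enc k ^^^ 16777215) ∈ Cfsg.octads :=
      ⟨setOf_mem_golaySupports (Nat.xor_lt_two_pow (enc_lt k) (by norm_num)) hc, by
        rw [card_setOf, h8]⟩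
    obtain ⟨g, hg, hgo⟩ := octad_transitive ho O0_mem
    have e1 : wordOf (enc k) = wordOf (enc k ^^^ 16777215) + 1 := by
      rw [wordOf_xor, wordOf_allOnes, add_assoc, ← sub_eq_add₂ 1 1, sub_self, add_zero]
    have e2 : wordOf (enc k ^^^ 16777215) ∘ g.symm = wordOf O0 := by
      apply eq_wordOf_of_support
      rw [← smul_support₂, support₂_wordOf, hgo]
    have h1 : wordOf (O0 ^^^ 16777215) ∈ W := by
      have := hinv g hg _ hw
      rw [e1] at this
      have e3 : (wordOf (enc k ^^^ 16777215) + 1) ∘ g.symm =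
          wordOf (enc k ^^^ 16777215) ∘ g.symm + 1 := rfl
      rwa [e3, e2, ← wordOf_allOnes, ← wordOf_xor] at this
    have h2 : wordOf (preT (ltabs.getD 0 idT) (O0 ^^^ 16777215)) ∈ W :=
      comp_wordOf_of_smul hinv (Cfsg.M24.inv_mem hτ) h1 (setOf_preT hrep _).symm
    have h3 : wordOf ((O0 ^^^ 16777215) ^^^ preT (ltabs.getD 0 idT) (O0 ^^^ 16777215)) ∈ W := by
      rw [wordOf_xor]
      exact W.add_mem h1 h2
    refine le_of_octad hinv h3 ⟨⟨_, hle h3, support₂_wordOf _⟩, ?_⟩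
    rw [card_setOf]
    exact O0c_octad
  · exfalso
    apply hw1
    apply support₂_injective
    rw [support₂_wordOf, support₂_one]
    apply Finset.eq_univ_of_card
    rw [card_setOf, h]
    rfl

/-- The invariant subspaces of the code. -/
theorem le_code_cases {W : Submodule (ZMod 2) (Cfsg.GolayPt → ZMod 2)}
    (hle : W ≤ Cfsg.golayCode) (hinv : ∀ σ ∈ Cfsg.M24, ∀ w ∈ W, w ∘ σ.symm ∈ W) :
    W = ⊥ ∨ W = Submodule.span (ZMod 2) {(1 : Cfsg.GolayPt → ZMod 2)} ∨ W = Cfsg.golayCode := by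
  by_cases hex : ∃ w ∈ W, w ≠ 0 ∧ w ≠ 1
  · obtain ⟨w, hw, hw0, hw1⟩ := hex
    exact Or.inr (Or.inr (le_antisymm hle (code_le hle hinv hw hw0 hw1)))
  · push Not at hex
    by_cases h1 : (1 : Cfsg.GolayPt → ZMod 2) ∈ W
    · right; left
      apply le_antisymm
      · intro w hw
        by_cases h0 : w = 0
        · rw [h0]; exact Submodule.zero_mem _
        · rw [hex w hw h0]
          exact Submodule.subset_span rfl
      · rw [Submodule.span_le]
        rintro x rfl
        exact h1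
    · left
      rw [Submodule.eq_bot_iff]
      intro w hw
      by_contra h0
      exact h1 (hex w hw h0 ▸ hw)

theorem card_pts : Fintype.card Cfsg.GolayPt = 24 := by
  rw [Fintype.card_option, ZMod.card]

theorem card_symmDiff_add (s t : Finset Cfsg.GolayPt) :
    (symmDiff s t).card + 2 * (s ∩ t).card = s.card + t.card := by
  have h0 : symmDiff s t = (s ∪ t) \ (s ∩ t) := symmDiff_eq_sup_sdiff_inf s t
  have h1 : (s ∩ t) ⊆ (s ∪ t) := Finset.inter_subset_union
  have h2 := Finset.card_sdiff_add_card_eq_card h1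
  have h3 := Finset.card_union_add_card_inter s t
  rw [h0]
  omega

/-- Symmetrising a word with a group element fixing part of its support. -/
theorem sym_step {W : Submodule (ZMod 2) (Cfsg.GolayPt → ZMod 2)}
    (hinv : ∀ σ ∈ Cfsg.M24, ∀ w ∈ W, w ∘ σ.symm ∈ W) {x : Cfsg.GolayPt → ZMod 2} (hx : x ∈ W)
    {g : Equiv.Perm Cfsg.GolayPt} (hg : g ∈ Cfsg.M24) (L : Finset Cfsg.GolayPt)
    (hL : L ⊆ Cfsg.support₂ x) (hfix : ∀ p ∈ L, g p = p) {f f' : Cfsg.GolayPt}
    (hf : f ∈ Cfsg.support₂ x) (hf' : f' ∉ Cfsg.support₂ x) (hgf : g f = f') :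
    ∃ x' ∈ W, x' ≠ 0 ∧ (Cfsg.support₂ x').card + 2 * L.card ≤ 2 * (Cfsg.support₂ x).card ∧
      (Cfsg.support₂ x').card % 2 = 0 := by
  have hsupp : Cfsg.support₂ (x ∘ g.symm + x) =
      symmDiff (g • Cfsg.support₂ x) (Cfsg.support₂ x) := by
    rw [support₂_add, smul_support₂]
  have hf'g : f' ∈ g • Cfsg.support₂ x := by
    rw [← hgf, ← Equiv.Perm.smul_def]
    exact Finset.smul_mem_smul_finset hf
  have hsub : L ⊆ g • Cfsg.support₂ x ∩ Cfsg.support₂ x := by
    intro p hp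
    rw [Finset.mem_inter]
    refine ⟨?_, hL hp⟩
    rw [← hfix p hp, ← Equiv.Perm.smul_def]
    exact Finset.smul_mem_smul_finset (hL hp)
  have hc := card_symmDiff_add (g • Cfsg.support₂ x) (Cfsg.support₂ x)
  rw [Finset.card_smul_finset] at hc
  have hLc := Finset.card_le_card hsub
  refine ⟨x ∘ g.symm + x, W.add_mem (hinv g hg x hx) hx, ?_, ?_, ?_⟩
  · intro h0
    have : f' ∈ Cfsg.support₂ (x ∘ g.symm + x) := by
      rw [hsupp, Finset.mem_symmDiff]
      exact Or.inl ⟨hf'g, hf'⟩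
    rw [h0, support₂_zero] at this
    exact absurd this (Finset.notMem_empty _)
  · rw [hsupp]; omega
  · rw [hsupp]; omega

theorem map_fix {g : Equiv.Perm Cfsg.GolayPt} : ∀ {l : List Cfsg.GolayPt},
    l.map (fun p => g p) = l → ∀ p ∈ l, g p = p
  | [], _, p, hp => absurd hp List.not_mem_nil
  | a :: l, h, p, hp => by
    rw [List.map_cons, List.cons.injEq] at h
    rcases List.mem_cons.mp hp with rfl | hp'
    · exact h.1
    · exact map_fix h.2 p hp'

/-- The pointwise stabiliser of at most three points is transitive on the other points. -/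
theorem fix_move_small (L : Finset Cfsg.GolayPt) (hL : L.card ≤ 4) {f f' : Cfsg.GolayPt}
    (hf : f ∉ L) (hf' : f' ∉ L) : ∃ g ∈ Cfsg.M24, (∀ p ∈ L, g p = p) ∧ g f = f' := by
  have h1 : (L.toList ++ [f]).Nodup := by
    rw [List.nodup_append]
    refine ⟨L.nodup_toList, List.nodup_singleton f, ?_⟩
    intro a ha b hb
    rw [List.mem_singleton] at hb
    rw [Finset.mem_toList] at ha
    rintro rfl
    exact hf (hb ▸ ha)
  have h2 : (L.toList ++ [f']).Nodup := by
    rw [List.nodup_append]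
    refine ⟨L.nodup_toList, List.nodup_singleton f', ?_⟩
    intro a ha b hb
    rw [List.mem_singleton] at hb
    rw [Finset.mem_toList] at ha
    rintro rfl
    exact hf' (hb ▸ ha)
  obtain ⟨g, hg, hmap⟩ := M24_lists_map h1 h2 (by simp) (by simp; omega)
  rw [List.map_append] at hmap
  obtain ⟨e1, e2⟩ := List.append_inj hmap (by simp)
  refine ⟨g, hg, ?_, ?_⟩
  · intro p hp
    exact map_fix e1 p (Finset.mem_toList.mpr hp)
  · simpa using e2

/-- A word of weight `4` in an invariant subspace yields one of weight `2`. -/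
theorem step4 {W : Submodule (ZMod 2) (Cfsg.GolayPt → ZMod 2)}
    (hinv : ∀ σ ∈ Cfsg.M24, ∀ w ∈ W, w ∘ σ.symm ∈ W) {x : Cfsg.GolayPt → ZMod 2} (hx : x ∈ W)
    (h4 : (Cfsg.support₂ x).card = 4) : ∃ y ∈ W, (Cfsg.support₂ y).card = 2 := by
  classical
  obtain ⟨L, hLs, hLc⟩ := Finset.exists_subset_card_eq (s := Cfsg.support₂ x) (n := 3) (by omega)
  obtain ⟨f, hf⟩ : (Cfsg.support₂ x \ L).Nonempty := by
    rw [← Finset.card_pos, Finset.card_sdiff_of_subset hLs]; omega
  rw [Finset.mem_sdiff] at hf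
  obtain ⟨f', hf'⟩ : ((Cfsg.support₂ x)ᶜ).Nonempty := by
    rw [← Finset.card_pos, Finset.card_compl, card_pts]; omega
  rw [Finset.mem_compl] at hf'
  obtain ⟨g, hg, hfix, hgf⟩ := fix_move_small L (by omega) hf.2 (fun h => hf' (hLs h))
  obtain ⟨x', hx', hne, hcard, hev⟩ := sym_step hinv hx hg L hLs hfix hf.1 hf' hgf
  refine ⟨x', hx', ?_⟩
  have hpos : 0 < (Cfsg.support₂ x').card := by
    rw [Finset.card_pos, Finset.nonempty_iff_ne_empty]
    exact fun h => hne (support₂_eq_empty h)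
  omega

/-- A word of weight `6` or of weight `8` outside the code yields a nonzero one of smaller even
weight. -/
theorem step5 {W : Submodule (ZMod 2) (Cfsg.GolayPt → ZMod 2)}
    (hinv : ∀ σ ∈ Cfsg.M24, ∀ w ∈ W, w ∘ σ.symm ∈ W) {x : Cfsg.GolayPt → ZMod 2} (hx : x ∈ W)
    (h6 : 6 ≤ (Cfsg.support₂ x).card) (h8 : (Cfsg.support₂ x).card ≤ 8)
    (hno : Cfsg.support₂ x ∉ Cfsg.octads) :
    ∃ x' ∈ W, 0 < (Cfsg.support₂ x').card ∧
      (Cfsg.support₂ x').card + 10 ≤ 2 * (Cfsg.support₂ x).card ∧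
      (Cfsg.support₂ x').card % 2 = 0 := by
  classical
  obtain ⟨L, hLs, hLc⟩ := Finset.exists_subset_card_eq (s := Cfsg.support₂ x) (n := 5) (by omega)
  obtain ⟨o, ho, hLo⟩ := Cfsg.Agent.Lib.Helper93.octad_exists hLc
  have key : ∃ f ∈ Cfsg.support₂ x, f ∉ L ∧ ∃ f', f' ∉ Cfsg.support₂ x ∧ (f ∈ o ↔ f' ∈ o) := by
    by_cases hso : Cfsg.support₂ x ⊆ o
    · have hss : Cfsg.support₂ x ⊂ o :=
        Finset.ssubset_iff_subset_ne.mpr ⟨hso, fun h => hno (h ▸ ho)⟩
      obtain ⟨f', hf'o, hf's⟩ := Finset.exists_of_ssubset hss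
      obtain ⟨f, hf⟩ : (Cfsg.support₂ x \ L).Nonempty := by
        rw [← Finset.card_pos, Finset.card_sdiff_of_subset hLs]; omega
      rw [Finset.mem_sdiff] at hf
      exact ⟨f, hf.1, hf.2, f', hf's, by simp [hso hf.1, hf'o]⟩
    · obtain ⟨f, hfs, hfo⟩ := Finset.not_subset.mp hso
      obtain ⟨f', hf'⟩ : ((o ∪ Cfsg.support₂ x)ᶜ).Nonempty := by
        rw [← Finset.card_pos, Finset.card_compl, card_pts]
        have := Finset.card_union_le o (Cfsg.support₂ x)
        have := ho.2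
        omega
      rw [Finset.mem_compl, Finset.mem_union, not_or] at hf'
      exact ⟨f, hfs, fun h => hfo (hLo h), f', hf'.2, by simp [hfo, hf'.1]⟩
  obtain ⟨f, hfs, hfL, f', hf's, hiff⟩ := key
  obtain ⟨g, hg, hfix, hgf⟩ := five_fix_trans hLc ho hLo hfL (fun h => hf's (hLs h)) hiff
  obtain ⟨x', hx', hne, hcard, hev⟩ := sym_step hinv hx hg L hLs hfix hfs hf's hgf
  refine ⟨x', hx', ?_, ?_, hev⟩
  · rw [Finset.card_pos, Finset.nonempty_iff_ne_empty]
    exact fun h => hne (support₂_eq_empty h)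
  · omega

/-- A word outside the code of even weight at most `8` in an invariant subspace yields one of
weight `2`. -/
theorem exists_pair {W : Submodule (ZMod 2) (Cfsg.GolayPt → ZMod 2)}
    (hinv : ∀ σ ∈ Cfsg.M24, ∀ w ∈ W, w ∘ σ.symm ∈ W) {x : Cfsg.GolayPt → ZMod 2} (hx : x ∈ W)
    (hxC : x ∉ Cfsg.golayCode) (h8 : (Cfsg.support₂ x).card ≤ 8)
    (hev : (Cfsg.support₂ x).card % 2 = 0) : ∃ y ∈ W, (Cfsg.support₂ y).card = 2 := by
  have small : ∀ z ∈ W, 0 < (Cfsg.support₂ z).card → (Cfsg.support₂ z).card ≤ 6 →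
      (Cfsg.support₂ z).card % 2 = 0 → ∃ y ∈ W, (Cfsg.support₂ y).card = 2 := by
    intro z hz hpos h6 hev
    have hcases : (Cfsg.support₂ z).card = 2 ∨ (Cfsg.support₂ z).card = 4 ∨
        (Cfsg.support₂ z).card = 6 := by omega
    rcases hcases with h | h | h
    · exact ⟨z, hz, h⟩
    · exact step4 hinv hz h
    · have hno : Cfsg.support₂ z ∉ Cfsg.octads := fun ho => by
        have := ho.2
        omega
      obtain ⟨x', hx', hpos', hcard, hev'⟩ := step5 hinv hz (by omega) (by omega) hno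
      exact ⟨x', hx', by omega⟩
  have hpos : 0 < (Cfsg.support₂ x).card := by
    rw [Finset.card_pos, Finset.nonempty_iff_ne_empty]
    intro h
    apply hxC
    rw [support₂_eq_empty h]
    exact Submodule.zero_mem _
  by_cases hle : (Cfsg.support₂ x).card ≤ 6
  · exact small x hx hpos hle hev
  · have hno : Cfsg.support₂ x ∉ Cfsg.octads := by
      rintro ⟨⟨c, hc, hcs⟩, -⟩
      exact hxC (support₂_injective hcs ▸ hc)
    obtain ⟨x', hx', hpos', hcard, hev'⟩ := step5 hinv hx (by omega) h8 hno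
    exact small x' hx' hpos' (by omega) hev'

theorem support₂_pair {p q : Cfsg.GolayPt} (hpq : p ≠ q) :
    Cfsg.support₂ (Pi.single p 1 + Pi.single q 1 : Cfsg.GolayPt → ZMod 2) = {p, q} := by
  ext r
  simp only [Cfsg.support₂, Finset.mem_filter, Finset.mem_univ, true_and, Pi.add_apply,
    Finset.mem_insert, Finset.mem_singleton, Pi.single_apply]
  by_cases h1 : r = p
  · have h2 : r ≠ q := fun h => hpq (h1.symm.trans h)
    simp [h1, hpq]
  · by_cases h2 : r = q
    · simp [h2, Ne.symm hpq]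
    · simp [h1, h2]

/-- An invariant subspace with a word of weight `2` contains all of them. -/
theorem pairs_mem {W : Submodule (ZMod 2) (Cfsg.GolayPt → ZMod 2)}
    (hinv : ∀ σ ∈ Cfsg.M24, ∀ w ∈ W, w ∘ σ.symm ∈ W) {y : Cfsg.GolayPt → ZMod 2} (hy : y ∈ W)
    (h2 : (Cfsg.support₂ y).card = 2) {p q : Cfsg.GolayPt} (hpq : p ≠ q) :
    (Pi.single p 1 + Pi.single q 1 : Cfsg.GolayPt → ZMod 2) ∈ W := by
  obtain ⟨a, b, hab, hs⟩ := Finset.card_eq_two.mp h2
  obtain ⟨g, hg, hga, hgb⟩ := exists_map2 hab hpq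
  have h1 := hinv g hg y hy
  have h3 : y ∘ g.symm = Pi.single p 1 + Pi.single q 1 := by
    apply support₂_injective
    rw [← smul_support₂, hs, smul_pair, hga, hgb, support₂_pair hpq]
  rwa [h3] at h1

/-- An invariant subspace with a word of weight `2` contains the words of even weight. -/
theorem even_mem {W : Submodule (ZMod 2) (Cfsg.GolayPt → ZMod 2)}
    (hinv : ∀ σ ∈ Cfsg.M24, ∀ w ∈ W, w ∘ σ.symm ∈ W) {y : Cfsg.GolayPt → ZMod 2} (hy : y ∈ W)
    (h2 : (Cfsg.support₂ y).card = 2) {z : Cfsg.GolayPt → ZMod 2} (hz : ∑ p, z p = 0) :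
    z ∈ W := by
  classical
  have hsum : z = ∑ p, z p • (Pi.single p 1 + Pi.single (pt 0) 1 : Cfsg.GolayPt → ZMod 2) := by
    funext r
    simp only [Finset.sum_apply, Pi.smul_apply, Pi.add_apply, smul_eq_mul, mul_add,
      Finset.sum_add_distrib, ← Finset.sum_mul, hz, zero_mul, add_zero, Pi.single_apply]
    simp
  rw [hsum]
  refine Submodule.sum_mem _ (fun p _ => Submodule.smul_mem _ _ ?_)
  by_cases hp : p = pt 0
  · rw [hp, ← sub_eq_add₂, sub_self]
    exact Submodule.zero_mem _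
  · exact pairs_mem hinv hy h2 hp

/-- The invariant subspaces of the space of all words. -/
theorem classify (W : Submodule (ZMod 2) (Cfsg.GolayPt → ZMod 2))
    (hinv : ∀ σ ∈ Cfsg.M24, ∀ w ∈ W, w ∘ σ.symm ∈ W) :
    W = ⊥ ∨ W = Submodule.span (ZMod 2) {(1 : Cfsg.GolayPt → ZMod 2)} ∨ W = Cfsg.golayCode ∨
      (W : Set (Cfsg.GolayPt → ZMod 2)) = {w | ∑ p, w p = 0} ∨ W = ⊤ := by
  by_cases hle : W ≤ Cfsg.golayCode
  · rcases le_code_cases hle hinv with h | h | h
    · exact Or.inl h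
    · exact Or.inr (Or.inl h)
    · exact Or.inr (Or.inr (Or.inl h))
  · obtain ⟨w, hwW, hwC⟩ := SetLike.not_le_iff_exists.mp hle
    -- a leader of weight at most `4`
    obtain ⟨v, hv4, hvC⟩ : ∃ v : Cfsg.GolayPt → ZMod 2, (Cfsg.support₂ v).card ≤ 4 ∧
        w - v ∈ Cfsg.golayCode := by
      rcases coset_leaders w with ⟨v, hv, hvC⟩ | ⟨v, -, hv, -⟩
      · exact ⟨v, by rw [← hammingNorm_eq]; omega, hvC⟩
      · exact ⟨v 0, by rw [← hammingNorm_eq, (hv 0).1], (hv 0).2⟩
    obtain ⟨σ, hσ, hfix, hmv⟩ := stab_moves (w - v) hvC w hwC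
    have hxW : w ∘ σ.symm - w ∈ W := W.sub_mem (hinv σ hσ w hwW) hwW
    have hxe : w ∘ σ.symm - w = v ∘ σ.symm + v := by
      rw [comp_sub] at hfix
      rw [← sub_eq_add₂]
      have : w ∘ σ.symm - w - (v ∘ σ.symm - v) = w ∘ σ.symm - v ∘ σ.symm - (w - v) := by abel
      rw [hfix, sub_self] at this
      exact sub_eq_zero.mp this
    have hsupp : Cfsg.support₂ (w ∘ σ.symm - w) =
        symmDiff (σ • Cfsg.support₂ v) (Cfsg.support₂ v) := by
      rw [hxe, support₂_add, smul_support₂]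
    have hc := card_symmDiff_add (σ • Cfsg.support₂ v) (Cfsg.support₂ v)
    rw [Finset.card_smul_finset, ← hsupp] at hc
    obtain ⟨y, hy, hy2⟩ := exists_pair hinv hxW hmv (by omega) (by omega)
    have hE : ∀ z : Cfsg.GolayPt → ZMod 2, ∑ p, z p = 0 → z ∈ W :=
      fun z hz => even_mem hinv hy hy2 hz
    right; right; right
    by_cases hodd : ∃ u ∈ W, ∑ p, u p ≠ 0
    · right
      obtain ⟨u, hu, hus⟩ := hodd
      have hu1 : ∑ p, u p = 1 := by
        have h01 : ∀ a : ZMod 2, a ≠ 0 → a = 1 := by decide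
        exact h01 _ hus
      rw [Submodule.eq_top_iff']
      intro z
      by_cases hz : ∑ p, z p = 0
      · exact hE z hz
      · have hz1 : ∑ p, z p = 1 := by
          have h01 : ∀ a : ZMod 2, a ≠ 0 → a = 1 := by decide
          exact h01 _ hz
        have : z - u ∈ W := by
          apply hE
          simp only [Pi.sub_apply, Finset.sum_sub_distrib, hz1, hu1, sub_self]
        have h3 := W.add_mem this hu
        rwa [sub_add_cancel] at h3
    · left
      push Not at hodd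
      ext z
      exact ⟨fun hz => hodd z hz, fun hz => hE z hz⟩

end Cfsg.Agent.Lib.Helper27.IS
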