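import Mathlib
import Cfsg.Prelude.Def_Blocks
import Cfsg.Prelude.Def_BlockLocal
import Cfsg.Prelude.Def_BrauerPairs
import Cfsg.Prelude.Def_BlockRank
import Cfsg.Agent.Lib.Helper77.IndPairs
import Cfsg.Agent.Lib.Helper32.PrincType
import Cfsg.Agent.Lib.Helper78.ExtFirstMain
import Cfsg.Agent.S4637

/-!
# Klein four defect groups: the Brauer correspondent in `N_G(P)` has the same rank

`klein_corr_rank`: a block `B` with Klein four defect group `P` and the block `c` of `N_G(P)`
with defect group `P` inducing `B` have the same number of irreducible Brauer characters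
(`blockRank 2`).  Both are the inertial index of a maximal Brauer pair (S4637).
-/

set_option autoImplicit false
set_option linter.unusedSectionVars false

namespace Cfsg.Agent.Lib.Helper27.KleinCorr

open Cfsg Cfsg.Agent.Lib.Helper16 Cfsg.Agent.Lib.Helper81 Cfsg.Agent.Lib.Helper77

section Stab

variable {G : Type*} [Group G]

theorem stabilizesBlock_one (K : Subgroup G) (e : Set (Cfsg.IrrCharacter K)) :
    Cfsg.StabilizesBlock K e 1 := by
  refine ⟨Subgroup.one_mem _, fun χ hχ => ⟨χ, hχ, fun k k' h => ?_⟩⟩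
  have : k' = k := Subtype.ext (by simpa using h)
  rw [this]

theorem stabilizesBlock_mul (K : Subgroup G) (e : Set (Cfsg.IrrCharacter K)) {g h : G}
    (hg : Cfsg.StabilizesBlock K e g) (hh : Cfsg.StabilizesBlock K e h) :
    Cfsg.StabilizesBlock K e (g * h) := by
  refine ⟨Subgroup.mul_mem _ hg.1 hh.1, fun χ hχ => ?_⟩
  obtain ⟨χ₁, hχ₁, hc1⟩ := hh.2 χ hχ
  obtain ⟨χ₂, hχ₂, hc2⟩ := hg.2 χ₁ hχ₁
  refine ⟨χ₂, hχ₂, fun k k'' hk => ?_⟩
  have hk1 : h * (k : G) * h⁻¹ ∈ K := (Subgroup.mem_normalizer_iff.mp hh.1 (k : G)).mp k.2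
  have e1 := hc1 k ⟨h * (k : G) * h⁻¹, hk1⟩ rfl
  have e2 := hc2 ⟨h * (k : G) * h⁻¹, hk1⟩ k'' (by rw [hk]; simp [mul_assoc])
  rw [e2, e1]

/-- the subgroup of elements normalizing `Q` and stabilizing the set `e` of characters of `K` -/
def stabSub [Finite G] (Q K : Subgroup G) (e : Set (Cfsg.IrrCharacter K)) : Subgroup G where
  carrier := {g | g ∈ Subgroup.normalizer (Q : Set G) ∧ Cfsg.StabilizesBlock K e g}
  one_mem' := ⟨Subgroup.one_mem _, stabilizesBlock_one K e⟩
  mul_mem' := fun ha hb => ⟨Subgroup.mul_mem _ ha.1 hb.1, stabilizesBlock_mul K e ha.2 hb.2⟩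
  inv_mem' := by
    intro x hx
    have hpow : ∀ n : ℕ, x ^ n ∈ {g | g ∈ Subgroup.normalizer (Q : Set G) ∧
        Cfsg.StabilizesBlock K e g} := by
      intro n
      induction n with
      | zero => rw [pow_zero]; exact ⟨Subgroup.one_mem _, stabilizesBlock_one K e⟩
      | succ n ih =>
        rw [pow_succ]
        exact ⟨Subgroup.mul_mem _ ih.1 hx.1, stabilizesBlock_mul K e ih.2 hx.2⟩
    have hinv : x⁻¹ = x ^ (orderOf x - 1) := by
      apply inv_eq_of_mul_eq_one_right
      rw [← pow_succ', Nat.sub_add_cancel (orderOf_pos x), pow_orderOf_eq_one]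
    rw [hinv]
    exact hpow _

theorem mem_stabSub [Finite G] (Q K : Subgroup G) (e : Set (Cfsg.IrrCharacter K)) (g : G) :
    g ∈ stabSub Q K e ↔ (g ∈ Subgroup.normalizer (Q : Set G) ∧ Cfsg.StabilizesBlock K e g) :=
  Iff.rfl

end Stab

section Main

variable {G : Type*} [Group G] [Fintype G] {M : Ideal Cfsg.AlgInt}

theorem klein_corr_rank_aux (hM : Cfsg.IsPModular 2 M) (B : Set (Cfsg.IrrCharacter G))
    (hB : Cfsg.IsPBlock M B) (P : Subgroup G) (hPD : Cfsg.IsDefectGroup 2 M B P)
    (hV : IsKleinFour P) (N : Subgroup G) (hN : N = Subgroup.normalizer (P : Set G))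
    (c : Set (Cfsg.IrrCharacter N)) (hcD : Cfsg.IsDefectGroup 2 M c (P.subgroupOf N))
    (hc : Cfsg.IsInducedBlock M N c B) : Cfsg.blockRank 2 c = Cfsg.blockRank 2 B := by
  classical
  have : Fact (Nat.Prime 2) := ⟨Nat.prime_two⟩
  have hMp := isPrime_of_isPModular hM
  have hfinN : Fintype N := Fintype.ofFinite _
  have hPN : P ≤ N := hN ▸ Subgroup.le_normalizer
  have hCN : Subgroup.centralizer (P : Set G) ≤ N :=
    hN ▸ Subgroup.centralizer_le_normalizer (P : Set G)
  have hnorm : (P.subgroupOf N).Normal := by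
    subst hN
    exact Subgroup.normal_in_normalizer
  obtain ⟨P', hP'⟩ : ∃ P' : Subgroup N, P' = P.subgroupOf N := ⟨_, rfl⟩
  rw [← hP'] at hcD hnorm
  have hP₁ : P'.map N.subtype = P := by
    rw [hP']
    exact Subgroup.map_subgroupOf_eq_of_le hPN
  -- (1) the maximal Brauer pair in `N`
  obtain ⟨e', hmaxH⟩ := exists_isMaximalBrauerPair_of_isDefectGroup hM hc.1 hcD
  have hpairH := hmaxH.1
  have hindH : Cfsg.IsInducedBlock M (Subgroup.centralizer (P' : Set N)) e' c :=
    Cfsg.Agent.Lib.Helper32.isInducedBlock_of_isBrauerPairOf hM hpairH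
  have hV' : IsKleinFour P' := by
    have φ : P' ≃* P := by
      rw [hP']
      exact Subgroup.subgroupOfEquivOfLe hPN
    exact ⟨(Nat.card_congr φ.toEquiv).trans hV.card_four,
      (Monoid.exponent_eq_of_mulEquiv φ).trans hV.exponent_two⟩
  have r1 := (Cfsg.Agent.S4637.result M hM c hc.1 P' hcD hV' e' hindH
    (stabSub P' (Subgroup.centralizer (P' : Set N)) e') (fun x => Iff.rfl) _ rfl).2.2
  -- (2) transport to `G`
  have hC₁ : Subgroup.centralizer ((P'.map N.subtype : Subgroup G) : Set G) ≤ N := by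
    rw [hP₁]
    exact hCN
  have h₁ : CentEq N P' (P'.map N.subtype) := centEq_map N P' hC₁
  have hD₀p : IsPGroup 2 P' := hpairH.1.1
  have hD₁p : IsPGroup 2 (P'.map N.subtype) := hD₀p.map _
  have he₀ : Cfsg.IsPBlock M (mapSet (subCentIso N P' _ h₁) e') :=
    isPBlock_mapSet hMp _ hpairH.1.2
  obtain ⟨ξ', hξ'⟩ := IsPBlock.nonempty hMp hpairH.1.2
  have hξ : mapIrr (subCentIso N P' _ h₁) ξ' ∈ mapSet (subCentIso N P' _ h₁) e' :=
    ⟨ξ', hξ', rfl⟩
  obtain ⟨A, hA, hA1, -⟩ := exists_block_of_brauerOmega hM (P'.map N.subtype) hD₁p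
    (mapIrr (subCentIso N P' _ h₁) ξ')
  have hAR : LocInt M (Cfsg.blockCoeff A) := fun g => memLocalRing_blockCoeff hMp A hA g
  have hAadm : BrAdm M (P'.map N.subtype) (Cfsg.blockCoeff A) :=
    brAdm_of_isClassFunction hAR (blockCoeff_isClassFunction A)
  have hpairG : Cfsg.IsBrauerPairOf 2 M A (P'.map N.subtype)
      (mapSet (subCentIso N P' _ h₁) e') := by
    refine ⟨⟨hD₁p, he₀⟩, hA, fun ζ hζ => ?_⟩
    have h1 := memLocalIdeal_brauerOmega_sub_of_sameBlock hMp (P'.map N.subtype)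
      (IsPBlock.sameBlock hMp he₀ hζ hξ) hAadm
    have h2 := memLocalIdeal_add hMp h1 hA1
    rwa [sub_add_sub_cancel] at h2
  have hind : Cfsg.IsInducedBlock M N c A := by
    refine ⟨hc.1, hA, fun ψ hψ χ hχ g => ?_⟩
    have hz := isRClass_classInd hMp g
    have hzH := isRClass_resFun (M := M) N hz
    have h2 := memLocalIdeal_brauerOmega_sub_omegaF hM hpairH hξ' hψ
      (z := resFun N (classInd g)) hzH.2 hzH.1
    have h3 := memLocalIdeal_brauerOmega_sub_omegaF hM hpairG hξ hχ (z := classInd g) hz.2 hz.1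
    rw [brauerOmega_subCentIso N P' _ h₁ (classInd g) (resFun N (classInd g))
      (fun y _ => rfl) ξ'] at h3
    rw [omegaF_eq, omega_resFun_classInd] at h2
    rw [omegaF_eq, omega_classInd (irrCharacter_conj_eq χ)] at h3
    have h4 := memLocalIdeal_sub hMp h3 h2
    rwa [sub_sub_sub_cancel_left] at h4
  have hAB : A = B := Cfsg.Agent.Lib.Helper78.efm_unique hMp hind hc
  rw [hAB] at hpairG
  have hindG : Cfsg.IsInducedBlock M
      (Subgroup.centralizer ((P'.map N.subtype : Subgroup G) : Set G))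
      (mapSet (subCentIso N P' _ h₁) e') B :=
    Cfsg.Agent.Lib.Helper32.isInducedBlock_of_isBrauerPairOf hM hpairG
  -- (3) the rank of `B`
  have hPD₁ : Cfsg.IsDefectGroup 2 M B (P'.map N.subtype) := by
    rw [hP₁]
    exact hPD
  have hV₁ : IsKleinFour (P'.map N.subtype) := by
    rw [hP₁]
    exact hV
  obtain ⟨T, hT⟩ : ∃ T : Subgroup G, T = stabSub (P'.map N.subtype)
      (Subgroup.centralizer ((P'.map N.subtype : Subgroup G) : Set G))
      (mapSet (subCentIso N P' _ h₁) e') := ⟨_, rfl⟩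
  have r2 := (Cfsg.Agent.S4637.result M hM B hB (P'.map N.subtype) hPD₁ hV₁ _ hindG
    T (fun g => by rw [hT]; exact Iff.rfl) _ rfl).2.2
  -- (4) the two inertial indices agree
  rw [r1, r2]
  have hTN : T ≤ N := by
    intro g hg
    rw [hT] at hg
    have h1 : g ∈ Subgroup.normalizer ((P'.map N.subtype : Subgroup G) : Set G) := hg.1
    rw [hP₁] at h1
    rw [hN]
    exact h1
  have hT'eq : stabSub P' (Subgroup.centralizer (P' : Set N)) e' = T.subgroupOf N := by
    ext x
    rw [Subgroup.mem_subgroupOf, hT]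
    constructor
    · rintro ⟨-, hx⟩
      refine ⟨?_, stabilizesBlock_subCentIso N P' _ h₁ e' hx⟩
      rw [hP₁, ← hN]
      exact x.2
    · rintro ⟨-, hx⟩
      refine ⟨?_, stabilizesBlock_subCentIso_symm N P' _ h₁ e' hx⟩
      rw [Subgroup.normalizer_eq_top]
      exact Subgroup.mem_top x
  have hCeq : Subgroup.centralizer (P' : Set N) =
      (Subgroup.centralizer ((P'.map N.subtype : Subgroup G) : Set G)).subgroupOf N := by
    ext x
    rw [Subgroup.mem_subgroupOf]
    constructor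
    · intro hx
      exact (h₁ _).mpr ⟨x.2, hx⟩
    · intro hx
      obtain ⟨_, h⟩ := (h₁ _).mp hx
      exact h
  rw [hT'eq, hCeq, Subgroup.relIndex_subgroupOf hTN]

/-- **R1** (for S4638): a block with Klein four defect group `P` and its Brauer correspondent
in `N_G(P)` have the same number of irreducible Brauer characters. -/
theorem klein_corr_rank (hM : Cfsg.IsPModular 2 M) (B : Set (Cfsg.IrrCharacter G))
    (hB : Cfsg.IsPBlock M B) (P : Subgroup G) (hPD : Cfsg.IsDefectGroup 2 M B P)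
    (hV : IsKleinFour P)
    (c : Set (Cfsg.IrrCharacter (Subgroup.normalizer (P : Set G))))
    (hcD : Cfsg.IsDefectGroup 2 M c (P.subgroupOf (Subgroup.normalizer (P : Set G))))
    (hc : Cfsg.IsInducedBlock M (Subgroup.normalizer (P : Set G)) c B) :
    Cfsg.blockRank 2 c = Cfsg.blockRank 2 B :=
  klein_corr_rank_aux hM B hB P hPD hV _ rfl c hcD hc

end Main

end Cfsg.Agent.Lib.Helper27.KleinCorr
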