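import Mathlib
import Cfsg.Prelude.Def_Blocks
import Cfsg.Agent.Lib.Helper16.FongReynolds2
import Cfsg.Agent.Lib.Helper16.Fong
import Cfsg.Agent.Lib.Helper77.SubBlock
import Cfsg.Agent.Lib.Helper77.FusionPairs
import Cfsg.Agent.Lib.Helper77.BrauerCorr
import Cfsg.Agent.Lib.Helper77.MaxPair
import Cfsg.Agent.Lib.Helper78.ExtFirstMain
import Cfsg.Agent.S0917
import Cfsg.Agent.S0966
import Cfsg.Agent.S0970

/-!
# Knörr's theorem on covered blocks: the outer reductions

Block induction through an intermediate subgroup, the defect group of the intermediate block,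
and covering of an invariant block of a normal subgroup by the intermediate block.
-/

set_option autoImplicit false
set_option linter.unusedSectionVars false
set_option linter.style.haveILetI false

namespace Cfsg.Agent.Lib.Helper27.Knorr

open Cfsg Cfsg.Agent.Lib.Helper16 Cfsg.Agent.Lib.Helper77
open scoped ComplexConjugate

universe u

/-- the core case of Knörr's theorem (`P ≤ N`, `G = N C_G(P)`), as a hypothesis -/
def CoreHyp (p : ℕ) [Fact p.Prime] (M : Ideal Cfsg.AlgInt) : Prop :=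
  ∀ (G : Type u) [Group G] [Fintype G] (N : Subgroup G) [hN : N.Normal] [Fintype N]
    (b : Set (Cfsg.IrrCharacter N)), Cfsg.IsPBlock M b →
    (∀ g : G, ∀ θ ∈ b, ∀ θ' : Cfsg.IrrCharacter N,
      (∀ n : N, (θ' : N → ℂ) n = (θ : N → ℂ) ⟨g * n * g⁻¹, hN.conj_mem n n.2 g⟩) → θ' ∈ b) →
    ∀ B : Set (Cfsg.IrrCharacter G), Cfsg.IsPBlock M B →
    (∃ χ ∈ B, ∃ θ ∈ b, Cfsg.classInner (fun n : N => (χ : G → ℂ) n) (θ : N → ℂ) ≠ 0) →
    ∀ P : Subgroup G, Cfsg.IsDefectGroup p M B P → P ≤ N →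
    N ⊔ Subgroup.centralizer (P : Set G) = ⊤ → Cfsg.IsDefectGroup p M b (P.subgroupOf N)

variable {G : Type u} [Group G] [Fintype G] {p : ℕ} [Fact p.Prime] {M : Ideal Cfsg.AlgInt}

/-- if `b` (a block of `L ≤ H`) induces `Bt` in `H` and `B` in `G`, then `Bt` induces `B` -/
theorem ind_mid (hM : M.IsPrime) {L H : Subgroup G} (hLH : L ≤ H)
    (b : Set (Cfsg.IrrCharacter L)) (Bt : Set (Cfsg.IrrCharacter H))
    (B : Set (Cfsg.IrrCharacter G))
    (h1 : Cfsg.IsInducedBlock M (L.subgroupOf H) (pullSet hLH b) Bt)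
    (h2 : Cfsg.IsInducedBlock M L b B) : Cfsg.IsInducedBlock M H Bt B := by
  classical
  haveI : Fintype H := Fintype.ofFinite _
  haveI : Fintype L := Fintype.ofFinite _
  haveI : Fintype (L.subgroupOf H) := Fintype.ofFinite _
  refine ⟨h1.2.1, h2.2.1, ?_⟩
  intro ξ hξ χ hχ g
  obtain ⟨θ, hθ⟩ := IsPBlock.nonempty hM h2.1
  have hθt : mapIrr (Subgroup.subgroupOfEquivOfLe hLH).symm θ ∈ pullSet hLH b := ⟨θ, hθ, rfl⟩
  have A := omega_resFun_sub hM (L.subgroupOf H)
    (mapIrr (Subgroup.subgroupOfEquivOfLe hLH).symm θ : (L.subgroupOf H) → ℂ) ξ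
    (h1.2.2 _ hθt ξ hξ) (α := resFun H (classInd g))
    (isRClass_resFun H (isRClass_classInd hM g))
  rw [omega_resFun_classInd] at A
  have e : omega (mapIrr (Subgroup.subgroupOfEquivOfLe hLH).symm θ : (L.subgroupOf H) → ℂ)
      (resFun (L.subgroupOf H) (resFun H (classInd g))) =
      Cfsg.inducedCentralChar L (θ : L → ℂ) g := by
    rw [← omega_resFun_classInd]
    unfold omega
    refine Fintype.sum_equiv (Subgroup.subgroupOfEquivOfLe hLH).toEquiv _ _ ?_
    intro k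
    rw [mapIrr_apply, mapIrr_apply, map_one]
    rfl
  rw [e] at A
  have Bc := h2.2.2 θ hθ χ hχ g
  have := memLocalIdeal_sub hM Bc A
  rwa [sub_sub_sub_cancel_left] at this

/-- the defect group of the intermediate block -/
theorem mid_defect (hM : Cfsg.IsPModular p M) {L H : Subgroup G} (hLH : L ≤ H)
    (b : Set (Cfsg.IrrCharacter L)) (Bt : Set (Cfsg.IrrCharacter H))
    (B : Set (Cfsg.IrrCharacter G))
    (h1 : Cfsg.IsInducedBlock M (L.subgroupOf H) (pullSet hLH b) Bt)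
    (h2 : Cfsg.IsInducedBlock M H Bt B)
    (P : Subgroup G) (hPL : P ≤ L) (hbP : Cfsg.IsDefectGroup p M b (P.subgroupOf L))
    (hP : Cfsg.IsDefectGroup p M B P) : Cfsg.IsDefectGroup p M Bt (P.subgroupOf H) := by
  classical
  haveI : Fintype H := Fintype.ofFinite _
  have hD0 := isDefectGroup_pullSet (M := M) hLH hbP
  obtain ⟨E, hE, hle⟩ := Cfsg.Agent.S0917.result p M hM (L.subgroupOf H) (pullSet hLH b) h1.1
    Bt h1.2.1 h1 _ hD0
  obtain ⟨E', hE', hle'⟩ := Cfsg.Agent.S0917.result p M hM H Bt h2.1 B h2.2.1 h2 E hE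
  have hc := card_eq_of_isDefectGroup hM h2.2.1 hE' hP
  have hPE : P.subgroupOf H ≤ E := by
    intro x hx
    apply hle
    rw [Subgroup.mem_subgroupOf] at hx
    refine ⟨(Subgroup.subgroupOfEquivOfLe hLH).symm ⟨(x : G), hPL hx⟩,
      ⟨⟨(x : G), hPL hx⟩, ?_, rfl⟩, ?_⟩
    · show (⟨(x : G), hPL hx⟩ : L) ∈ P.subgroupOf L
      rw [Subgroup.mem_subgroupOf]
      exact hx
    · apply Subtype.ext
      rfl
  have hcard : Nat.card E ≤ Nat.card (P.subgroupOf H) := by
    rw [Nat.card_congr (Subgroup.subgroupOfEquivOfLe (hPL.trans hLH)).toEquiv, ← hc,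
      ← Subgroup.card_map_of_injective (Subgroup.subtype_injective H)]
    exact Subgroup.card_le_of_le hle'
  rw [Subgroup.eq_of_le_of_card_ge hPE hcard]
  exact hE

/-- the sum of the idempotent of a set of characters of `N` against a function on `H ≥ N` -/
theorem sum_res_normalIdem_mul (N : Subgroup G) [hN : N.Normal] [Fintype N] {H : Subgroup G}
    [Fintype H] (hNH : N ≤ H) (S : Finset (Cfsg.IrrCharacter N)) (ψ : H → ℂ) :
    ∑ h : H, resFun H (normalIdem N S) h * ψ h =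
      ∑ θ ∈ S, (θ : N → ℂ) 1 *
        Cfsg.classInner (fun n : N => ψ ⟨(n : G), hNH n.2⟩) (θ : N → ℂ) := by
  classical
  have h1 := Fintype.sum_of_injective (fun n : N => (⟨(n : G), hNH n.2⟩ : H))
    (fun a c hac => Subtype.ext (congrArg (fun x : H => (x : G)) hac))
    (fun n : N => (∑ θ ∈ S, idem (θ : N → ℂ)) n * ψ ⟨(n : G), hNH n.2⟩)
    (fun h : H => resFun H (normalIdem N S) h * ψ h)
    (by
      intro h hh
      have hg : (h : G) ∉ N := fun hc => hh ⟨⟨(h : G), hc⟩, rfl⟩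
      show normalIdem N S (h : G) * ψ h = 0
      rw [normalIdem_apply_of_not_mem N S hg, zero_mul])
    (by
      intro n
      show _ = normalIdem N S (n : G) * ψ ⟨(n : G), hNH n.2⟩
      unfold normalIdem
      rw [Cfsg.Agent.Lib.Helper3.extendByZero_of_mem N _ n.2])
  rw [← h1]
  simp only [Finset.sum_apply, Finset.sum_mul]
  rw [Finset.sum_comm]
  apply Finset.sum_congr rfl
  intro θ _
  unfold idem Cfsg.classInner
  rw [Finset.mul_sum, Finset.mul_sum]
  apply Finset.sum_congr rfl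
  intro n _
  ring

/-- a block of `H ≥ N` inducing a block of `G` that covers the invariant block `b` of `N`
covers `b` -/
theorem mid_cover (hM : M.IsPrime) (N : Subgroup G) [hN : N.Normal] [Fintype N]
    {H : Subgroup G} [Fintype H] (hNH : N ≤ H)
    (b : Set (Cfsg.IrrCharacter N)) (hb : Cfsg.IsPBlock M b)
    (hinv : ∀ θ ∈ b, ∀ g : G, conjIrr N θ g ∈ b)
    (Bt : Set (Cfsg.IrrCharacter H)) (B : Set (Cfsg.IrrCharacter G))
    (h2 : Cfsg.IsInducedBlock M H Bt B)
    (hcov : ∃ χ ∈ B, ∃ θ ∈ b, Cfsg.classInner (fun n : N => (χ : G → ℂ) n) (θ : N → ℂ) ≠ 0)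
    (ξ : Cfsg.IrrCharacter H) (hξ : ξ ∈ Bt) : Over N H hNH b (ξ : H → ℂ) := by
  classical
  obtain ⟨χ₀, hχ₀, θ₀, hθ₀, hcon⟩ := hcov
  have hS := blockOrbit_stable (G := G) N b
  have hE : IsRClass M (normalIdem N (blockOrbit (G := G) N b)) :=
    isRClass_normalIdem_blockOrbit N hM hb
  have hω : omega (χ₀ : G → ℂ) (normalIdem N (blockOrbit (G := G) N b)) = 1 :=
    omega_normalIdem_eq_one N _ hS χ₀
      ⟨θ₀, (mem_blockOrbit_of_invariant N b hinv θ₀).mpr hθ₀, hcon⟩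
  have A := omega_resFun_sub hM H (ξ : H → ℂ) χ₀ (fun g => h2.2.2 ξ hξ χ₀ hχ₀ g) hE
  rw [hω] at A
  by_contra hno
  have h0 : omega (ξ : H → ℂ) (resFun H (normalIdem N (blockOrbit (G := G) N b))) = 0 := by
    unfold omega
    rw [← Finset.sum_div, sum_res_normalIdem_mul N hNH, Finset.sum_eq_zero, zero_div]
    intro θ hθ
    have hθb := (mem_blockOrbit_of_invariant N b hinv θ).mp hθ
    have h3 : Cfsg.classInner (fun n : N => (ξ : H → ℂ) ⟨(n : G), hNH n.2⟩) (θ : N → ℂ) = 0 := by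
      by_contra h
      exact hno ⟨θ, hθb, h⟩
    rw [h3, mul_zero]
  rw [h0, zero_sub] at A
  have h4 := memLocalIdeal_neg A
  rw [neg_neg] at h4
  exact not_memLocalIdeal_one hM h4

omit [Fintype G] in
/-- invariance in the form of the frozen statements, from invariance under `conjIrr` -/
theorem frozen_of_conjIrr (N : Subgroup G) [hN : N.Normal] [Fintype N]
    (b : Set (Cfsg.IrrCharacter N)) (hinv : ∀ θ ∈ b, ∀ g : G, conjIrr N θ g ∈ b) :
    ∀ g : G, ∀ θ ∈ b, ∀ θ' : Cfsg.IrrCharacter N,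
      (∀ n : N, (θ' : N → ℂ) n = (θ : N → ℂ) ⟨g * n * g⁻¹, hN.conj_mem n n.2 g⟩) → θ' ∈ b := by
  intro g θ hθ θ' h
  have e : θ' = conjIrr N θ g⁻¹ := by
    apply Subtype.ext
    funext n
    have hmem : g⁻¹⁻¹ * (n : G) * g⁻¹ ∈ N := by simpa using hN.conj_mem n n.2 g
    rw [h n, conjIrr_apply N θ g⁻¹ n hmem]
    exact congrArg (θ : N → ℂ) (Subtype.ext (by simp))
  rw [e]
  exact hinv θ hθ g⁻¹

/-- a constituent of the restriction to `N` of a class function of `G` lies under a constituent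
of its restriction to an intermediate subgroup -/
theorem exists_mid (N K : Subgroup G) [Fintype N] [Fintype K] (hNK : N ≤ K) {χ : G → ℂ}
    (hχ : Cfsg.IsClassFunction G χ) (θ : N → ℂ)
    (h : Cfsg.classInner (fun n : N => χ n) θ ≠ 0) :
    ∃ η : Cfsg.IrrCharacter K, Cfsg.classInner (fun k : K => χ k) (η : K → ℂ) ≠ 0 ∧
      Cfsg.classInner (fun n : N => (η : K → ℂ) ⟨(n : G), hNK n.2⟩) θ ≠ 0 := by
  classical
  haveI : Fintype (Cfsg.IrrCharacter K) := Fintype.ofFinite _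
  by_contra hcon
  push Not at hcon
  have hexp := Cfsg.Agent.Lib.Helper3.classFunction_expansion'
    (Cfsg.Agent.Lib.Helper75.isClassFunction_res K hχ)
  obtain ⟨c, hc⟩ : ∃ c : Cfsg.IrrCharacter K → ℂ,
      ∀ η, c η = Cfsg.classInner (fun k : K => χ k) (η : K → ℂ) := ⟨_, fun _ => rfl⟩
  simp only [← hc] at hexp hcon
  have e : (fun n : N => χ n) = fun n : N =>
      ∑ η : Cfsg.IrrCharacter K, c η * (η : K → ℂ) ⟨(n : G), hNK n.2⟩ := by
    funext n
    have := congrFun hexp ⟨(n : G), hNK n.2⟩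
    simp only [Finset.sum_apply, Pi.smul_apply, smul_eq_mul] at this
    exact this
  apply h
  rw [e]
  have key : Cfsg.classInner (fun n : N =>
      ∑ η : Cfsg.IrrCharacter K, c η * (η : K → ℂ) ⟨(n : G), hNK n.2⟩) θ =
      ∑ η : Cfsg.IrrCharacter K, c η *
        Cfsg.classInner (fun n : N => (η : K → ℂ) ⟨(n : G), hNK n.2⟩) θ := by
    unfold Cfsg.classInner
    simp only [Finset.sum_mul, Finset.mul_sum]
    rw [Finset.sum_comm]
    apply Finset.sum_congr rfl
    intro η _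
    apply Finset.sum_congr rfl
    intro n _
    ring
  rw [key]
  apply Finset.sum_eq_zero
  intro η _
  by_cases h0 : c η = 0
  · rw [h0, zero_mul]
  · rw [hcon η h0, mul_zero]

omit [Fintype G] in
/-- `P N` is normal when `G = N P C_G(P)` -/
theorem sup_normal_of_top (N P : Subgroup G) [hN : N.Normal]
    (hG : N ⊔ P ⊔ Subgroup.centralizer (P : Set G) = ⊤) : (P ⊔ N).Normal := by
  have key : ∀ c ∈ Subgroup.centralizer (P : Set G),
      P ⊔ N ≤ (P ⊔ N).comap (MulAut.conj c).toMonoidHom := by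
    intro c hc
    apply sup_le
    · intro x hx
      rw [Subgroup.mem_comap]
      have e : (MulAut.conj c).toMonoidHom x = x := by
        show c * x * c⁻¹ = x
        have := Subgroup.mem_centralizer_iff.mp hc x hx
        rw [← this]
        group
      rw [e]
      exact Subgroup.mem_sup_left hx
    · intro x hx
      rw [Subgroup.mem_comap]
      exact Subgroup.mem_sup_right (hN.conj_mem x hx c)
  have hle : N ⊔ P ⊔ Subgroup.centralizer (P : Set G) ≤
      Subgroup.normalizer ((P ⊔ N : Subgroup G) : Set G) := by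
    refine sup_le (sup_le ?_ ?_) ?_
    · exact le_sup_right.trans Subgroup.le_normalizer
    · exact le_sup_left.trans Subgroup.le_normalizer
    · intro c hc
      rw [Subgroup.mem_normalizer_iff]
      intro x
      constructor
      · intro hx
        exact key c hc hx
      · intro hx
        have h1 := key c⁻¹ (inv_mem hc) hx
        rw [Subgroup.mem_comap] at h1
        have e : (MulAut.conj c⁻¹).toMonoidHom (c * x * c⁻¹) = x := by
          show c⁻¹ * (c * x * c⁻¹) * c⁻¹⁻¹ = x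
          group
        rwa [e] at h1
  rw [hG] at hle
  exact Subgroup.normalizer_eq_top_iff.mp (top_le_iff.mp hle)

omit [Fintype G] in
/-- `[P N : N]` is a power of `p` for a `p`-subgroup `P` -/
theorem index_subgroupOf_sup_pow [Finite G] (N P : Subgroup G) [hN : N.Normal]
    (hP : IsPGroup p P) : ∃ k : ℕ, (N.subgroupOf (P ⊔ N)).index = p ^ k := by
  have h1 : N.relIndex (P ⊔ N) = N.relIndex P := Subgroup.relIndex_sup_right P N
  have h2 : N.relIndex P ∣ Nat.card P := Subgroup.index_dvd_card (N.subgroupOf P)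
  obtain ⟨d, hd⟩ := IsPGroup.iff_card.mp hP
  rw [hd] at h2
  obtain ⟨k, -, hk⟩ := (Nat.dvd_prime_pow Fact.out).mp h2
  exact ⟨k, by rw [← hk, ← h1]; rfl⟩

/-- a defect group of the pulled-back block, pushed down to `N` -/
theorem descend {X N : Subgroup G} (hNX : N ≤ X) (b : Set (Cfsg.IrrCharacter N))
    (E : Subgroup X)
    (h : Cfsg.IsDefectGroup p M (pullSet hNX b)
      ((E ⊓ N.subgroupOf X).subgroupOf (N.subgroupOf X))) :
    Cfsg.IsDefectGroup p M b (((E.map X.subtype) ⊓ N).subgroupOf N) := by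
  haveI : Fintype N := Fintype.ofFinite _
  haveI : Fintype (N.subgroupOf X) := Fintype.ofFinite _
  have h1 := isDefectGroup_mapSet (M := M) (Subgroup.subgroupOfEquivOfLe hNX) h
  unfold pullSet at h1
  rw [mapSet_mapSet_symm] at h1
  have e : ((E.map X.subtype) ⊓ N).subgroupOf N =
      ((E ⊓ N.subgroupOf X).subgroupOf (N.subgroupOf X)).map
        (Subgroup.subgroupOfEquivOfLe hNX).toMonoidHom := by
    ext x
    constructor
    · intro hx
      rw [Subgroup.mem_subgroupOf] at hx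
      obtain ⟨⟨y, hy, hyx⟩, -⟩ := hx
      have hyN : y ∈ N.subgroupOf X := by
        rw [Subgroup.mem_subgroupOf]
        have : ((y : X) : G) = (x : G) := hyx
        rw [this]
        exact x.2
      refine ⟨⟨y, hyN⟩, ?_, ?_⟩
      · show (⟨y, hyN⟩ : N.subgroupOf X) ∈ (E ⊓ N.subgroupOf X).subgroupOf (N.subgroupOf X)
        rw [Subgroup.mem_subgroupOf]
        exact ⟨hy, hyN⟩
      · apply Subtype.ext
        exact hyx
    · rintro ⟨y, hy, rfl⟩
      have hy' : y ∈ (E ⊓ N.subgroupOf X).subgroupOf (N.subgroupOf X) := hy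
      rw [Subgroup.mem_subgroupOf] at hy' ⊢
      exact ⟨⟨(y : X), hy'.1, rfl⟩, (Subgroup.subgroupOfEquivOfLe hNX y).2⟩
  rw [e]
  exact h1

/-- Knörr's theorem for an invariant block when `G = N P C_G(P)` -/
theorem ki2 (hM : Cfsg.IsPModular p M) (hcore : CoreHyp.{u} p M) (N : Subgroup G)
    [hN : N.Normal] [Fintype N] (b : Set (Cfsg.IrrCharacter N)) (hb : Cfsg.IsPBlock M b)
    (hinv : ∀ θ ∈ b, ∀ g : G, conjIrr N θ g ∈ b)
    (B : Set (Cfsg.IrrCharacter G)) (hB : Cfsg.IsPBlock M B)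
    (hcov : ∃ χ ∈ B, ∃ θ ∈ b, Cfsg.classInner (fun n : N => (χ : G → ℂ) n) (θ : N → ℂ) ≠ 0)
    (P : Subgroup G) (hP : Cfsg.IsDefectGroup p M B P)
    (hG : N ⊔ P ⊔ Subgroup.centralizer (P : Set G) = ⊤) :
    Cfsg.IsDefectGroup p M b ((P ⊓ N).subgroupOf N) := by
  classical
  have hMp := isPrime_of_isPModular hM
  have hPp : IsPGroup p P := IsPGroup.of_card (card_isDefectGroup hM B hB P hP)
  have hPK : P ≤ P ⊔ N := le_sup_left
  have hNK : N ≤ P ⊔ N := le_sup_right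
  haveI hKn : (P ⊔ N).Normal := sup_normal_of_top N P hG
  haveI : Fintype ↥(P ⊔ N) := Fintype.ofFinite _
  haveI : Fintype ↥(N.subgroupOf (P ⊔ N)) := Fintype.ofFinite _
  have hbK : Cfsg.IsPBlock M (pullSet hNK b) := isPBlock_pullSet hMp hNK hb
  have hidx := index_subgroupOf_sup_pow (p := p) N P hPp
  obtain ⟨χ₀, hχ₀, θ₀, hθ₀, hcon⟩ := hcov
  obtain ⟨η, hη1, hη2⟩ := exists_mid N (P ⊔ N) hNK (fun g x => irrCharacter_conj_eq χ₀ x g)
    (θ₀ : N → ℂ) hcon
  have hB1 : Cfsg.IsPBlock M (Cfsg.blockOf M (η : ↥(P ⊔ N) → ℂ)) := isPBlock_blockOf η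
  have hηB1 := mem_blockOf_self hMp η
  have hov : Over N (P ⊔ N) hNK b (η : ↥(P ⊔ N) → ℂ) := ⟨θ₀, hθ₀, hη2⟩
  have hcov1 : ∃ ζ ∈ Cfsg.blockOf M (η : ↥(P ⊔ N) → ℂ), ∃ θ' ∈ pullSet hNK b,
      Cfsg.classInner (fun n' : N.subgroupOf (P ⊔ N) => (ζ : ↥(P ⊔ N) → ℂ) n')
        (θ' : N.subgroupOf (P ⊔ N) → ℂ) ≠ 0 := by
    obtain ⟨θ', hθ', hne⟩ := (over_iff_sub N (P ⊔ N) hNK b (η : ↥(P ⊔ N) → ℂ)).mpr hov
    exact ⟨η, hηB1, θ', hθ', hne⟩
  have huniq := Cfsg.Agent.S0966.result p M hM (N.subgroupOf (P ⊔ N)) hidx (pullSet hNK b) hbK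
  have hinv1 : ∀ ζ ∈ Cfsg.blockOf M (η : ↥(P ⊔ N) → ℂ), ∀ g : G,
      conjIrr (P ⊔ N) ζ g ∈ Cfsg.blockOf M (η : ↥(P ⊔ N) → ℂ) := by
    intro ζ hζ g
    obtain ⟨θ1, hθ1, hne1⟩ := cover_all_sub N (P ⊔ N) hNK hMp hb hB1 hηB1 hov hζ
    have hov' : Over N (P ⊔ N) hNK b (conjIrr (P ⊔ N) ζ g : ↥(P ⊔ N) → ℂ) := by
      refine ⟨conjIrr N θ1 g, hinv θ1 hθ1 g, ?_⟩
      have e : (fun n : N => (conjIrr (P ⊔ N) ζ g : ↥(P ⊔ N) → ℂ) ⟨(n : G), hNK n.2⟩) =
          Cfsg.Agent.Lib.Helper75.conjChar N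
            (fun n : N => (ζ : ↥(P ⊔ N) → ℂ) ⟨(n : G), hNK n.2⟩) g := by
        funext n
        show (ζ : ↥(P ⊔ N) → ℂ) _ = (ζ : ↥(P ⊔ N) → ℂ) _
        congr 1
      rw [e]
      show Cfsg.classInner _ (Cfsg.Agent.Lib.Helper75.conjChar N (θ1 : N → ℂ) g) ≠ 0
      rw [Cfsg.Agent.Lib.Helper75.classInner_conjChar]
      exact hne1
    obtain ⟨θ', hθ', hne⟩ := (over_iff_sub N (P ⊔ N) hNK b _).mpr hov'
    have h1 : Cfsg.blockOf M (conjIrr (P ⊔ N) ζ g : ↥(P ⊔ N) → ℂ) =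
        Cfsg.blockOf M (η : ↥(P ⊔ N) → ℂ) :=
      huniq.unique ⟨isPBlock_blockOf _, conjIrr (P ⊔ N) ζ g, mem_blockOf_self hMp _, θ', hθ', hne⟩
        ⟨hB1, hcov1⟩
    rw [← h1]
    exact mem_blockOf_self hMp _
  have hKC : (P ⊔ N) ⊔ Subgroup.centralizer (P : Set G) = ⊤ := by
    rw [sup_comm P N]
    exact hG
  have hD1 := hcore G (P ⊔ N) (Cfsg.blockOf M (η : ↥(P ⊔ N) → ℂ)) hB1
    (frozen_of_conjIrr (P ⊔ N) _ hinv1) B hB ⟨χ₀, hχ₀, η, hηB1, hη1⟩ P hP hPK hKC
  have hinvK := subBlock_stable N (P ⊔ N) hNK (fun g _ θ hθ => hinv θ hθ g)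
  have hfong := Cfsg.Agent.S0970.result p M hM (N.subgroupOf (P ⊔ N)) (pullSet hNK b) hbK
    (frozen_of_conjIrr (N.subgroupOf (P ⊔ N)) _ (fun θ' hθ' t => hinvK θ' hθ' t))
    (Cfsg.blockOf M (η : ↥(P ⊔ N) → ℂ)) hB1 hcov1
    (fun B' hB' hcov' => by rw [huniq.unique ⟨hB', hcov'⟩ ⟨hB1, hcov1⟩])
    (P.subgroupOf (P ⊔ N)) hD1
  have hdesc := descend hNK b (P.subgroupOf (P ⊔ N)) hfong.2.1
  rwa [Subgroup.map_subgroupOf_eq_of_le hPK] at hdesc

/-- Knörr's theorem for an invariant block: every defect group of a covering block meets `N`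
in a defect group of the covered block -/
theorem ki1 (hM : Cfsg.IsPModular p M) (hcore : CoreHyp.{u} p M) (N : Subgroup G)
    [hN : N.Normal] [Fintype N] (b : Set (Cfsg.IrrCharacter N)) (hb : Cfsg.IsPBlock M b)
    (hinv : ∀ θ ∈ b, ∀ g : G, conjIrr N θ g ∈ b)
    (B : Set (Cfsg.IrrCharacter G)) (hB : Cfsg.IsPBlock M B)
    (hcov : ∃ χ ∈ B, ∃ θ ∈ b, Cfsg.classInner (fun n : N => (χ : G → ℂ) n) (θ : N → ℂ) ≠ 0)
    (P : Subgroup G) (hP : Cfsg.IsDefectGroup p M B P) :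
    Cfsg.IsDefectGroup p M b ((P ⊓ N).subgroupOf N) := by
  classical
  have hMp := isPrime_of_isPModular hM
  have hPp : IsPGroup p P := IsPGroup.of_card (card_isDefectGroup hM B hB P hP)
  obtain ⟨⟨bP, hbP, hind⟩, -⟩ := Cfsg.Agent.Lib.Helper78.efm_main hM B hB P hP
  have hPL : P ≤ P ⊔ Subgroup.centralizer (P : Set G) := le_sup_left
  have hCL : Subgroup.centralizer (P : Set G) ≤ P ⊔ Subgroup.centralizer (P : Set G) :=
    le_sup_right
  have hLN : P ⊔ Subgroup.centralizer (P : Set G) ≤ Subgroup.normalizer (P : Set G) :=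
    sup_le Subgroup.le_normalizer (Subgroup.centralizer_le_normalizer _)
  obtain ⟨H, hH⟩ : ∃ H : Subgroup G, H = N ⊔ (P ⊔ Subgroup.centralizer (P : Set G)) :=
    ⟨_, rfl⟩
  have hNH : N ≤ H := by rw [hH]; exact le_sup_left
  have hLH : P ⊔ Subgroup.centralizer (P : Set G) ≤ H := by rw [hH]; exact le_sup_right
  have hPH : P ≤ H := hPL.trans hLH
  haveI : Fintype H := Fintype.ofFinite _
  haveI : Fintype (N.subgroupOf H) := Fintype.ofFinite _
  have hPHp : IsPGroup p (P.subgroupOf H) := hPp.comap_subtype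
  have hc1 : P.subgroupOf H ≤ (P ⊔ Subgroup.centralizer (P : Set G)).subgroupOf H :=
    fun x hx => hPL hx
  have hc2 : Subgroup.centralizer ((P.subgroupOf H : Subgroup H) : Set H) ≤
      (P ⊔ Subgroup.centralizer (P : Set G)).subgroupOf H := by
    intro x hx
    rw [Subgroup.mem_subgroupOf]
    apply hCL
    rw [Subgroup.mem_centralizer_iff]
    intro y hy
    have := Subgroup.mem_centralizer_iff.mp hx ⟨y, hPH hy⟩ (by
      show (⟨y, hPH hy⟩ : H) ∈ P.subgroupOf H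
      rw [Subgroup.mem_subgroupOf]; exact hy)
    exact congrArg Subtype.val this
  have hc3 : (P ⊔ Subgroup.centralizer (P : Set G)).subgroupOf H ≤
      Subgroup.normalizer ((P.subgroupOf H : Subgroup H) : Set H) := by
    intro x hx
    have hxn : (x : G) ∈ Subgroup.normalizer (P : Set G) := hLN hx
    rw [Subgroup.mem_normalizer_iff] at hxn ⊢
    intro y
    rw [Subgroup.mem_subgroupOf, Subgroup.mem_subgroupOf]
    exact hxn (y : G)
  obtain ⟨Bt, h1⟩ := exists_isInducedBlock_of_isPBlock hM (P.subgroupOf H)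
    ((P ⊔ Subgroup.centralizer (P : Set G)).subgroupOf H) hPHp hc1 hc2 hc3
    (pullSet hLH bP) (isPBlock_pullSet hMp hLH hind.1)
  have h2 := ind_mid hMp hLH bP Bt B h1 hind
  have hDt := mid_defect hM hLH bP Bt B h1 h2 P hPL hbP hP
  have hcovt := mid_cover hMp N hNH b hb hinv Bt B h2 hcov
  obtain ⟨ξ, hξ⟩ := IsPBlock.nonempty hMp h1.2.1
  obtain ⟨θ', hθ', hne⟩ := (over_iff_sub N H hNH b (ξ : H → ℂ)).mpr (hcovt ξ hξ)
  have hinvH := subBlock_stable N H hNH (fun g _ θ hθ => hinv θ hθ g)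
  have hGH : N.subgroupOf H ⊔ P.subgroupOf H ⊔
      Subgroup.centralizer ((P.subgroupOf H : Subgroup H) : Set H) = ⊤ := by
    rw [eq_top_iff]
    intro x _
    have hx : (x : G) ∈ ((N.subgroupOf H ⊔ P.subgroupOf H ⊔
        Subgroup.centralizer ((P.subgroupOf H : Subgroup H) : Set H)).map H.subtype) := by
      rw [Subgroup.map_sup, Subgroup.map_sup, Subgroup.map_subgroupOf_eq_of_le hNH,
        Subgroup.map_subgroupOf_eq_of_le hPH]
      have hcm : Subgroup.centralizer (P : Set G) ≤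
          (Subgroup.centralizer ((P.subgroupOf H : Subgroup H) : Set H)).map H.subtype := by
        intro c hc
        refine ⟨⟨c, hLH (hCL hc)⟩, ?_, rfl⟩
        show (⟨c, hLH (hCL hc)⟩ : H) ∈
          Subgroup.centralizer ((P.subgroupOf H : Subgroup H) : Set H)
        rw [Subgroup.mem_centralizer_iff]
        intro y hy
        apply Subtype.ext
        exact Subgroup.mem_centralizer_iff.mp hc (y : G) hy
      have hle : H ≤ N ⊔ P ⊔
          (Subgroup.centralizer ((P.subgroupOf H : Subgroup H) : Set H)).map H.subtype := by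
        have h7 : N ⊔ (P ⊔ Subgroup.centralizer (P : Set G)) ≤ N ⊔ P ⊔
            (Subgroup.centralizer ((P.subgroupOf H : Subgroup H) : Set H)).map H.subtype := by
          rw [← sup_assoc]
          exact sup_le_sup_left hcm _
        exact hH.le.trans h7
      exact hle x.2
    obtain ⟨y, hy, hyx⟩ := hx
    have e : y = x := Subtype.ext hyx
    rw [← e]
    exact hy
  have key := ki2 (G := H) hM hcore (N.subgroupOf H) (pullSet hNH b)
    (isPBlock_pullSet hMp hNH hb) (fun θ' hθ' t => hinvH θ' hθ' t) Bt h1.2.1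
    ⟨ξ, hξ, θ', hθ', hne⟩ (P.subgroupOf H) hDt hGH
  have hdesc := descend hNH b (P.subgroupOf H) key
  rwa [Subgroup.map_subgroupOf_eq_of_le hPH] at hdesc

/-- the stabilizer of a set of irreducible characters of a normal subgroup -/
def stabSub (N : Subgroup G) [hN : N.Normal] [Fintype N] (b : Set (Cfsg.IrrCharacter N)) :
    Subgroup G where
  carrier := {g | ∀ θ ∈ b, conjIrr N θ g ∈ b}
  one_mem' := fun θ hθ => by rw [conjIrr_one]; exact hθ
  mul_mem' := by
    intro a c ha hc θ hθ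
    rw [conjIrr_mul]
    exact ha _ (hc θ hθ)
  inv_mem' := by
    intro a ha
    have hpow : ∀ n : ℕ, ∀ θ ∈ b, conjIrr N θ (a ^ n) ∈ b := by
      intro n
      induction n with
      | zero =>
        intro θ hθ
        rw [pow_zero, conjIrr_one]
        exact hθ
      | succ n ih =>
        intro θ hθ
        rw [pow_succ, conjIrr_mul]
        exact ih _ (ha θ hθ)
    have e : a⁻¹ = a ^ (Nat.card G - 1) := by
      apply inv_eq_of_mul_eq_one_right
      rw [← pow_succ', Nat.sub_add_cancel Nat.card_pos, pow_card_eq_one']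
    show ∀ θ ∈ b, conjIrr N θ a⁻¹ ∈ b
    rw [e]
    exact hpow _

/-- **Knörr's theorem**, given its core case. -/
theorem knorr_of_core (hM : Cfsg.IsPModular p M) (hcore : CoreHyp.{u} p M) (N : Subgroup G)
    [hN : N.Normal] [Fintype N] (b : Set (Cfsg.IrrCharacter N)) (hb : Cfsg.IsPBlock M b)
    (Q : Subgroup G) (hQN : Q ≤ N) (hQ : Cfsg.IsDefectGroup p M b (Q.subgroupOf N))
    (B : Set (Cfsg.IrrCharacter G)) (hB : Cfsg.IsPBlock M B)
    (hcov : ∃ χ ∈ B, ∃ θ ∈ b, Cfsg.classInner (fun n : N => (χ : G → ℂ) n) (θ : N → ℂ) ≠ 0) :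
    ∃ P : Subgroup G, Cfsg.IsDefectGroup p M B P ∧ P ⊓ N = Q := by
  classical
  have hMp := isPrime_of_isPModular hM
  have hstab : ∀ g : G, g ∈ stabSub N b ↔ ∀ θ ∈ b, conjIrr N θ g ∈ b := fun g => Iff.rfl
  have hNT : N ≤ stabSub N b := by
    intro n hn θ hθ
    have e : conjIrr N θ n = θ := Subtype.ext
      (Cfsg.Agent.Lib.Helper75.conjChar_of_mem N (fun g x => irrCharacter_conj_eq θ x g) hn)
    rw [e]
    exact hθ
  haveI : Fintype (stabSub N b) := Fintype.ofFinite _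
  haveI : Fintype (N.subgroupOf (stabSub N b)) := Fintype.ofFinite _
  obtain ⟨B', hB', hcov', hind⟩ := fr_surj N (stabSub N b) hNT hMp hb hstab hB hcov
  obtain ⟨B₀, h1, h2, h3, h4, h5⟩ := fr_induced N (stabSub N b) hNT hMp hb hstab hB' hcov'
  have hBB : B = B₀ := isInducedBlock_unique hMp (stabSub N b) hind h1
  obtain ⟨P', hP'⟩ := exists_isDefectGroup p hMp B' hB'
  obtain ⟨ψ, hψ, hov⟩ := hcov'
  obtain ⟨θ', hθ', hne⟩ :=
    (over_iff_sub N (stabSub N b) hNT b (ψ : stabSub N b → ℂ)).mpr hov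
  have hinvT := subBlock_stable N (stabSub N b) hNT (fun g hg θ hθ => hg θ hθ)
  have key := ki1 (G := stabSub N b) hM hcore (N.subgroupOf (stabSub N b)) (pullSet hNT b)
    (isPBlock_pullSet hMp hNT hb) (fun θ' hθ' t => hinvT θ' hθ' t) B' hB'
    ⟨ψ, hψ, θ', hθ', hne⟩ P' hP'
  have key2 := descend hNT b P' key
  have hPG : Cfsg.IsDefectGroup p M B (P'.map (stabSub N b).subtype) := by
    rw [hBB]
    exact isDefectGroup_induced (stabSub N b) hM hB' h1.2.1 h5 h4 hP'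
  obtain ⟨x, hx⟩ := isDefectGroup_conj hM b hb key2 hQ
  refine ⟨(P'.map (stabSub N b).subtype).map (MulAut.conj (x : G)).toMonoidHom,
    isDefectGroup_map_conj hPG (x : G), ?_⟩
  ext g
  constructor
  · rintro ⟨⟨y, hy, rfl⟩, hgN⟩
    have hyN : y ∈ N := by
      have h6 := hN.conj_mem _ hgN (x : G)⁻¹
      have e : (x : G)⁻¹ * ((MulAut.conj (x : G)).toMonoidHom y) * (x : G)⁻¹⁻¹ = y := by
        show (x : G)⁻¹ * ((x : G) * y * (x : G)⁻¹) * (x : G)⁻¹⁻¹ = y
        group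
      rwa [e] at h6
    have hmem : (⟨y, hyN⟩ : N) ∈ ((P'.map (stabSub N b).subtype) ⊓ N).subgroupOf N := by
      rw [Subgroup.mem_subgroupOf]
      exact ⟨hy, hyN⟩
    have h6 : (MulAut.conj x).toMonoidHom ⟨y, hyN⟩ ∈ Q.subgroupOf N := by
      rw [hx]
      exact ⟨_, hmem, rfl⟩
    rw [Subgroup.mem_subgroupOf] at h6
    exact h6
  · intro hg
    have hgN := hQN hg
    have h6 : (⟨g, hgN⟩ : N) ∈ Q.subgroupOf N := by
      rw [Subgroup.mem_subgroupOf]
      exact hg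
    rw [hx] at h6
    obtain ⟨d, hd, hdg⟩ := h6
    have hd' : d ∈ ((P'.map (stabSub N b).subtype) ⊓ N).subgroupOf N := hd
    rw [Subgroup.mem_subgroupOf] at hd'
    refine ⟨⟨(d : G), hd'.1, ?_⟩, hgN⟩
    exact congrArg Subtype.val hdg

end Cfsg.Agent.Lib.Helper27.Knorr
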