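import Mathlib
import Cfsg.Prelude.Def_BlockLocal
import Cfsg.Agent.Lib.Helper27.Knorr1

/-!
# Corollaries of Knörr's theorem (conditional on its core case)

A defect group of a covering block inside the stabilizer (Fong–Reynolds), the statement on a
`P`-stable covered block (S4671), and the statement on stabilizers in `p`-extensions (S4673).
-/

set_option autoImplicit false
set_option linter.unusedSectionVars false
set_option linter.style.haveILetI false

namespace Cfsg.Agent.Lib.Helper27.Knorr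

open Cfsg Cfsg.Agent.Lib.Helper16 Cfsg.Agent.Lib.Helper77
open scoped ComplexConjugate

universe u

variable {G : Type u} [Group G] [Fintype G] {p : ℕ} [Fact p.Prime] {M : Ideal Cfsg.AlgInt}

omit [Fintype G] in
/-- transport along conjugation is `conjIrr` -/
theorem mapIrr_conjNormal (N : Subgroup G) [hN : N.Normal] [Fintype N]
    (θ : Cfsg.IrrCharacter N) (x : G) : mapIrr (MulAut.conjNormal x : N ≃* N) θ = conjIrr N θ x :=
  Subtype.ext rfl

/-- the Fong–Reynolds correspondent supplies a defect group of `B` inside the stabilizer of `b`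
meeting `N` in a defect group of `b` -/
theorem exists_fr_defect (hM : Cfsg.IsPModular p M) (hcore : CoreHyp.{u} p M) (N : Subgroup G)
    [hN : N.Normal] [Fintype N] (b : Set (Cfsg.IrrCharacter N)) (hb : Cfsg.IsPBlock M b)
    (B : Set (Cfsg.IrrCharacter G)) (hB : Cfsg.IsPBlock M B)
    (hcov : ∃ χ ∈ B, ∃ θ ∈ b, Cfsg.classInner (fun n : N => (χ : G → ℂ) n) (θ : N → ℂ) ≠ 0) :
    ∃ P : Subgroup G, Cfsg.IsDefectGroup p M B P ∧ P ≤ stabSub N b ∧
      Cfsg.IsDefectGroup p M b ((P ⊓ N).subgroupOf N) := by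
  classical
  have hMp := isPrime_of_isPModular hM
  have hstab : ∀ g : G, g ∈ stabSub N b ↔ ∀ θ ∈ b, conjIrr N θ g ∈ b := fun g => Iff.rfl
  have hNT : N ≤ stabSub N b := by
    intro n hn θ hθ
    have e : conjIrr N θ n = θ := Subtype.ext
      (Cfsg.Agent.Lib.Helper75.conjChar_of_mem N (fun g x => irrCharacter_conj_eq θ x g) hn)
    rw [e]
    exact hθ
  haveI : Fintype (stabSub N b) := Fintype.ofFinite _
  haveI : Fintype (N.subgroupOf (stabSub N b)) := Fintype.ofFinite _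
  obtain ⟨B', hB', hcov', hind⟩ := fr_surj N (stabSub N b) hNT hMp hb hstab hB hcov
  obtain ⟨B₀, h1, h2, h3, h4, h5⟩ := fr_induced N (stabSub N b) hNT hMp hb hstab hB' hcov'
  have hBB : B = B₀ := isInducedBlock_unique hMp (stabSub N b) hind h1
  obtain ⟨P', hP'⟩ := exists_isDefectGroup p hMp B' hB'
  obtain ⟨ψ, hψ, hov⟩ := hcov'
  obtain ⟨θ', hθ', hne⟩ :=
    (over_iff_sub N (stabSub N b) hNT b (ψ : stabSub N b → ℂ)).mpr hov
  have hinvT := subBlock_stable N (stabSub N b) hNT (fun g hg θ hθ => hg θ hθ)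
  have key := ki1 (G := stabSub N b) hM hcore (N.subgroupOf (stabSub N b)) (pullSet hNT b)
    (isPBlock_pullSet hMp hNT hb) (fun θ' hθ' t => hinvT θ' hθ' t) B' hB'
    ⟨ψ, hψ, θ', hθ', hne⟩ P' hP'
  have key2 := descend hNT b P' key
  have hPG : Cfsg.IsDefectGroup p M B (P'.map (stabSub N b).subtype) := by
    rw [hBB]
    exact isDefectGroup_induced (stabSub N b) hM hB' h1.2.1 h5 h4 hP'
  refine ⟨_, hPG, ?_, key2⟩
  rintro _ ⟨y, -, rfl⟩
  exact y.2

/-- statement S4671, given the core case of Knörr's theorem -/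
theorem s4671_of_core (hM : Cfsg.IsPModular p M) (hcore : CoreHyp.{u} p M) (N : Subgroup G)
    [hN : N.Normal] [Fintype N] (B : Set (Cfsg.IrrCharacter G)) (hB : Cfsg.IsPBlock M B)
    (P : Subgroup G) (hP : Cfsg.IsDefectGroup p M B P) :
    ∃ c : Set (Cfsg.IrrCharacter N), Cfsg.IsPBlock M c ∧
      (∀ x ∈ P, Cfsg.StabilizesBlock N c x) ∧
      (∃ χ ∈ B, ∃ θ ∈ c, Cfsg.classInner (fun n : N => (χ : G → ℂ) n) (θ : N → ℂ) ≠ 0) ∧
      Cfsg.IsDefectGroup p M c ((P ⊓ N).subgroupOf N) := by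
  classical
  have hMp := isPrime_of_isPModular hM
  obtain ⟨χ₀, hχ₀⟩ := IsPBlock.nonempty hMp hB
  obtain ⟨θ₀, hθ₀⟩ := exists_irr_under N χ₀
  have hb : Cfsg.IsPBlock M (Cfsg.blockOf M (θ₀ : N → ℂ)) := isPBlock_blockOf θ₀
  obtain ⟨P₀, hP₀, hP₀T, hdef⟩ := exists_fr_defect hM hcore N (Cfsg.blockOf M (θ₀ : N → ℂ)) hb
    B hB ⟨χ₀, hχ₀, θ₀, mem_blockOf_self hMp θ₀, hθ₀⟩
  obtain ⟨x, hx⟩ := isDefectGroup_conj hM B hB hP₀ hP
  refine ⟨mapSet (MulAut.conjNormal x : N ≃* N) (Cfsg.blockOf M (θ₀ : N → ℂ)),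
    isPBlock_mapSet hMp _ hb, ?_, ?_, ?_⟩
  · intro y hy
    rw [hx] at hy
    obtain ⟨u, hu, rfl⟩ := hy
    refine ⟨by rw [Subgroup.normalizer_eq_top_iff.mpr hN]; exact Subgroup.mem_top _, ?_⟩
    rintro χ ⟨θ, hθ, rfl⟩
    refine ⟨conjIrr N (mapIrr (MulAut.conjNormal x : N ≃* N) θ)
      ((MulAut.conj x).toMonoidHom u), ?_, ?_⟩
    · rw [mapIrr_conjNormal, ← conjIrr_mul]
      have e : (MulAut.conj x).toMonoidHom u * x = x * u := by
        show x * u * x⁻¹ * x = x * u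
        group
      rw [e, conjIrr_mul, ← mapIrr_conjNormal]
      exact (mapIrr_mem_mapSet_iff _ _ _).mpr (hP₀T hu θ hθ)
    · intro k k' hkk'
      have hmem : ((MulAut.conj x).toMonoidHom u)⁻¹ * (k' : G) *
          ((MulAut.conj x).toMonoidHom u) ∈ N := by
        rw [hkk']
        have e : ((MulAut.conj x).toMonoidHom u)⁻¹ * ((MulAut.conj x).toMonoidHom u * (k : G) *
            ((MulAut.conj x).toMonoidHom u)⁻¹) * ((MulAut.conj x).toMonoidHom u) = (k : G) := by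
          group
        rw [e]
        exact k.2
      rw [conjIrr_apply N _ _ k' hmem]
      refine congrArg _ (Subtype.ext ?_)
      show ((MulAut.conj x).toMonoidHom u)⁻¹ * (k' : G) * ((MulAut.conj x).toMonoidHom u) = (k : G)
      rw [hkk']
      group
  · refine ⟨χ₀, hχ₀, mapIrr (MulAut.conjNormal x : N ≃* N) θ₀,
      (mapIrr_mem_mapSet_iff _ _ _).mpr (mem_blockOf_self hMp θ₀), ?_⟩
    rw [mapIrr_conjNormal]
    show Cfsg.classInner (fun n : N => (χ₀ : G → ℂ) n)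
      (Cfsg.Agent.Lib.Helper75.conjChar N (θ₀ : N → ℂ) x) ≠ 0
    rw [Cfsg.Agent.Lib.Helper75.classInner_res_conjChar N
      (fun g y => irrCharacter_conj_eq χ₀ y g) (θ₀ : N → ℂ) x]
    exact hθ₀
  · have h1 := isDefectGroup_mapSet (M := M) (MulAut.conjNormal x : N ≃* N) hdef
    have e : (P ⊓ N).subgroupOf N = ((P₀ ⊓ N).subgroupOf N).map
        (MulAut.conjNormal x : N ≃* N).toMonoidHom := by
      ext n
      constructor
      · intro hn
        rw [Subgroup.mem_subgroupOf, hx] at hn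
        obtain ⟨⟨y, hy, hyn⟩, -⟩ := hn
        have hyN : y ∈ N := by
          have h6 := hN.conj_mem _ n.2 x⁻¹
          rw [← hyn] at h6
          have e : x⁻¹ * ((MulAut.conj x).toMonoidHom y) * x⁻¹⁻¹ = y := by
            show x⁻¹ * (x * y * x⁻¹) * x⁻¹⁻¹ = y
            group
          rwa [e] at h6
        refine ⟨⟨y, hyN⟩, ?_, Subtype.ext hyn⟩
        show (⟨y, hyN⟩ : N) ∈ (P₀ ⊓ N).subgroupOf N
        rw [Subgroup.mem_subgroupOf]
        exact ⟨hy, hyN⟩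
      · rintro ⟨m, hm, rfl⟩
        have hm' : m ∈ (P₀ ⊓ N).subgroupOf N := hm
        rw [Subgroup.mem_subgroupOf] at hm' ⊢
        rw [hx]
        exact ⟨⟨(m : G), hm'.1, rfl⟩, ((MulAut.conjNormal x : N ≃* N) m).2⟩
    rw [e]
    exact h1

/-- the block of a normal subgroup `K ≥ N` with `K/N` a `p`-group lying between an invariant
block `b` of `N` and a block `B` of `G` covering it: it is invariant, covered by `B`, covers
`b`, and is the only block of `K` covering `b` -/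
theorem exists_mid_block (hM : Cfsg.IsPModular p M) (N K : Subgroup G) [hN : N.Normal]
    [hK : K.Normal] [Fintype N] [Fintype K] [Fintype (N.subgroupOf K)] (hNK : N ≤ K)
    (hidx : ∃ k : ℕ, (N.subgroupOf K).index = p ^ k)
    (b : Set (Cfsg.IrrCharacter N)) (hb : Cfsg.IsPBlock M b)
    (hinv : ∀ θ ∈ b, ∀ g : G, conjIrr N θ g ∈ b)
    (B : Set (Cfsg.IrrCharacter G))
    (hcov : ∃ χ ∈ B, ∃ θ ∈ b, Cfsg.classInner (fun n : N => (χ : G → ℂ) n) (θ : N → ℂ) ≠ 0) :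
    ∃ B1 : Set (Cfsg.IrrCharacter K), Cfsg.IsPBlock M B1 ∧
      (∀ ζ ∈ B1, ∀ g : G, conjIrr K ζ g ∈ B1) ∧
      (∃ χ ∈ B, ∃ ζ ∈ B1, Cfsg.classInner (fun k : K => (χ : G → ℂ) k) (ζ : K → ℂ) ≠ 0) ∧
      (∃ ζ ∈ B1, ∃ θ' ∈ pullSet hNK b,
        Cfsg.classInner (fun n' : N.subgroupOf K => (ζ : K → ℂ) n')
          (θ' : N.subgroupOf K → ℂ) ≠ 0) ∧
      ∀ B' : Set (Cfsg.IrrCharacter K), Cfsg.IsPBlock M B' →
        (∃ ζ ∈ B', ∃ θ' ∈ pullSet hNK b,
          Cfsg.classInner (fun n' : N.subgroupOf K => (ζ : K → ℂ) n')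
            (θ' : N.subgroupOf K → ℂ) ≠ 0) → B' = B1 := by
  classical
  have hMp := isPrime_of_isPModular hM
  have hbK : Cfsg.IsPBlock M (pullSet hNK b) := isPBlock_pullSet hMp hNK hb
  obtain ⟨χ₀, hχ₀, θ₀, hθ₀, hcon⟩ := hcov
  obtain ⟨η, hη1, hη2⟩ := exists_mid N K hNK (fun g x => irrCharacter_conj_eq χ₀ x g)
    (θ₀ : N → ℂ) hcon
  have hB1 : Cfsg.IsPBlock M (Cfsg.blockOf M (η : K → ℂ)) := isPBlock_blockOf η
  have hηB1 := mem_blockOf_self hMp η
  have hov : Over N K hNK b (η : K → ℂ) := ⟨θ₀, hθ₀, hη2⟩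
  have hcov1 : ∃ ζ ∈ Cfsg.blockOf M (η : K → ℂ), ∃ θ' ∈ pullSet hNK b,
      Cfsg.classInner (fun n' : N.subgroupOf K => (ζ : K → ℂ) n')
        (θ' : N.subgroupOf K → ℂ) ≠ 0 := by
    obtain ⟨θ', hθ', hne⟩ := (over_iff_sub N K hNK b (η : K → ℂ)).mpr hov
    exact ⟨η, hηB1, θ', hθ', hne⟩
  have huniq := Cfsg.Agent.S0966.result p M hM (N.subgroupOf K) hidx (pullSet hNK b) hbK
  refine ⟨Cfsg.blockOf M (η : K → ℂ), hB1, ?_, ⟨χ₀, hχ₀, η, hηB1, hη1⟩, hcov1,
    fun B' hB' hcov' => huniq.unique ⟨hB', hcov'⟩ ⟨hB1, hcov1⟩⟩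
  intro ζ hζ g
  obtain ⟨θ1, hθ1, hne1⟩ := cover_all_sub N K hNK hMp hb hB1 hηB1 hov hζ
  have hov' : Over N K hNK b (conjIrr K ζ g : K → ℂ) := by
    refine ⟨conjIrr N θ1 g, hinv θ1 hθ1 g, ?_⟩
    have e : (fun n : N => (conjIrr K ζ g : K → ℂ) ⟨(n : G), hNK n.2⟩) =
        Cfsg.Agent.Lib.Helper75.conjChar N
          (fun n : N => (ζ : K → ℂ) ⟨(n : G), hNK n.2⟩) g := by
      funext n
      show (ζ : K → ℂ) _ = (ζ : K → ℂ) _
      congr 1
    rw [e]
    show Cfsg.classInner _ (Cfsg.Agent.Lib.Helper75.conjChar N (θ1 : N → ℂ) g) ≠ 0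
    rw [Cfsg.Agent.Lib.Helper75.classInner_conjChar]
    exact hne1
  obtain ⟨θ', hθ', hne⟩ := (over_iff_sub N K hNK b _).mpr hov'
  have h1 : Cfsg.blockOf M (conjIrr K ζ g : K → ℂ) = Cfsg.blockOf M (η : K → ℂ) :=
    huniq.unique ⟨isPBlock_blockOf _, conjIrr K ζ g, mem_blockOf_self hMp _, θ', hθ', hne⟩
      ⟨hB1, hcov1⟩
  rw [← h1]
  exact mem_blockOf_self hMp _

/-- if `L/N` is a `p`-group, `b` is an invariant block of `N` covered by `B`, and a defect group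
of `B` lies in `N`, then `L = N` -/
theorem le_of_defect_le (hM : Cfsg.IsPModular p M) (hcore : CoreHyp.{u} p M)
    (N L : Subgroup G) [hN : N.Normal] [hL : L.Normal] [Fintype N] (hNL : N ≤ L)
    (hidx : ∃ k : ℕ, (N.subgroupOf L).index = p ^ k)
    (b : Set (Cfsg.IrrCharacter N)) (hb : Cfsg.IsPBlock M b)
    (hinv : ∀ θ ∈ b, ∀ g : G, conjIrr N θ g ∈ b)
    (B : Set (Cfsg.IrrCharacter G)) (hB : Cfsg.IsPBlock M B)
    (hcov : ∃ χ ∈ B, ∃ θ ∈ b, Cfsg.classInner (fun n : N => (χ : G → ℂ) n) (θ : N → ℂ) ≠ 0)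
    (D : Subgroup G) (hD : Cfsg.IsDefectGroup p M B D) (hDN : D ≤ N) : L ≤ N := by
  classical
  have hMp := isPrime_of_isPModular hM
  have hp : p.Prime := Fact.out
  haveI : Fintype L := Fintype.ofFinite _
  haveI : Fintype (N.subgroupOf L) := Fintype.ofFinite _
  obtain ⟨B1, hB1, hinv1, hcovB, hcov1, huniq⟩ :=
    exists_mid_block hM N L hNL hidx b hb hinv B hcov
  have hD1 := ki1 hM hcore L B1 hB1 hinv1 B hB hcovB D hD
  have hinvL := subBlock_stable N L hNL (fun g _ θ hθ => hinv θ hθ g)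
  have hfong := Cfsg.Agent.S0970.result p M hM (N.subgroupOf L) (pullSet hNL b)
    (isPBlock_pullSet hMp hNL hb)
    (frozen_of_conjIrr (N.subgroupOf L) _ (fun θ' hθ' t => hinvL θ' hθ' t))
    B1 hB1 hcov1
    (fun B' hB' hcov' => by rw [huniq B' hB' hcov'])
    ((D ⊓ L).subgroupOf L) hD1
  have hle : (D ⊓ L).subgroupOf L ≤ N.subgroupOf L := by
    intro x hx
    rw [Subgroup.mem_subgroupOf] at hx ⊢
    exact hDN hx.1
  rw [sup_eq_right.mpr hle] at hfong
  obtain ⟨k, hk⟩ := hidx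
  have h1 := hfong.1
  rw [hk] at h1
  have hk0 : k = 0 := by
    by_contra hne
    exact h1 (dvd_pow_self p hne)
  rw [hk0, pow_zero, Subgroup.index_eq_one, Subgroup.subgroupOf_eq_top] at hk
  exact hk

omit [Fintype G] in
/-- the stabilizer of the frozen statements, in terms of `conjIrr` -/
theorem stabilizesBlock_iff_conjIrr (N : Subgroup G) [hN : N.Normal] [Fintype N]
    (c : Set (Cfsg.IrrCharacter N)) (x : G) :
    Cfsg.StabilizesBlock N c x ↔ ∀ θ ∈ c, conjIrr N θ x ∈ c := by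
  have hconj : ∀ θ : Cfsg.IrrCharacter N,
      Cfsg.IsConjCharOf N x (θ : N → ℂ) (conjIrr N θ x : N → ℂ) := by
    intro θ k k' hkk'
    have hmem : x⁻¹ * (k' : G) * x ∈ N := by
      rw [hkk']
      have e : x⁻¹ * (x * (k : G) * x⁻¹) * x = (k : G) := by group
      rw [e]
      exact k.2
    rw [conjIrr_apply N θ x k' hmem]
    refine congrArg _ (Subtype.ext ?_)
    show x⁻¹ * (k' : G) * x = (k : G)
    rw [hkk']
    group
  constructor
  · rintro ⟨-, h⟩ θ hθ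
    obtain ⟨χ', hχ', hc⟩ := h θ hθ
    have e : conjIrr N θ x = χ' := by
      apply Subtype.ext
      funext k'
      have hmem : x⁻¹ * (k' : G) * x ∈ N := by
        have := hN.conj_mem _ k'.2 x⁻¹
        simpa using this
      have h1 := hc ⟨x⁻¹ * (k' : G) * x, hmem⟩ k' (by
        show (k' : G) = x * (x⁻¹ * (k' : G) * x) * x⁻¹
        group)
      have h2 := hconj θ ⟨x⁻¹ * (k' : G) * x, hmem⟩ k' (by
        show (k' : G) = x * (x⁻¹ * (k' : G) * x) * x⁻¹
        group)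
      rw [h1, h2]
    rw [e]
    exact hχ'
  · intro h
    refine ⟨by rw [Subgroup.normalizer_eq_top_iff.mpr hN]; exact Subgroup.mem_top _, ?_⟩
    intro θ hθ
    exact ⟨conjIrr N θ x, h θ hθ, hconj θ⟩

/-- statement S4673, given the core case of Knörr's theorem -/
theorem s4673_of_core (hM : Cfsg.IsPModular p M) (hcore : CoreHyp.{u} p M)
    (N L : Subgroup G) [hN : N.Normal] [hL : L.Normal] [Fintype N] (hNL : N ≤ L)
    (hLN : ∃ k : ℕ, (N.subgroupOf L).index = p ^ k)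
    (B : Set (Cfsg.IrrCharacter G)) (hB : Cfsg.IsPBlock M B)
    (c : Set (Cfsg.IrrCharacter N)) (hc : Cfsg.IsPBlock M c)
    (hcov : ∃ χ ∈ B, ∃ θ ∈ c, Cfsg.classInner (fun n : N => (χ : G → ℂ) n) (θ : N → ℂ) ≠ 0)
    (hD : ∃ D : Subgroup G, Cfsg.IsDefectGroup p M B D ∧ D ≤ N)
    (T : Subgroup G) (hT : ∀ x : G, x ∈ T ↔ Cfsg.StabilizesBlock N c x) : T ⊓ L = N := by
  classical
  have hMp := isPrime_of_isPModular hM
  have hp : p.Prime := Fact.out
  have hstab : ∀ g : G, g ∈ T ↔ ∀ θ ∈ c, conjIrr N θ g ∈ c := fun g =>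
    (hT g).trans (stabilizesBlock_iff_conjIrr N c g)
  have hNT : N ≤ T := by
    intro n hn
    rw [hstab]
    intro θ hθ
    have e : conjIrr N θ n = θ := Subtype.ext
      (Cfsg.Agent.Lib.Helper75.conjChar_of_mem N (fun g x => irrCharacter_conj_eq θ x g) hn)
    rw [e]
    exact hθ
  apply le_antisymm _ (le_inf hNT hNL)
  haveI : Fintype T := Fintype.ofFinite _
  haveI : Fintype (N.subgroupOf T) := Fintype.ofFinite _
  obtain ⟨B', hB', hcov', hind⟩ := fr_surj N T hNT hMp hc hstab hB hcov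
  obtain ⟨B₀, h1, h2, h3, h4, h5⟩ := fr_induced N T hNT hMp hc hstab hB' hcov'
  have hBB : B = B₀ := isInducedBlock_unique hMp T hind h1
  obtain ⟨P', hP'⟩ := exists_isDefectGroup p hMp B' hB'
  obtain ⟨ψ, hψ, hov⟩ := hcov'
  obtain ⟨θ', hθ', hne⟩ := (over_iff_sub N T hNT c (ψ : T → ℂ)).mpr hov
  have hinvT := subBlock_stable N T hNT (fun g hg θ hθ => (hstab g).mp hg θ hθ)
  have hPG : Cfsg.IsDefectGroup p M B (P'.map T.subtype) := by
    rw [hBB]
    exact isDefectGroup_induced T hM hB' h1.2.1 h5 h4 hP'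
  obtain ⟨D, hD, hDN⟩ := hD
  obtain ⟨x, hx⟩ := isDefectGroup_conj hM B hB hD hPG
  have hP'N : P' ≤ N.subgroupOf T := by
    intro y hy
    rw [Subgroup.mem_subgroupOf]
    have h6 : (y : G) ∈ P'.map T.subtype := ⟨y, hy, rfl⟩
    rw [hx] at h6
    obtain ⟨d, hd, hdy⟩ := h6
    rw [← hdy]
    exact hN.conj_mem d (hDN hd) x
  -- the index of `N` in `L ∩ T`
  have hNLT : N.subgroupOf T ≤ L.subgroupOf T := fun y hy => hNL hy
  have hidxT : ∃ k : ℕ, ((N.subgroupOf T).subgroupOf (L.subgroupOf T)).index = p ^ k := by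
    obtain ⟨k, hk⟩ := hLN
    have e1 := Subgroup.index_mul_card (N.subgroupOf L)
    have e2 := Subgroup.index_mul_card ((N.subgroupOf T).subgroupOf (L.subgroupOf T))
    have c1 : Nat.card (N.subgroupOf L) = Nat.card N :=
      Nat.card_congr (Subgroup.subgroupOfEquivOfLe hNL).toEquiv
    have c2 : Nat.card ((N.subgroupOf T).subgroupOf (L.subgroupOf T)) = Nat.card N :=
      (Nat.card_congr (Subgroup.subgroupOfEquivOfLe hNLT).toEquiv).trans
        (Nat.card_congr (Subgroup.subgroupOfEquivOfLe hNT).toEquiv)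
    have c3 : Nat.card (L.subgroupOf T) ∣ Nat.card L := by
      have : Nat.card (L.subgroupOf T) = Nat.card ↥(L ⊓ T) := by
        rw [← Subgroup.inf_subgroupOf_right L T]
        exact Nat.card_congr (Subgroup.subgroupOfEquivOfLe inf_le_right).toEquiv
      rw [this]
      exact Subgroup.card_dvd_of_le inf_le_left
    rw [c1, hk] at e1
    rw [c2] at e2
    rw [← e1, ← e2] at c3
    have hpos : 0 < Nat.card N := Nat.card_pos
    have h7 := Nat.dvd_of_mul_dvd_mul_right hpos c3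
    obtain ⟨j, -, hj⟩ := (Nat.dvd_prime_pow hp).mp h7
    exact ⟨j, hj⟩
  have key := le_of_defect_le (G := T) hM hcore (N.subgroupOf T) (L.subgroupOf T) hNLT hidxT
    (pullSet hNT c) (isPBlock_pullSet hMp hNT hc) (fun θ' hθ' t => hinvT θ' hθ' t) B' hB'
    ⟨ψ, hψ, θ', hθ', hne⟩ P' hP' hP'N
  intro g hg
  exact key (show (⟨g, hg.1⟩ : T) ∈ L.subgroupOf T from hg.2)

end Cfsg.Agent.Lib.Helper27.Knorr
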