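import Mathlib
import Cfsg.Prelude.Def_BlockLocal
import Cfsg.Agent.Lib.Helper27.Knorr2
import Cfsg.Agent.Lib.Helper77.IndBridge
import Cfsg.Agent.Lib.Helper16.FirstMain2

/-!
# The Harris–Knörr correspondence (conditional on the core case of Knörr's theorem)

Let `N` be normal in `G`, `Q ≤ N` a `p`-subgroup, `d` a block of `N` with defect group `Q` and
`e` its Brauer correspondent in `N_N(Q)`.  Block induction is a bijection from the blocks of
`N_G(Q)` covering `e` onto the blocks of `G` covering `d` (statement S4674).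
-/

set_option autoImplicit false
set_option linter.unusedSectionVars false
set_option linter.style.haveILetI false

namespace Cfsg.Agent.Lib.Helper27.Knorr

open Cfsg Cfsg.Agent.Lib.Helper16 Cfsg.Agent.Lib.Helper77
open scoped ComplexConjugate

universe u

variable {G : Type u} [Group G] [Fintype G] {p : ℕ} [Fact p.Prime] {M : Ideal Cfsg.AlgInt}

/-- a sum over a subgroup `L ≤ K`, as a sum over `L.subgroupOf K` -/
theorem sum_subgroupOf {L K : Subgroup G} [Fintype L] [Fintype (L.subgroupOf K)] (hLK : L ≤ K)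
    (f : L → ℂ) :
    ∑ k : L.subgroupOf K, f (Subgroup.subgroupOfEquivOfLe hLK k) = ∑ l : L, f l :=
  Fintype.sum_equiv (Subgroup.subgroupOfEquivOfLe hLK).toEquiv _ _ (fun _ => rfl)

/-- multiplicities over `L ≤ K`, computed in `L.subgroupOf K` -/
theorem classInner_sub {L K : Subgroup G} [Fintype L] [Fintype (L.subgroupOf K)] (hLK : L ≤ K)
    (ψ : K → ℂ) (θ : L → ℂ) :
    Cfsg.classInner (fun k : L.subgroupOf K => ψ k)
      (fun k : L.subgroupOf K => θ (Subgroup.subgroupOfEquivOfLe hLK k)) =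
    Cfsg.classInner (fun l : L => ψ ⟨(l : G), hLK l.2⟩) θ := by
  unfold Cfsg.classInner
  rw [Nat.card_congr (Subgroup.subgroupOfEquivOfLe hLK).toEquiv]
  congr 1
  exact Fintype.sum_equiv (Subgroup.subgroupOfEquivOfLe hLK).toEquiv _ _ (fun _ => rfl)

/-- the key covering lemma: if the block `c` of `H` covers the block `e` of `L = H ∩ N`, then
the induced block `c^G` covers the induced block `e^N` -/
theorem kl (hM : M.IsPrime) (N : Subgroup G) [hN : N.Normal] [Fintype N] (H L : Subgroup G)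
    [Fintype H] [Fintype L] (hLH : L ≤ H) (hLN : L ≤ N) (hHN : ∀ x ∈ H, x ∈ N → x ∈ L)
    (c : Set (Cfsg.IrrCharacter H)) (B : Set (Cfsg.IrrCharacter G))
    (hind : Cfsg.IsInducedBlock M H c B)
    (e : Set (Cfsg.IrrCharacter L)) (d : Set (Cfsg.IrrCharacter N))
    (hed : Cfsg.IsInducedBlockIn M N L e d)
    (hcov : ∃ ψ ∈ c, ∃ ξ ∈ e,
      Cfsg.classInner (fun l : L => (ψ : H → ℂ) ⟨(l : G), hLH l.2⟩) (ξ : L → ℂ) ≠ 0) :
    ∃ χ ∈ B, ∃ θ ∈ d, Cfsg.classInner (fun n : N => (χ : G → ℂ) n) (θ : N → ℂ) ≠ 0 := by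
  classical
  obtain ⟨ψ, hψ, ξ, hξ, hne⟩ := hcov
  obtain ⟨χ, hχ⟩ := IsPBlock.nonempty hM hind.2.1
  obtain ⟨θ, hθ⟩ := IsPBlock.nonempty hM hed.2.1
  haveI : Fintype (L.subgroupOf H) := Fintype.ofFinite _
  haveI : Fintype (L.subgroupOf N) := Fintype.ofFinite _
  haveI hLn : (L.subgroupOf H).Normal := by
    constructor
    intro l hl h
    rw [Subgroup.mem_subgroupOf] at hl ⊢
    have e1 : ((h * l * h⁻¹ : H) : G) = (h : G) * (l : G) * (h : G)⁻¹ := by simp
    rw [e1]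
    exact hHN _ (H.mul_mem (H.mul_mem h.2 l.2) (H.inv_mem h.2)) (hN.conj_mem _ (hLN hl) _)
  have key : ∀ n : N, MemLocalIdeal M (Cfsg.centralChar (χ : G → ℂ) (n : G) -
      Cfsg.inducedCentralChar N (θ : N → ℂ) (n : G)) := by
    intro n
    have A1 := hind.2.2 ψ hψ χ hχ (n : G)
    have hα : IsRClass M (resFun N (classInd (n : G))) :=
      isRClass_resFun N (isRClass_classInd hM (n : G))
    have A2 := omega_resFun_sub hM (L.subgroupOf N)
      (mapIrr (Subgroup.subgroupOfEquivOfLe hLN).symm ξ : L.subgroupOf N → ℂ) θ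
      (fun g => by
        have h1 := hed.2.2 ξ hξ θ hθ g
        rw [inducedCentralCharIn_eq N (L.subgroupOf N) L (Subgroup.subgroupOfEquivOfLe hLN)
          (fun _ => rfl)] at h1
        exact h1) hα
    rw [omega_resFun_classInd] at A2
    have e2 : omega (mapIrr (Subgroup.subgroupOfEquivOfLe hLN).symm ξ : L.subgroupOf N → ℂ)
        (resFun (L.subgroupOf N) (resFun N (classInd (n : G)))) =
        (∑ l : L, classInd (n : G) (l : G) * (ξ : L → ℂ) l) / (ξ : L → ℂ) 1 := by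
      unfold omega
      rw [← Finset.sum_div, mapIrr_apply, map_one,
        ← sum_subgroupOf hLN (fun l : L => classInd (n : G) (l : G) * (ξ : L → ℂ) l)]
      rfl
    rw [e2] at A2
    have e3 : Cfsg.inducedCentralChar H (ψ : H → ℂ) (n : G) =
        (∑ l : L, classInd (n : G) (l : G) * (ξ : L → ℂ) l) / (ξ : L → ℂ) 1 := by
      rw [← omega_resFun_classInd]
      have hne' : Cfsg.classInner (fun k : L.subgroupOf H => (ψ : H → ℂ) k)
          (mapIrr (Subgroup.subgroupOfEquivOfLe hLH).symm ξ : L.subgroupOf H → ℂ) ≠ 0 := by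
        have h5 := classInner_sub hLH (ψ : H → ℂ) (ξ : L → ℂ)
        rw [← h5] at hne
        exact hne
      have h6 := sum_res_mul_eq (L.subgroupOf H) hne'
        (α := resFun H (classInd (n : G))) (isRClass_resFun H (isRClass_classInd hM (n : G))).1
      have h7 : (∑ m : L.subgroupOf H, resFun H (classInd (n : G)) m *
          (mapIrr (Subgroup.subgroupOfEquivOfLe hLH).symm ξ : L.subgroupOf H → ℂ) m) /
          (mapIrr (Subgroup.subgroupOfEquivOfLe hLH).symm ξ : L.subgroupOf H → ℂ) 1 =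
          (∑ l : L, classInd (n : G) (l : G) * (ξ : L → ℂ) l) / (ξ : L → ℂ) 1 := by
        rw [mapIrr_apply, map_one,
          ← sum_subgroupOf hLH (fun l : L => classInd (n : G) (l : G) * (ξ : L → ℂ) l)]
        rfl
      rw [← h7, ← h6]
      unfold omega
      rw [← Finset.sum_div]
      congr 1
      have h8 := Fintype.sum_of_injective (fun k : L.subgroupOf H => (k : H))
        Subtype.val_injective
        (fun k : L.subgroupOf H => resFun H (classInd (n : G)) k * (ψ : H → ℂ) k)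
        (fun h : H => resFun H (classInd (n : G)) h * (ψ : H → ℂ) h)
        (by
          intro h hh
          have hnot : ¬ IsConj (n : G) (h : G) := by
            intro hc
            apply hh
            obtain ⟨x, hx⟩ := isConj_iff.mp hc
            have hmem : (h : G) ∈ N := by
              rw [← hx]
              exact hN.conj_mem _ n.2 x
            exact ⟨⟨h, by rw [Subgroup.mem_subgroupOf]; exact hHN _ h.2 hmem⟩, rfl⟩
          show classInd (n : G) (h : G) * _ = 0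
          unfold classInd
          rw [if_neg hnot, zero_mul])
        (fun _ => rfl)
      exact h8.symm
    rw [e3] at A1
    have := memLocalIdeal_sub hM A2 A1
    rwa [sub_sub_sub_cancel_left] at this
  obtain ⟨θ', hθ', hne'⟩ := cover_of_congr N hM hed.2.1 χ hθ key
  exact ⟨χ, hχ, θ', hθ', hne'⟩


omit [Fintype G] in
/-- conjugating an induction inside `N` by an element normalizing both subgroups -/
theorem inducedIn_conj (hM : M.IsPrime) (N L : Subgroup G) (g : G)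
    (hgN : g ∈ Subgroup.normalizer (N : Set G)) (hgL : g ∈ Subgroup.normalizer (L : Set G))
    (e : Set (Cfsg.IrrCharacter L)) (d : Set (Cfsg.IrrCharacter N))
    (h : Cfsg.IsInducedBlockIn M N L e d) :
    Cfsg.IsInducedBlockIn M N L (mapSet (conjAut L g hgL) e) (mapSet (conjAut N g hgN) d) := by
  refine ⟨isPBlock_mapSet hM _ h.1, isPBlock_mapSet hM _ h.2.1, ?_⟩
  rintro _ ⟨ξ, hξ, rfl⟩ _ ⟨χ, hχ, rfl⟩ n
  have key := h.2.2 ξ hξ χ hχ ((conjAut N g hgN).symm n)
  have e1 : Cfsg.centralChar (mapIrr (conjAut N g hgN) χ : N → ℂ) n =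
      Cfsg.centralChar (χ : N → ℂ) ((conjAut N g hgN).symm n) := by
    conv_lhs => rw [← (conjAut N g hgN).apply_symm_apply n]
    exact centralChar_mapIrr _ _ _
  have e2 : Cfsg.inducedCentralCharIn N L (mapIrr (conjAut L g hgL) ξ : L → ℂ) (n : G) =
      Cfsg.inducedCentralCharIn N L (ξ : L → ℂ) (((conjAut N g hgN).symm n : N) : G) := by
    unfold Cfsg.inducedCentralCharIn
    symm
    apply finsum_mem_eq_of_bijOn (fun k : L => conjAut L g hgL k)
    · refine ⟨?_, ?_, ?_⟩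
      · rintro k ⟨x, hx⟩
        refine ⟨conjAut N g hgN x, ?_⟩
        rw [conjAut_symm_apply_coe] at hx
        show ((conjAut N g hgN x : N) : G) * ((conjAut L g hgL k : L) : G) *
          ((conjAut N g hgN x : N) : G)⁻¹ = (n : G)
        rw [conjAut_apply_coe, conjAut_apply_coe]
        have : g * (x : G) * g⁻¹ * (g * (k : G) * g⁻¹) * (g * (x : G) * g⁻¹)⁻¹ =
            g * ((x : G) * (k : G) * (x : G)⁻¹) * g⁻¹ := by group
        rw [this, hx]
        group
      · intro a _ b _ hab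
        exact (conjAut L g hgL).injective hab
      · rintro k ⟨x, hx⟩
        refine ⟨(conjAut L g hgL).symm k, ⟨(conjAut N g hgN).symm x, ?_⟩,
          (conjAut L g hgL).apply_symm_apply k⟩
        rw [conjAut_symm_apply_coe, conjAut_symm_apply_coe, conjAut_symm_apply_coe, ← hx]
        group
    · intro k _
      rw [mapIrr_apply_apply, mapIrr_one]
  rw [e1, e2]
  exact key

omit [Fintype G] in
/-- block induction from two subgroups with the same elements -/
theorem ind_of_equiv (S T : Subgroup G) (φ : S ≃* T) (hφ : ∀ s : S, ((φ s : T) : G) = (s : G))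
    (b : Set (Cfsg.IrrCharacter S)) (B : Set (Cfsg.IrrCharacter G))
    (h : Cfsg.IsInducedBlock M S b B) : Cfsg.IsInducedBlock M T (mapSet φ b) B := by
  have hST : S = T := by
    ext x
    constructor
    · intro hx
      have := (φ ⟨x, hx⟩).2
      rwa [hφ] at this
    · intro hx
      have h1 := (φ.symm ⟨x, hx⟩).2
      have h2 := hφ (φ.symm ⟨x, hx⟩)
      rw [φ.apply_symm_apply] at h2
      rw [← h2] at h1
      exact h1
  subst hST
  have e : mapSet φ b = b := by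
    rw [mapSet_congr (β := MulEquiv.refl S) (fun x => Subtype.ext (hφ x)), mapSet_refl]
  rw [e]
  exact h

omit [Fintype G] in
/-- the normalizer of a subgroup of `H`, computed in `G` -/
theorem normalizer_map_subgroupOf (H : Subgroup G) (P : Subgroup H) :
    (Subgroup.normalizer ((P.map H.subtype : Subgroup G) : Set G)).subgroupOf H =
      Subgroup.normalizer (P : Set H) := by
  rw [Subgroup.subgroupOf_normalizer_eq (Subgroup.map_subtype_le P)]
  have : (P.map H.subtype).subgroupOf H = P :=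
    Subgroup.comap_map_eq_self_of_injective (Subgroup.subtype_injective H) P
  rw [this]

/-- the Brauer correspondent, in `N_G(P)`, of a block of `H ≥ N_G(P)` with defect group `P` -/
theorem exists_corr (hM : Cfsg.IsPModular p M) (H : Subgroup G)
    (c : Set (Cfsg.IrrCharacter H)) (hc : Cfsg.IsPBlock M c) (P : Subgroup H)
    (hP : Cfsg.IsDefectGroup p M c P)
    (hKH : Subgroup.normalizer ((P.map H.subtype : Subgroup G) : Set G) ≤ H) :
    ∃ β : Set (Cfsg.IrrCharacter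
        (Subgroup.normalizer ((P.map H.subtype : Subgroup G) : Set G))),
      Cfsg.IsPBlock M β ∧
      Cfsg.IsDefectGroup p M β ((P.map H.subtype).subgroupOf
        (Subgroup.normalizer ((P.map H.subtype : Subgroup G) : Set G))) ∧
      Cfsg.IsInducedBlock M
        ((Subgroup.normalizer ((P.map H.subtype : Subgroup G) : Set G)).subgroupOf H)
        (pullSet hKH β) c := by
  classical
  have hMp := isPrime_of_isPModular hM
  haveI : Fintype H := Fintype.ofFinite _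
  obtain ⟨β0, hβ0⟩ := exists_isInducedBlock_normalizer hM c hc P hP
  have hD0 := (isDefectGroup_of_isInducedBlock_normalizer hM c hc P hP β0 hβ0).1
  have hEq := normalizer_map_subgroupOf H P
  have hi1 := ind_of_equiv (Subgroup.normalizer (P : Set H))
    ((Subgroup.normalizer ((P.map H.subtype : Subgroup G) : Set G)).subgroupOf H)
    (MulEquiv.subgroupCongr hEq.symm) (fun _ => rfl) β0 c hβ0
  have hD1 := isDefectGroup_mapSet (M := M) (MulEquiv.subgroupCongr hEq.symm) hD0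
  have hD2 := isDefectGroup_mapSet (M := M) (Subgroup.subgroupOfEquivOfLe hKH) hD1
  refine ⟨mapSet (Subgroup.subgroupOfEquivOfLe hKH)
    (mapSet (MulEquiv.subgroupCongr hEq.symm) β0),
    isPBlock_mapSet hMp _ (isPBlock_mapSet hMp _ hβ0.1), ?_, ?_⟩
  · have e : (P.map H.subtype).subgroupOf
        (Subgroup.normalizer ((P.map H.subtype : Subgroup G) : Set G)) =
        (((P.subgroupOf (Subgroup.normalizer (P : Set H))).map
          (MulEquiv.subgroupCongr hEq.symm).toMonoidHom).map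
          (Subgroup.subgroupOfEquivOfLe hKH).toMonoidHom) := by
      ext y
      constructor
      · intro hy
        rw [Subgroup.mem_subgroupOf] at hy
        obtain ⟨z, hz, hzy⟩ := hy
        refine ⟨(MulEquiv.subgroupCongr hEq.symm) ⟨z, Subgroup.le_normalizer hz⟩,
          ⟨⟨z, Subgroup.le_normalizer hz⟩, ?_, rfl⟩, ?_⟩
        · show (⟨z, Subgroup.le_normalizer hz⟩ : Subgroup.normalizer (P : Set H)) ∈
            P.subgroupOf (Subgroup.normalizer (P : Set H))
          rw [Subgroup.mem_subgroupOf]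
          exact hz
        · apply Subtype.ext
          exact hzy
      · rintro ⟨_, ⟨a, ha, rfl⟩, rfl⟩
        have ha' : (a : H) ∈ P := ha
        rw [Subgroup.mem_subgroupOf]
        exact ⟨(a : H), ha', rfl⟩
    rw [e]
    exact hD2
  · unfold pullSet
    rw [mapSet_symm_mapSet]
    exact hi1

/-- a block of `H ≥ N_G(P)` with defect group `P` induces a block with defect group `P` -/
theorem defect_of_normalizer_le (hM : Cfsg.IsPModular p M) (H : Subgroup G)
    (c : Set (Cfsg.IrrCharacter H)) (hc : Cfsg.IsPBlock M c) (P : Subgroup H)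
    (hP : Cfsg.IsDefectGroup p M c P)
    (hKH : Subgroup.normalizer ((P.map H.subtype : Subgroup G) : Set G) ≤ H)
    (B : Set (Cfsg.IrrCharacter G)) (hind : Cfsg.IsInducedBlock M H c B) :
    Cfsg.IsDefectGroup p M B (P.map H.subtype) := by
  have hMp := isPrime_of_isPModular hM
  haveI : Fintype H := Fintype.ofFinite _
  obtain ⟨β, hβ, hDβ, hβc⟩ := exists_corr hM H c hc P hP hKH
  have h1 := Cfsg.Agent.Lib.Helper78.efm_trans hMp hKH β c B hβc hind
  exact firstMain_i hM (P.map H.subtype) ((isPGroup_of_isDefectGroup hP).map _) β hβ hDβ B h1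

/-- two blocks of `H ≥ N_G(P)` with defect group `P` inducing the same block are equal -/
theorem unique_of_normalizer_le (hM : Cfsg.IsPModular p M) (H : Subgroup G)
    (c₁ c₂ : Set (Cfsg.IrrCharacter H)) (hc₁ : Cfsg.IsPBlock M c₁) (hc₂ : Cfsg.IsPBlock M c₂)
    (P : Subgroup H) (hP₁ : Cfsg.IsDefectGroup p M c₁ P) (hP₂ : Cfsg.IsDefectGroup p M c₂ P)
    (hKH : Subgroup.normalizer ((P.map H.subtype : Subgroup G) : Set G) ≤ H)
    (B : Set (Cfsg.IrrCharacter G)) (h₁ : Cfsg.IsInducedBlock M H c₁ B)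
    (h₂ : Cfsg.IsInducedBlock M H c₂ B) : c₁ = c₂ := by
  have hMp := isPrime_of_isPModular hM
  haveI : Fintype H := Fintype.ofFinite _
  obtain ⟨β₁, hβ₁, hD₁, hi₁⟩ := exists_corr hM H c₁ hc₁ P hP₁ hKH
  obtain ⟨β₂, hβ₂, hD₂, hi₂⟩ := exists_corr hM H c₂ hc₂ P hP₂ hKH
  have e := firstMain_unique hM (P.map H.subtype) ((isPGroup_of_isDefectGroup hP₁).map _) B
    h₁.2.1 β₁ β₂ hβ₁ hD₁ (Cfsg.Agent.Lib.Helper78.efm_trans hMp hKH β₁ c₁ B hi₁ h₁)
    (Cfsg.Agent.Lib.Helper78.efm_trans hMp hKH β₂ c₂ B hi₂ h₂)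
  rw [e] at hi₂
  exact Cfsg.Agent.Lib.Helper78.efm_unique hMp hi₁ hi₂


/-- uniqueness of the Brauer correspondent, for induction inside a subgroup -/
theorem unique_corr_in (hM : Cfsg.IsPModular p M) (N : Subgroup G) [Fintype N] (Q : Subgroup G)
    (hQ : IsPGroup p Q) (hQN : Q ≤ N) (L : Subgroup G)
    (hL : L = Subgroup.normalizer (Q : Set G) ⊓ N)
    (d : Set (Cfsg.IrrCharacter N)) (hd : Cfsg.IsPBlock M d)
    (e e' : Set (Cfsg.IrrCharacter L))
    (heQ : Cfsg.IsDefectGroup p M e (Q.subgroupOf L))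
    (h1 : Cfsg.IsInducedBlockIn M N L e d)
    (h2 : Cfsg.IsInducedBlockIn M N L e' d) : e' = e := by
  classical
  subst hL
  have hMp := isPrime_of_isPModular hM
  have hLN : Subgroup.normalizer (Q : Set G) ⊓ N ≤ N := inf_le_right
  have hEq : (Subgroup.normalizer (Q : Set G) ⊓ N).subgroupOf N =
      Subgroup.normalizer ((Q.subgroupOf N : Subgroup N) : Set N) := by
    rw [Subgroup.inf_subgroupOf_right, Subgroup.subgroupOf_normalizer_eq hQN]
  have key : ∀ e₀ : Set (Cfsg.IrrCharacter ↥(Subgroup.normalizer (Q : Set G) ⊓ N)),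
      Cfsg.IsInducedBlockIn M N (Subgroup.normalizer (Q : Set G) ⊓ N) e₀ d →
      Cfsg.IsInducedBlock M (Subgroup.normalizer ((Q.subgroupOf N : Subgroup N) : Set N))
        (mapSet (MulEquiv.subgroupCongr hEq) (pullSet hLN e₀)) d := by
    intro e₀ h
    have h3 := (isInducedBlockIn_iff hMp N ((Subgroup.normalizer (Q : Set G) ⊓ N).subgroupOf N)
      (Subgroup.normalizer (Q : Set G) ⊓ N) (Subgroup.subgroupOfEquivOfLe hLN) (fun _ => rfl)
      (pullSet hLN e₀) d).mp (by unfold pullSet; rw [mapSet_mapSet_symm]; exact h)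
    exact ind_of_equiv _ _ (MulEquiv.subgroupCongr hEq) (fun _ => rfl) _ d h3
  have hD : Cfsg.IsDefectGroup p M (mapSet (MulEquiv.subgroupCongr hEq) (pullSet hLN e))
      ((Q.subgroupOf N).subgroupOf
        (Subgroup.normalizer ((Q.subgroupOf N : Subgroup N) : Set N))) := by
    have h3 := isDefectGroup_mapSet (M := M) (MulEquiv.subgroupCongr hEq)
      (isDefectGroup_pullSet hLN heQ)
    have e1 : (Q.subgroupOf N).subgroupOf
        (Subgroup.normalizer ((Q.subgroupOf N : Subgroup N) : Set N)) =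
        ((Q.subgroupOf (Subgroup.normalizer (Q : Set G) ⊓ N)).map
          (Subgroup.subgroupOfEquivOfLe hLN).symm.toMonoidHom).map
          (MulEquiv.subgroupCongr hEq).toMonoidHom := by
      ext y
      constructor
      · intro hy
        have hy' : ((y : N) : G) ∈ Q := hy
        have hyL : ((y : N) : G) ∈ Subgroup.normalizer (Q : Set G) ⊓ N :=
          ⟨Subgroup.le_normalizer hy', (y : N).2⟩
        refine ⟨(Subgroup.subgroupOfEquivOfLe hLN).symm ⟨((y : N) : G), hyL⟩,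
          ⟨⟨((y : N) : G), hyL⟩, hy', rfl⟩, ?_⟩
        apply Subtype.ext
        apply Subtype.ext
        rfl
      · rintro ⟨_, ⟨a, ha, rfl⟩, rfl⟩
        have ha' : (a : G) ∈ Q := ha
        exact ha'
    rw [e1]
    exact h3
  have e2 := firstMain_unique hM (Q.subgroupOf N) hQ.comap_subtype d hd _ _ (key e h1).1 hD
    (key e h1) (key e' h2)
  have e3 := congrArg (mapSet (MulEquiv.subgroupCongr hEq).symm) e2
  rw [mapSet_symm_mapSet, mapSet_symm_mapSet] at e3
  have e4 := congrArg (mapSet (Subgroup.subgroupOfEquivOfLe hLN)) e3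
  unfold pullSet at e4
  rw [mapSet_mapSet_symm, mapSet_mapSet_symm] at e4
  exact e4

omit [Fintype G] in
/-- the normalizer of `P` normalizes `P ∩ N` -/
theorem normalizer_le_normalizer_inf (P N : Subgroup G) [hN : N.Normal] :
    Subgroup.normalizer (P : Set G) ≤ Subgroup.normalizer ((P ⊓ N : Subgroup G) : Set G) := by
  intro x hx
  rw [Subgroup.mem_normalizer_iff] at hx ⊢
  intro y
  rw [Subgroup.mem_inf, Subgroup.mem_inf, ← hx y]
  constructor
  · rintro ⟨h1, h2⟩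
    exact ⟨h1, hN.conj_mem y h2 x⟩
  · rintro ⟨h1, h2⟩
    refine ⟨h1, ?_⟩
    have := hN.conj_mem _ h2 x⁻¹
    have e : x⁻¹ * (x * y * x⁻¹) * x⁻¹⁻¹ = y := by group
    rwa [e] at this

omit [Fintype G] in
/-- multiplicities in the restriction of a class function of `H` are invariant under `H` -/
theorem classInner_res_conjAut {L H : Subgroup G} [Fintype L] (hLH : L ≤ H) (ψ : H → ℂ)
    (hψ : Cfsg.IsClassFunction H ψ) (u : G) (huH : u ∈ H)
    (hu : u ∈ Subgroup.normalizer (L : Set G)) (ξ : Cfsg.IrrCharacter L) :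
    Cfsg.classInner (fun l : L => ψ ⟨(l : G), hLH l.2⟩) (mapIrr (conjAut L u hu) ξ : L → ℂ) =
      Cfsg.classInner (fun l : L => ψ ⟨(l : G), hLH l.2⟩) (ξ : L → ℂ) := by
  unfold Cfsg.classInner
  congr 1
  symm
  apply Fintype.sum_equiv (conjAut L u hu).toEquiv
  intro l
  show ψ ⟨(l : G), _⟩ * conj ((ξ : L → ℂ) l) = ψ ⟨((conjAut L u hu l : L) : G), _⟩ *
    conj ((mapIrr (conjAut L u hu) ξ : L → ℂ) (conjAut L u hu l))
  rw [mapIrr_apply_apply]
  congr 1
  have := hψ ⟨(l : G), hLH l.2⟩ ⟨u, huH⟩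
  rw [← this]
  congr 1

omit [Fintype G] in
/-- conjugating twice by elements whose product lies in `N` fixes the characters of `N` -/
theorem mapIrr_conjAut_conjAut (N : Subgroup G) (u v : G)
    (hu : u ∈ Subgroup.normalizer (N : Set G)) (hv : v ∈ Subgroup.normalizer (N : Set G))
    (huv : u * v ∈ N) (θ : Cfsg.IrrCharacter N) :
    mapIrr (conjAut N u hu) (mapIrr (conjAut N v hv) θ) = θ := by
  apply Subtype.ext
  funext n
  rw [mapIrr_apply, mapIrr_apply]
  have h1 := irrCharacter_conj_eq θ (⟨u * v, huv⟩⁻¹ : N) n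
  rw [← h1]
  refine congrArg (θ : N → ℂ) (Subtype.ext ?_)
  show v⁻¹ * (u⁻¹ * (n : G) * u) * v = (u * v)⁻¹ * (n : G) * ((u * v)⁻¹)⁻¹
  group


omit [Fintype G] in
/-- `H ∩ N` is normal in `H` -/
theorem normal_sub (N : Subgroup G) [hN : N.Normal] (H L : Subgroup G) (hLN : L ≤ N)
    (hHN : ∀ x ∈ H, x ∈ N → x ∈ L) : (L.subgroupOf H).Normal := by
  constructor
  intro l hl h
  rw [Subgroup.mem_subgroupOf] at hl ⊢
  have e1 : ((h * l * h⁻¹ : H) : G) = (h : G) * (l : G) * (h : G)⁻¹ := by simp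
  rw [e1]
  exact hHN _ (H.mul_mem (H.mul_mem h.2 l.2) (H.inv_mem h.2)) (hN.conj_mem _ (hLN hl) _)

/-- a block with defect group `P` is induced from a block with defect group `P` of any
subgroup containing `P C_G(P)` -/
theorem exists_mid_ind (hM : Cfsg.IsPModular p M) (B : Set (Cfsg.IrrCharacter G))
    (hB : Cfsg.IsPBlock M B) (P : Subgroup G) (hP : Cfsg.IsDefectGroup p M B P)
    (H : Subgroup G) (hLH : P ⊔ Subgroup.centralizer (P : Set G) ≤ H) :
    ∃ c : Set (Cfsg.IrrCharacter H), Cfsg.IsInducedBlock M H c B ∧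
      Cfsg.IsDefectGroup p M c (P.subgroupOf H) := by
  classical
  have hMp := isPrime_of_isPModular hM
  have hPp : IsPGroup p P := IsPGroup.of_card (card_isDefectGroup hM B hB P hP)
  obtain ⟨⟨bP, hbP, hind⟩, -⟩ := Cfsg.Agent.Lib.Helper78.efm_main hM B hB P hP
  have hPL : P ≤ P ⊔ Subgroup.centralizer (P : Set G) := le_sup_left
  have hCL : Subgroup.centralizer (P : Set G) ≤ P ⊔ Subgroup.centralizer (P : Set G) :=
    le_sup_right
  have hLN : P ⊔ Subgroup.centralizer (P : Set G) ≤ Subgroup.normalizer (P : Set G) :=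
    sup_le Subgroup.le_normalizer (Subgroup.centralizer_le_normalizer _)
  have hPH : P ≤ H := hPL.trans hLH
  haveI : Fintype H := Fintype.ofFinite _
  have hPHp : IsPGroup p (P.subgroupOf H) := hPp.comap_subtype
  have hc1 : P.subgroupOf H ≤ (P ⊔ Subgroup.centralizer (P : Set G)).subgroupOf H :=
    fun x hx => hPL hx
  have hc2 : Subgroup.centralizer ((P.subgroupOf H : Subgroup H) : Set H) ≤
      (P ⊔ Subgroup.centralizer (P : Set G)).subgroupOf H := by
    intro x hx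
    rw [Subgroup.mem_subgroupOf]
    apply hCL
    rw [Subgroup.mem_centralizer_iff]
    intro y hy
    have := Subgroup.mem_centralizer_iff.mp hx ⟨y, hPH hy⟩ (by
      show (⟨y, hPH hy⟩ : H) ∈ P.subgroupOf H
      rw [Subgroup.mem_subgroupOf]; exact hy)
    exact congrArg Subtype.val this
  have hc3 : (P ⊔ Subgroup.centralizer (P : Set G)).subgroupOf H ≤
      Subgroup.normalizer ((P.subgroupOf H : Subgroup H) : Set H) := by
    intro x hx
    have hxn : (x : G) ∈ Subgroup.normalizer (P : Set G) := hLN hx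
    rw [Subgroup.mem_normalizer_iff] at hxn ⊢
    intro y
    rw [Subgroup.mem_subgroupOf, Subgroup.mem_subgroupOf]
    exact hxn (y : G)
  obtain ⟨Bt, h1⟩ := exists_isInducedBlock_of_isPBlock hM (P.subgroupOf H)
    ((P ⊔ Subgroup.centralizer (P : Set G)).subgroupOf H) hPHp hc1 hc2 hc3
    (pullSet hLH bP) (isPBlock_pullSet hMp hLH hind.1)
  have h2 := ind_mid hMp hLH bP Bt B h1 hind
  exact ⟨Bt, h2, mid_defect hM hLH bP Bt B h1 h2 P hPL hbP hP⟩

/-- Harris–Knörr, surjectivity: a block of `G` covering `d` is induced from a block of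
`N_G(Q)` covering the Brauer correspondent `e` of `d` -/
theorem hk_surj (hM : Cfsg.IsPModular p M) (hcore : CoreHyp.{u} p M) (N : Subgroup G)
    [hN : N.Normal] [Fintype N] (Q : Subgroup G) (hQ : IsPGroup p Q) (hQN : Q ≤ N)
    (H L : Subgroup G) (hH : H = Subgroup.normalizer (Q : Set G)) (hL : L = H ⊓ N) [Fintype L]
    (hLH : L ≤ H) (d : Set (Cfsg.IrrCharacter N)) (hd : Cfsg.IsPBlock M d)
    (hdQ : Cfsg.IsDefectGroup p M d (Q.subgroupOf N))
    (e : Set (Cfsg.IrrCharacter L)) (heQ : Cfsg.IsDefectGroup p M e (Q.subgroupOf L))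
    (hed : Cfsg.IsInducedBlockIn M N L e d)
    (B : Set (Cfsg.IrrCharacter G)) (hB : Cfsg.IsPBlock M B)
    (hcov : ∃ χ ∈ B, ∃ θ ∈ d, Cfsg.classInner (fun n : N => (χ : G → ℂ) n) (θ : N → ℂ) ≠ 0) :
    ∃ c : Set (Cfsg.IrrCharacter H), Cfsg.IsInducedBlock M H c B ∧
      ∃ ψ ∈ c, ∃ ξ ∈ e,
        Cfsg.classInner (fun l : L => (ψ : H → ℂ) ⟨(l : G), hLH l.2⟩) (ξ : L → ℂ) ≠ 0 := by
  classical
  have hMp := isPrime_of_isPModular hM
  haveI : Fintype H := Fintype.ofFinite _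
  have hLN : L ≤ N := by rw [hL]; exact inf_le_right
  have hHN : ∀ x ∈ H, x ∈ N → x ∈ L := by
    intro x h1 h2
    rw [hL]
    exact ⟨h1, h2⟩
  have hQH : Q ≤ H := by rw [hH]; exact Subgroup.le_normalizer
  have hQL : Q ≤ L := by rw [hL]; exact le_inf hQH hQN
  have hL' : L = Subgroup.normalizer (Q : Set G) ⊓ N := by rw [hL, hH]
  have hnN : ∀ g : G, g ∈ Subgroup.normalizer (N : Set G) := by
    intro g
    rw [Subgroup.normalizer_eq_top_iff.mpr hN]
    exact Subgroup.mem_top g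
  have hnL : ∀ g ∈ H, g ∈ Subgroup.normalizer (L : Set G) := by
    intro g hg
    rw [hL]
    exact normalizer_le_normalizer_inf H N (Subgroup.le_normalizer hg)
  -- Knörr's theorem
  obtain ⟨P, hP, hPQ⟩ := knorr_of_core hM hcore N d hd Q hQN hdQ B hB hcov
  have hPH : P ≤ H := by
    rw [hH, ← hPQ]
    exact Subgroup.le_normalizer.trans (normalizer_le_normalizer_inf P N)
  have hQP : Q ≤ P := by rw [← hPQ]; exact inf_le_left
  have hCPH : Subgroup.centralizer (P : Set G) ≤ H := by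
    rw [hH]
    exact (Subgroup.centralizer_le hQP).trans (Subgroup.centralizer_le_normalizer _)
  obtain ⟨c, h2, -⟩ := exists_mid_ind hM B hB P hP H (sup_le hPH hCPH)
  have hc := h2.1
  obtain ⟨ψ, hψ⟩ := IsPBlock.nonempty hMp hc
  -- a constituent on `L`
  haveI : Fintype (L.subgroupOf H) := Fintype.ofFinite _
  haveI hLn : (L.subgroupOf H).Normal := normal_sub N H L hLN hHN
  obtain ⟨θ0, hθ0⟩ := exists_irr_under (L.subgroupOf H) ψ
  obtain ⟨ξ', hξ'⟩ : ∃ ξ' : Cfsg.IrrCharacter L,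
      ξ' = mapIrr (Subgroup.subgroupOfEquivOfLe hLH) θ0 := ⟨_, rfl⟩
  have hne' : Cfsg.classInner (fun l : L => (ψ : H → ℂ) ⟨(l : G), hLH l.2⟩) (ξ' : L → ℂ) ≠ 0 := by
    rw [← classInner_sub hLH (ψ : H → ℂ) _]
    have e1 : (fun k : L.subgroupOf H => (ξ' : L → ℂ) (Subgroup.subgroupOfEquivOfLe hLH k)) =
        (θ0 : L.subgroupOf H → ℂ) := by
      funext k
      rw [hξ']
      exact mapIrr_apply_apply _ _ _
    rw [e1]
    exact hθ0
  have he' : Cfsg.IsPBlock M (Cfsg.blockOf M (ξ' : L → ℂ)) := isPBlock_blockOf ξ'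
  have hξ'e := mem_blockOf_self hMp ξ'
  -- the induced block of `N`
  have hEq : L.subgroupOf N = Subgroup.normalizer ((Q.subgroupOf N : Subgroup N) : Set N) := by
    rw [hL', Subgroup.inf_subgroupOf_right, Subgroup.subgroupOf_normalizer_eq hQN]
  obtain ⟨d', hd'ind⟩ := exists_isInducedBlock_of_isPBlock hM (Q.subgroupOf N) (L.subgroupOf N)
    hQ.comap_subtype (fun x hx => hQL hx)
    (by rw [hEq]; exact Subgroup.centralizer_le_normalizer _) (by rw [hEq])
    (pullSet hLN (Cfsg.blockOf M (ξ' : L → ℂ))) (isPBlock_pullSet hMp hLN he')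
  have hed' : Cfsg.IsInducedBlockIn M N L (Cfsg.blockOf M (ξ' : L → ℂ)) d' := by
    have h3 := (isInducedBlockIn_iff hMp N (L.subgroupOf N) L (Subgroup.subgroupOfEquivOfLe hLN)
      (fun _ => rfl) (pullSet hLN (Cfsg.blockOf M (ξ' : L → ℂ))) d').mpr hd'ind
    unfold pullSet at h3
    rwa [mapSet_mapSet_symm] at h3
  have hd' := hd'ind.2.1
  obtain ⟨χ', hχ', θ2, hθ2, hne2⟩ := kl hMp N H L hLH hLN hHN c B h2 _ d' hed'
    ⟨ψ, hψ, ξ', hξ'e, hne'⟩
  -- `d'` is conjugate to `d`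
  obtain ⟨χ, hχ, θ, hθ, hcon⟩ := hcov
  obtain ⟨g, θ', hθ', hconj⟩ := Cfsg.Agent.S0964.result p M hM N B hB d hd χ hχ θ hθ hcon
    χ' hχ' θ2 hne2
  have hg' := hnN g⁻¹
  have hθ2eq : θ2 = mapIrr (conjAut N g⁻¹ hg') θ' := by
    apply Subtype.ext
    funext n
    rw [hconj n, mapIrr_apply]
    refine congrArg (θ' : N → ℂ) (Subtype.ext ?_)
    rw [conjAut_symm_apply_coe, inv_inv]
  have hd'eq : d' = mapSet (conjAut N g⁻¹ hg') d := by
    rw [IsPBlock.eq_blockOf hMp hd' hθ2, IsPBlock.eq_blockOf hMp hd hθ', mapSet_blockOf hMp,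
      hθ2eq]
  -- defect groups
  obtain ⟨D', hD'⟩ := exists_isDefectGroup p hMp _ he'
  haveI : (Q.subgroupOf L).Normal :=
    (Subgroup.normal_subgroupOf_iff_le_normalizer hQL).mpr (by rw [← hH]; exact hLH)
  have hQD : Q.subgroupOf L ≤ D' :=
    normal_pgroup_le_of_isDefectGroup hM (Q.subgroupOf L) hQ.comap_subtype he' hD'
  obtain ⟨E, hE, hDE⟩ := Cfsg.Agent.S0917.result p M hM (L.subgroupOf N) (pullSet hLN _)
    hd'ind.1 d' hd' hd'ind _ (isDefectGroup_pullSet hLN hD')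
  have hQE : Q.subgroupOf N ≤ E := by
    intro x hx
    apply hDE
    have hxL : (x : G) ∈ L := hQL hx
    refine ⟨(Subgroup.subgroupOfEquivOfLe hLN).symm ⟨(x : G), hxL⟩,
      ⟨⟨(x : G), hxL⟩, hQD ?_, rfl⟩, ?_⟩
    · show (⟨(x : G), hxL⟩ : L) ∈ Q.subgroupOf L
      exact hx
    · apply Subtype.ext
      rfl
  have hdα := isDefectGroup_mapSet (M := M) (conjAut N g⁻¹ hg') hdQ
  rw [← hd'eq] at hdα
  have hcard : Nat.card E = Nat.card (Q.subgroupOf N) := by
    rw [card_eq_of_isDefectGroup hM hd' hE hdα]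
    exact Subgroup.card_map_of_injective (conjAut N g⁻¹ hg').injective
  have hEQ : Q.subgroupOf N = E := Subgroup.eq_of_le_of_card_ge hQE (le_of_eq hcard)
  rw [← hEQ] at hE
  obtain ⟨x, hx⟩ := isDefectGroup_conj hM d' hd' hdα hE
  have hh0 : (x : G) * g⁻¹ ∈ H := by
    rw [hH, Subgroup.mem_normalizer_iff]
    intro y
    constructor
    · intro hy
      have h5 : (MulAut.conj x).toMonoidHom ((conjAut N g⁻¹ hg') ⟨y, hQN hy⟩) ∈
          Q.subgroupOf N := by
        rw [hx]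
        exact ⟨_, ⟨_, hy, rfl⟩, rfl⟩
      have h6 : (((MulAut.conj x).toMonoidHom ((conjAut N g⁻¹ hg') ⟨y, hQN hy⟩) : N) : G) ∈ Q :=
        h5
      have e : (x : G) * g⁻¹ * y * ((x : G) * g⁻¹)⁻¹ =
          (x : G) * (g⁻¹ * y * g⁻¹⁻¹) * (x : G)⁻¹ := by group
      rw [e]
      exact h6
    · intro hy
      have hyN : (x : G) * g⁻¹ * y * ((x : G) * g⁻¹)⁻¹ ∈ N := hQN hy
      have h5 : (⟨_, hyN⟩ : N) ∈ Q.subgroupOf N := hy
      rw [hx] at h5
      obtain ⟨_, ⟨q, hq, rfl⟩, hqe⟩ := h5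
      have h8 : (x : G) * (g⁻¹ * (q : G) * g⁻¹⁻¹) * (x : G)⁻¹ =
          (x : G) * g⁻¹ * y * ((x : G) * g⁻¹)⁻¹ := congrArg Subtype.val hqe
      have h9 : ((x : G) * g⁻¹)⁻¹ * ((x : G) * (g⁻¹ * (q : G) * g⁻¹⁻¹) * (x : G)⁻¹) *
          ((x : G) * g⁻¹) = ((x : G) * g⁻¹)⁻¹ * ((x : G) * g⁻¹ * y * ((x : G) * g⁻¹)⁻¹) *
          ((x : G) * g⁻¹) := by rw [h8]
      have e1 : ((x : G) * g⁻¹)⁻¹ * ((x : G) * (g⁻¹ * (q : G) * g⁻¹⁻¹) * (x : G)⁻¹) *
          ((x : G) * g⁻¹) = (q : G) := by group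
      have e2 : ((x : G) * g⁻¹)⁻¹ * ((x : G) * g⁻¹ * y * ((x : G) * g⁻¹)⁻¹) *
          ((x : G) * g⁻¹) = y := by group
      rw [e1, e2] at h9
      rw [← h9]
      exact hq
  -- conjugate back
  obtain ⟨h0, hh0def⟩ : ∃ h0 : G, h0 = (x : G) * g⁻¹ := ⟨_, rfl⟩
  rw [← hh0def] at hh0
  have hh0' : h0⁻¹ ∈ H := H.inv_mem hh0
  have hed'' := inducedIn_conj hMp N L h0⁻¹ (hnN h0⁻¹) (hnL h0⁻¹ hh0') _ d' hed'
  have huv : h0⁻¹ * g⁻¹ ∈ N := by
    have e : h0⁻¹ * g⁻¹ = g * (x : G)⁻¹ * g⁻¹ := by rw [hh0def]; group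
    rw [e]
    exact hN.conj_mem _ (N.inv_mem x.2) g
  have hdd : mapSet (conjAut N h0⁻¹ (hnN h0⁻¹)) d' = d := by
    rw [hd'eq]
    ext θ1
    constructor
    · rintro ⟨_, ⟨θ3, hθ3, rfl⟩, rfl⟩
      rw [mapIrr_conjAut_conjAut N h0⁻¹ g⁻¹ _ _ huv θ3]
      exact hθ3
    · intro hθ1
      exact ⟨_, ⟨θ1, hθ1, rfl⟩, mapIrr_conjAut_conjAut N h0⁻¹ g⁻¹ _ _ huv θ1⟩
  rw [hdd] at hed''
  have hef := unique_corr_in hM N Q hQ hQN L hL' d hd e _ heQ hed hed''
  have he'eq : Cfsg.blockOf M (ξ' : L → ℂ) = mapSet (conjAut L h0 (hnL h0 hh0)) e := by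
    rw [← hef]
    exact (conjSet_conjSet_inv L h0 (hnL h0 hh0) (hnL h0⁻¹ hh0') _).symm
  rw [he'eq] at hξ'e
  obtain ⟨ξ, hξ, hξeq⟩ := hξ'e
  refine ⟨c, h2, ψ, hψ, ξ, hξ, ?_⟩
  rw [← hξeq] at hne'
  rwa [classInner_res_conjAut hLH (ψ : H → ℂ) (fun a b => irrCharacter_conj_eq ψ b a) h0 hh0
    (hnL h0 hh0) ξ] at hne'


/-- Harris–Knörr, injectivity: two blocks of `N_G(Q)` covering `e` and inducing the same block
of `G` are equal -/
theorem hk_inj (hM : Cfsg.IsPModular p M) (hcore : CoreHyp.{u} p M) (N : Subgroup G)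
    [hN : N.Normal] [Fintype N] (Q : Subgroup G) (hQN : Q ≤ N)
    (H L : Subgroup G) (hH : H = Subgroup.normalizer (Q : Set G)) (hL : L = H ⊓ N) [Fintype L]
    (hLH : L ≤ H) (e : Set (Cfsg.IrrCharacter L)) (he : Cfsg.IsPBlock M e)
    (heQ : Cfsg.IsDefectGroup p M e (Q.subgroupOf L))
    (B : Set (Cfsg.IrrCharacter G)) (hB : Cfsg.IsPBlock M B)
    (c₁ c₂ : Set (Cfsg.IrrCharacter H)) (h₁ : Cfsg.IsInducedBlock M H c₁ B)
    (h₂ : Cfsg.IsInducedBlock M H c₂ B)
    (hcov₁ : ∃ ψ ∈ c₁, ∃ ξ ∈ e,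
      Cfsg.classInner (fun l : L => (ψ : H → ℂ) ⟨(l : G), hLH l.2⟩) (ξ : L → ℂ) ≠ 0)
    (hcov₂ : ∃ ψ ∈ c₂, ∃ ξ ∈ e,
      Cfsg.classInner (fun l : L => (ψ : H → ℂ) ⟨(l : G), hLH l.2⟩) (ξ : L → ℂ) ≠ 0) :
    c₁ = c₂ := by
  classical
  have hMp := isPrime_of_isPModular hM
  haveI : Fintype H := Fintype.ofFinite _
  haveI : Fintype (L.subgroupOf H) := Fintype.ofFinite _
  have hLN : L ≤ N := by rw [hL]; exact inf_le_right
  have hHN : ∀ x ∈ H, x ∈ N → x ∈ L := by
    intro x h1 h2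
    rw [hL]
    exact ⟨h1, h2⟩
  have hQH : Q ≤ H := by rw [hH]; exact Subgroup.le_normalizer
  have hQL : Q ≤ L := by rw [hL]; exact le_inf hQH hQN
  haveI hLn : (L.subgroupOf H).Normal := normal_sub N H L hLN hHN
  have hQ' : Cfsg.IsDefectGroup p M (pullSet hLH e)
      ((Q.subgroupOf H).subgroupOf (L.subgroupOf H)) := by
    have h3 := isDefectGroup_pullSet (M := M) hLH heQ
    have e1 : (Q.subgroupOf H).subgroupOf (L.subgroupOf H) =
        (Q.subgroupOf L).map (Subgroup.subgroupOfEquivOfLe hLH).symm.toMonoidHom := by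
      ext y
      constructor
      · intro hy
        have hy' : ((y : H) : G) ∈ Q := hy
        refine ⟨⟨((y : H) : G), y.2⟩, hy', ?_⟩
        apply Subtype.ext
        apply Subtype.ext
        rfl
      · rintro ⟨a, ha, rfl⟩
        have ha' : (a : G) ∈ Q := ha
        exact ha'
    rw [e1]
    exact h3
  have key : ∀ c : Set (Cfsg.IrrCharacter H), Cfsg.IsInducedBlock M H c B →
      (∃ ψ ∈ c, ∃ ξ ∈ e,
        Cfsg.classInner (fun l : L => (ψ : H → ℂ) ⟨(l : G), hLH l.2⟩) (ξ : L → ℂ) ≠ 0) →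
      ∃ P : Subgroup H, Cfsg.IsDefectGroup p M c P ∧ (P.map H.subtype) ⊓ N = Q := by
    rintro c hc ⟨ψ, hψ, ξ, hξ, hne⟩
    have hcov' : ∃ χ ∈ c, ∃ θ ∈ pullSet hLH e,
        Cfsg.classInner (fun n : L.subgroupOf H => (χ : H → ℂ) n)
          (θ : L.subgroupOf H → ℂ) ≠ 0 := by
      refine ⟨ψ, hψ, mapIrr (Subgroup.subgroupOfEquivOfLe hLH).symm ξ, ⟨ξ, hξ, rfl⟩, ?_⟩
      rw [← classInner_sub hLH (ψ : H → ℂ) (ξ : L → ℂ)] at hne
      exact hne
    obtain ⟨P, hP, hPL⟩ := knorr_of_core (G := H) hM hcore (L.subgroupOf H) (pullSet hLH e)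
      (isPBlock_pullSet hMp hLH he) (Q.subgroupOf H) (fun x hx => hQL hx) hQ' c hc.1 hcov'
    refine ⟨P, hP, ?_⟩
    ext y
    constructor
    · rintro ⟨⟨w, hw, rfl⟩, hyN⟩
      have hwL : w ∈ L.subgroupOf H := hHN _ w.2 hyN
      have h3 : w ∈ P ⊓ L.subgroupOf H := ⟨hw, hwL⟩
      rw [hPL] at h3
      exact h3
    · intro hy
      have hyH : y ∈ H := hQH hy
      have h3 : (⟨y, hyH⟩ : H) ∈ Q.subgroupOf H := hy
      rw [← hPL] at h3
      exact ⟨⟨⟨y, hyH⟩, h3.1, rfl⟩, hQN hy⟩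
  obtain ⟨P₁, hP₁, hPQ₁⟩ := key c₁ h₁ hcov₁
  obtain ⟨P₂, hP₂, hPQ₂⟩ := key c₂ h₂ hcov₂
  have hK : ∀ P : Subgroup H, (P.map H.subtype) ⊓ N = Q →
      Subgroup.normalizer ((P.map H.subtype : Subgroup G) : Set G) ≤ H := by
    intro P hPQ
    have h3 := normalizer_le_normalizer_inf (P.map H.subtype) N
    rw [hPQ] at h3
    exact h3.trans hH.ge
  have hB₁ := defect_of_normalizer_le hM H c₁ h₁.1 P₁ hP₁ (hK P₁ hPQ₁) B h₁
  have hB₂ := defect_of_normalizer_le hM H c₂ h₂.1 P₂ hP₂ (hK P₂ hPQ₂) B h₂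
  obtain ⟨g, hg⟩ := isDefectGroup_conj hM B hB hB₁ hB₂
  have hgH : g ∈ H := by
    rw [hH, Subgroup.mem_normalizer_iff]
    intro y
    constructor
    · intro hy
      have hy1 : y ∈ (P₁.map H.subtype) ⊓ N := by rw [hPQ₁]; exact hy
      have h3 : g * y * g⁻¹ ∈ (P₂.map H.subtype) ⊓ N := by
        refine ⟨?_, hN.conj_mem y hy1.2 g⟩
        rw [hg]
        exact ⟨y, hy1.1, rfl⟩
      rw [hPQ₂] at h3
      exact h3
    · intro hy
      have hy2 : g * y * g⁻¹ ∈ (P₂.map H.subtype) ⊓ N := by rw [hPQ₂]; exact hy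
      have h3 := hy2.1
      rw [hg] at h3
      obtain ⟨w, hw, hwe⟩ := h3
      have hwe' : g * w * g⁻¹ = g * y * g⁻¹ := hwe
      have hwy : w = y := by
        have h4 : g⁻¹ * (g * w * g⁻¹) * g = g⁻¹ * (g * y * g⁻¹) * g := by rw [hwe']
        have e1 : g⁻¹ * (g * w * g⁻¹) * g = w := by group
        have e2 : g⁻¹ * (g * y * g⁻¹) * g = y := by group
        rw [e1, e2] at h4
        exact h4
      have hyN : y ∈ N := by
        have h5 := hN.conj_mem _ hy2.2 g⁻¹
        have e : g⁻¹ * (g * y * g⁻¹) * g⁻¹⁻¹ = y := by group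
        rwa [e] at h5
      have h6 : y ∈ (P₁.map H.subtype) ⊓ N := ⟨hwy ▸ hw, hyN⟩
      rw [hPQ₁] at h6
      exact h6
  have hP₂eq : P₂ = P₁.map (MulAut.conj (⟨g, hgH⟩ : H)).toMonoidHom := by
    ext z
    constructor
    · intro hz
      have h3 : (z : G) ∈ P₂.map H.subtype := ⟨z, hz, rfl⟩
      rw [hg] at h3
      obtain ⟨_, ⟨w, hw, rfl⟩, hwe⟩ := h3
      exact ⟨w, hw, Subtype.ext hwe⟩
    · rintro ⟨w, hw, rfl⟩
      have h3 : g * (w : G) * g⁻¹ ∈ P₂.map H.subtype := by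
        rw [hg]
        exact ⟨(w : G), ⟨w, hw, rfl⟩, rfl⟩
      obtain ⟨z, hz, hze⟩ := h3
      have h4 : z = (MulAut.conj (⟨g, hgH⟩ : H)).toMonoidHom w := Subtype.ext hze
      rw [← h4]
      exact hz
  have hP₁' : Cfsg.IsDefectGroup p M c₁ P₂ := by
    rw [hP₂eq]
    exact isDefectGroup_map_conj hP₁ _
  exact unique_of_normalizer_le hM H c₁ c₂ h₁.1 h₂.1 P₂ hP₁' hP₂ (hK P₂ hPQ₂) B h₁ h₂

/-- statement S4674 (Harris–Knörr), given the core case of Knörr's theorem -/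
theorem s4674_of_core (hM : Cfsg.IsPModular p M) (hcore : CoreHyp.{u} p M) (N : Subgroup G)
    [hN : N.Normal] [Fintype N] (Q : Subgroup G) (hQ : IsPGroup p Q) (hQN : Q ≤ N)
    [Fintype ↥(Subgroup.normalizer (Q : Set G) ⊓ N)] (d : Set (Cfsg.IrrCharacter N))
    (hd : Cfsg.IsPBlock M d) (hdQ : Cfsg.IsDefectGroup p M d (Q.subgroupOf N))
    (e : Set (Cfsg.IrrCharacter ↥(Subgroup.normalizer (Q : Set G) ⊓ N)))
    (he : Cfsg.IsPBlock M e)
    (heQ : Cfsg.IsDefectGroup p M e (Q.subgroupOf (Subgroup.normalizer (Q : Set G) ⊓ N)))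
    (hed : Cfsg.IsInducedBlockIn M N (Subgroup.normalizer (Q : Set G) ⊓ N) e d) :
    (∀ c : Set (Cfsg.IrrCharacter ↥(Subgroup.normalizer (Q : Set G))), Cfsg.IsPBlock M c → (∃ ψ ∈ c, ∃ ξ ∈ e, Cfsg.classInner (fun l : ↥(Subgroup.normalizer (Q : Set G) ⊓ N) => (ψ : ↥(Subgroup.normalizer (Q : Set G)) → ℂ) (Subgroup.inclusion inf_le_left l)) (ξ : ↥(Subgroup.normalizer (Q : Set G) ⊓ N) → ℂ) ≠ 0) → ∃! B : Set (Cfsg.IrrCharacter G), Cfsg.IsInducedBlock M (Subgroup.normalizer (Q : Set G)) c B ∧ (∃ χ ∈ B, ∃ θ ∈ d, Cfsg.classInner (fun n : N => (χ : G → ℂ) n) (θ : N → ℂ) ≠ 0)) ∧ (∀ B : Set (Cfsg.IrrCharacter G), Cfsg.IsPBlock M B → (∃ χ ∈ B, ∃ θ ∈ d, Cfsg.classInner (fun n : N => (χ : G → ℂ) n) (θ : N → ℂ) ≠ 0) → ∃! c : Set (Cfsg.IrrCharacter ↥(Subgroup.normalizer (Q : Set G))), (Cfsg.IsPBlock M c ∧ ∃ ψ ∈ c, ∃ ξ ∈ e, Cfsg.classInner (fun l : ↥(Subgroup.normalizer (Q : Set G) ⊓ N) => (ψ : ↥(Subgroup.normalizer (Q : Set G)) → ℂ) (Subgroup.inclusion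 inf_le_left l)) (ξ : ↥(Subgroup.normalizer (Q : Set G) ⊓ N) → ℂ) ≠ 0) ∧ Cfsg.IsInducedBlock M (Subgroup.normalizer (Q : Set G)) c B) := by
  classical
  have hMp := isPrime_of_isPModular hM
  have hLH : Subgroup.normalizer (Q : Set G) ⊓ N ≤ Subgroup.normalizer (Q : Set G) :=
    inf_le_left
  haveI : Fintype ↥(Subgroup.normalizer (Q : Set G)) := Fintype.ofFinite _
  constructor
  · intro c hc hcov
    obtain ⟨B, hB⟩ := exists_isInducedBlock_of_isPBlock hM Q (Subgroup.normalizer (Q : Set G)) hQ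
      Subgroup.le_normalizer (Subgroup.centralizer_le_normalizer _) le_rfl c hc
    refine ⟨B, ⟨hB, kl hMp N _ _ hLH inf_le_right (fun x h1 h2 => ⟨h1, h2⟩) c B hB e d hed
      hcov⟩, ?_⟩
    rintro B' ⟨hB', -⟩
    exact Cfsg.Agent.Lib.Helper78.efm_unique hMp hB' hB
  · intro B hB hcov
    obtain ⟨c, hc, hcovc⟩ := hk_surj hM hcore N Q hQ hQN _ _ rfl rfl hLH d hd hdQ e heQ hed
      B hB hcov
    refine ⟨c, ⟨⟨hc.1, hcovc⟩, hc⟩, ?_⟩
    rintro c' ⟨⟨-, hcov'⟩, hc'⟩
    exact hk_inj hM hcore N Q hQN _ _ rfl rfl hLH e he heQ B hB c' c hc' hc hcov' hcovc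

end Cfsg.Agent.Lib.Helper27.Knorr
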