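import Cfsg.Agent.Lib.Helper27.L211Data
import Cfsg.Agent.Lib.Helper27.DodStab
import Cfsg.Agent.Lib.Helper5.SLGen

set_option autoImplicit false

/-! An explicit homomorphism from `SL(2, 11)` to the stabiliser of the base dodecad and two points
in the group of the length-24 code, with kernel the centre. -/

namespace Cfsg.Agent.Lib.Helper27.L211

open Cfsg Cfsg.Agent.Lib.Helper7 Cfsg.Agent.Lib.Helper27.OO Cfsg.Agent.Lib.Helper27.Dod

/-- entry of the packed table -/
def Ft (i : ℕ) : ℕ :=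
  Nat.land (Nat.shiftRight BIG (Nat.mul 120 i)) 1329227995784915872903807060280344575

/-- slot of the matrix with entries `a b c d` -/
def ix (a b c d : ℕ) : ℕ := Nat.add (Nat.mul (Nat.add (Nat.mul a 11) b) 11) (cond (Nat.beq a 0) d c)

/-- the table is the identity -/
def isIdT (t : ℕ) : Bool := (List.range 24).all fun i => Nat.beq (nlane t i) i

/-- the check for the matrix with entries `a b c d` -/
def chk4 (a b c d : ℕ) : Bool :=
  !(Nat.beq (a * d % 11) ((1 + b * c) % 11)) ||
    (Nat.beq (Ft (ix a ((a + b) % 11) c ((c + d) % 11))) (mulT (Ft (ix a b c d)) tX) &&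
      (Nat.beq (Ft (ix ((a + b) % 11) b ((c + d) % 11) d)) (mulT (Ft (ix a b c d)) tV) &&
        (!(isIdT (Ft (ix a b c d))) ||
          (Nat.beq b 0 && (Nat.beq c 0 &&
            ((Nat.beq a 1 && Nat.beq d 1) || (Nat.beq a 10 && Nat.beq d 10)))))))

/-- the check for the matrix number `n` -/
def chk (n : ℕ) : Bool := chk4 (n / 1331) (n / 121 % 11) (n / 11 % 11) (n % 11)

theorem chk_all : (List.range 14641).all chk = true := by decide +kernel

theorem chk4_of (a b c d : ℕ) (ha : a < 11) (hb : b < 11) (hc : c < 11) (hd : d < 11) :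
    chk4 a b c d = true := by
  have h := all_range chk_all (a * 1331 + b * 121 + c * 11 + d) (by omega)
  unfold chk at h
  have e1 : (a * 1331 + b * 121 + c * 11 + d) / 1331 = a := by omega
  have e2 : (a * 1331 + b * 121 + c * 11 + d) / 121 % 11 = b := by omega
  have e3 : (a * 1331 + b * 121 + c * 11 + d) / 11 % 11 = c := by omega
  have e4 : (a * 1331 + b * 121 + c * 11 + d) % 11 = d := by omega
  rwa [e1, e2, e3, e4] at h

theorem chk4_spec (a b c d : ℕ) (ha : a < 11) (hb : b < 11) (hc : c < 11) (hd : d < 11)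
    (hdet : a * d % 11 = (1 + b * c) % 11) :
    Ft (ix a ((a + b) % 11) c ((c + d) % 11)) = mulT (Ft (ix a b c d)) tX ∧
    Ft (ix ((a + b) % 11) b ((c + d) % 11) d) = mulT (Ft (ix a b c d)) tV ∧
    (isIdT (Ft (ix a b c d)) = true → b = 0 ∧ c = 0 ∧ ((a = 1 ∧ d = 1) ∨ (a = 10 ∧ d = 10))) := by
  have h := chk4_of a b c d ha hb hc hd
  unfold chk4 at h
  rw [Bool.or_eq_true] at h
  rcases h with h | h
  · rw [Bool.not_eq_true', ← Bool.not_eq_true] at h
    exact absurd (by rw [hdet]; exact Nat.beq_refl _) h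
  · rw [Bool.and_eq_true, Bool.and_eq_true] at h
    obtain ⟨h1, h2, h3⟩ := h
    refine ⟨Nat.eq_of_beq_eq_true h1, Nat.eq_of_beq_eq_true h2, ?_⟩
    intro hid
    rw [Bool.or_eq_true] at h3
    rcases h3 with h3 | h3
    · rw [hid] at h3
      exact absurd h3 (by decide)
    · rw [Bool.and_eq_true, Bool.and_eq_true, Bool.or_eq_true, Bool.and_eq_true,
        Bool.and_eq_true] at h3
      obtain ⟨hb0, hc0, h4⟩ := h3
      refine ⟨Nat.eq_of_beq_eq_true hb0, Nat.eq_of_beq_eq_true hc0, ?_⟩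
      rcases h4 with ⟨h5, h6⟩ | ⟨h5, h6⟩
      · exact Or.inl ⟨Nat.eq_of_beq_eq_true h5, Nat.eq_of_beq_eq_true h6⟩
      · exact Or.inr ⟨Nat.eq_of_beq_eq_true h5, Nat.eq_of_beq_eq_true h6⟩

end Cfsg.Agent.Lib.Helper27.L211
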