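import Cfsg.Agent.Lib.Helper27.L211

set_option autoImplicit false

/-! The matrix side of the explicit homomorphism from `SL(2, 11)`. -/

namespace Cfsg.Agent.Lib.Helper27.L211

open Cfsg Cfsg.Agent.Lib.Helper7 Cfsg.Agent.Lib.Helper27.OO Cfsg.Agent.Lib.Helper27.Dod
open Matrix

/-- the group `SL(2, 11)` -/
abbrev S11 : Type := Matrix.SpecialLinearGroup (Fin 2) (ZMod 11)

/-- slot of a matrix -/
def idxM (A : S11) : ℕ := ix (A.1 0 0).val (A.1 0 1).val (A.1 1 0).val (A.1 1 1).val

theorem val_lt11 (x : ZMod 11) : x.val < 11 := ZMod.val_lt x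

theorem det_val (A : S11) :
    (A.1 0 0).val * (A.1 1 1).val % 11 = (1 + (A.1 0 1).val * (A.1 1 0).val) % 11 := by
  have h := A.2
  rw [Matrix.det_fin_two] at h
  have h2 : A.1 0 0 * A.1 1 1 = 1 + A.1 0 1 * A.1 1 0 := by
    linear_combination h
  have h3 := congrArg ZMod.val h2
  haveI : Fact (1 < 11) := ⟨by norm_num⟩
  rw [ZMod.val_mul, ZMod.val_add, ZMod.val_mul, ZMod.val_one] at h3
  rw [h3]
  omega

/-- the upper transvection -/
def g1 : S11 := Matrix.SpecialLinearGroup.transvection (i := (0 : Fin 2)) (j := 1) (by decide) 1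

/-- the lower transvection -/
def g2 : S11 := Matrix.SpecialLinearGroup.transvection (i := (1 : Fin 2)) (j := 0) (by decide) 1

theorem g1_coe : (g1 : Matrix (Fin 2) (Fin 2) (ZMod 11)) = Matrix.transvection 0 1 1 := rfl

theorem g2_coe : (g2 : Matrix (Fin 2) (Fin 2) (ZMod 11)) = Matrix.transvection 1 0 1 := rfl

theorem idxM_mul_g1 (A : S11) : idxM (A * g1) =
    ix (A.1 0 0).val (((A.1 0 0).val + (A.1 0 1).val) % 11) (A.1 1 0).val
      (((A.1 1 0).val + (A.1 1 1).val) % 11) := by
  unfold idxM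
  have h01 : (0 : Fin 2) ≠ 1 := by decide
  have e00 : (A * g1).1 0 0 = A.1 0 0 :=
    Matrix.mul_transvection_apply_of_ne (i := 0) (j := 1) 0 0 h01 1 A.1
  have e10 : (A * g1).1 1 0 = A.1 1 0 :=
    Matrix.mul_transvection_apply_of_ne (i := 0) (j := 1) 1 0 h01 1 A.1
  have e01 : (A * g1).1 0 1 = A.1 0 0 + A.1 0 1 := by
    have := Matrix.mul_transvection_apply_same (i := 0) (j := 1) 0 1 A.1
    rw [one_mul, add_comm] at this
    exact this
  have e11 : (A * g1).1 1 1 = A.1 1 0 + A.1 1 1 := by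
    have := Matrix.mul_transvection_apply_same (i := 0) (j := 1) 1 1 A.1
    rw [one_mul, add_comm] at this
    exact this
  rw [e00, e10, e01, e11, ZMod.val_add, ZMod.val_add]

theorem idxM_mul_g2 (A : S11) : idxM (A * g2) =
    ix (((A.1 0 0).val + (A.1 0 1).val) % 11) (A.1 0 1).val
      (((A.1 1 0).val + (A.1 1 1).val) % 11) (A.1 1 1).val := by
  unfold idxM
  have h10 : (1 : Fin 2) ≠ 0 := by decide
  have e01 : (A * g2).1 0 1 = A.1 0 1 :=
    Matrix.mul_transvection_apply_of_ne (i := 1) (j := 0) 0 1 h10 1 A.1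
  have e11 : (A * g2).1 1 1 = A.1 1 1 :=
    Matrix.mul_transvection_apply_of_ne (i := 1) (j := 0) 1 1 h10 1 A.1
  have e00 : (A * g2).1 0 0 = A.1 0 0 + A.1 0 1 := by
    have := Matrix.mul_transvection_apply_same (i := 1) (j := 0) 0 1 A.1
    rw [one_mul] at this
    exact this
  have e10 : (A * g2).1 1 0 = A.1 1 0 + A.1 1 1 := by
    have := Matrix.mul_transvection_apply_same (i := 1) (j := 0) 1 1 A.1
    rw [one_mul] at this
    exact this
  rw [e00, e10, e01, e11, ZMod.val_add, ZMod.val_add]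

theorem step1 (A : S11) : Ft (idxM (A * g1)) = mulT (Ft (idxM A)) tX := by
  rw [idxM_mul_g1]
  exact (chk4_spec _ _ _ _ (val_lt11 _) (val_lt11 _) (val_lt11 _) (val_lt11 _) (det_val A)).1

theorem step2 (A : S11) : Ft (idxM (A * g2)) = mulT (Ft (idxM A)) tV := by
  rw [idxM_mul_g2]
  exact (chk4_spec _ _ _ _ (val_lt11 _) (val_lt11 _) (val_lt11 _) (val_lt11 _) (det_val A)).2.1

theorem isId_spec (A : S11) (h : isIdT (Ft (idxM A)) = true) :
    (A.1 0 1).val = 0 ∧ (A.1 1 0).val = 0 ∧
      (((A.1 0 0).val = 1 ∧ (A.1 1 1).val = 1) ∨ ((A.1 0 0).val = 10 ∧ (A.1 1 1).val = 10)) :=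
  (chk4_spec _ _ _ _ (val_lt11 _) (val_lt11 _) (val_lt11 _) (val_lt11 _) (det_val A)).2.2 h

theorem pow_g1 (n : ℕ) : g1 ^ n = Matrix.SpecialLinearGroup.transvection (i := (0 : Fin 2))
    (j := 1) (by decide) (n : ZMod 11) := by
  induction n with
  | zero =>
    rw [pow_zero, Nat.cast_zero, Matrix.SpecialLinearGroup.transvection_coeff_zero]
  | succ n ih =>
    rw [pow_succ, ih]
    apply Subtype.ext
    have h01 : (0 : Fin 2) ≠ 1 := by decide
    have h := Matrix.transvection_mul_transvection_same (i := (0 : Fin 2)) (j := 1) h01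
      (n : ZMod 11) 1
    rw [Nat.cast_succ]
    exact h

theorem pow_g2 (n : ℕ) : g2 ^ n = Matrix.SpecialLinearGroup.transvection (i := (1 : Fin 2))
    (j := 0) (by decide) (n : ZMod 11) := by
  induction n with
  | zero =>
    rw [pow_zero, Nat.cast_zero, Matrix.SpecialLinearGroup.transvection_coeff_zero]
  | succ n ih =>
    rw [pow_succ, ih]
    apply Subtype.ext
    have h10 : (1 : Fin 2) ≠ 0 := by decide
    have h := Matrix.transvection_mul_transvection_same (i := (1 : Fin 2)) (j := 0) h10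
      (n : ZMod 11) 1
    rw [Nat.cast_succ]
    exact h

theorem prime11 : Fact (Nat.Prime 11) := ⟨by norm_num⟩

theorem closure_gens : Subgroup.closure ({g1, g2} : Set S11) = ⊤ := by
  haveI := prime11
  have key := Cfsg.Agent.Lib.Helper5.eq_top_of_transvection_mem (ι := Fin 2) (F := ZMod 11)
    (Subgroup.closure ({g1, g2} : Set S11))
  apply key
  intro i j hij c
  have hc : ((c.val : ℕ) : ZMod 11) = c := ZMod.natCast_zmod_val c
  have h2 : ∀ i : Fin 2, i = 0 ∨ i = 1 := by decide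
  rcases h2 i with rfl | rfl <;> rcases h2 j with rfl | rfl
  · exact absurd rfl hij
  · have h := Subgroup.pow_mem _ (Subgroup.subset_closure
      (show g1 ∈ ({g1, g2} : Set S11) from Set.mem_insert _ _)) c.val
    rw [pow_g1, hc] at h
    exact h
  · have h := Subgroup.pow_mem _ (Subgroup.subset_closure
      (show g2 ∈ ({g1, g2} : Set S11) from Set.mem_insert_of_mem _ rfl)) c.val
    rw [pow_g2, hc] at h
    exact h
  · exact absurd rfl hij

end Cfsg.Agent.Lib.Helper27.L211
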