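import Cfsg.Agent.Lib.Helper27.L211b

set_option autoImplicit false

/-! The explicit homomorphism from `SL(2, 11)` and its kernel. -/

namespace Cfsg.Agent.Lib.Helper27.L211

open Cfsg Cfsg.Agent.Lib.Helper7 Cfsg.Agent.Lib.Helper27.OO Cfsg.Agent.Lib.Helper27.Dod
open Matrix
open scoped Pointwise

theorem repT_cancel {σ γ : Equiv.Perm GolayPt} {s t : ℕ} (h : RepT σ (mulT s t))
    (hγ : RepT γ t) : RepT (σ * γ⁻¹) s := by
  intro p
  rw [Equiv.Perm.mul_apply]
  have h1 := h (γ⁻¹ p)
  rw [nlane_mulT s t (idx_lt _)] at h1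
  have h2 := hγ (γ⁻¹ p)
  have h3 : γ (γ⁻¹ p) = p := by
    rw [← Equiv.Perm.mul_apply, mul_inv_cancel]
    rfl
  rw [h3] at h2
  have h4 : idx p = nlane t (idx (γ⁻¹ p)) := by
    conv_lhs => rw [h2]
    exact idx_pt (nlane_lt _ _)
  rw [h1, h4]

/-- image of the upper transvection -/
noncomputable def X : Equiv.Perm GolayPt := evalW letters wX

/-- image of the lower transvection -/
noncomputable def V : Equiv.Perm GolayPt := evalW letters wV

theorem tX_eq : evalT ltabs wX = tX := by decide +kernel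

theorem tV_eq : evalT ltabs wV = tV := by decide +kernel

theorem repX : RepT X tX := by
  rw [← tX_eq]
  exact repT_evalW letters_rep wX

theorem repV : RepT V tV := by
  rw [← tV_eq]
  exact repT_evalW letters_rep wV

/-- the stabiliser of the base dodecad, a point of it and a point outside -/
def Lb : Subgroup (Equiv.Perm GolayPt) :=
  M24 ⊓ MulAction.stabilizer (Equiv.Perm GolayPt) (setOf R) ⊓
    MulAction.stabilizer (Equiv.Perm GolayPt) (pt 23) ⊓
    MulAction.stabilizer (Equiv.Perm GolayPt) (pt 3)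

theorem mem_Lb {σ : Equiv.Perm GolayPt} :
    σ ∈ Lb ↔ σ ∈ M24 ∧ σ • setOf R = setOf R ∧ σ (pt 23) = pt 23 ∧ σ (pt 3) = pt 3 := by
  unfold Lb
  simp only [Subgroup.mem_inf, MulAction.mem_stabilizer_iff, and_assoc]
  rfl

theorem mem_Lb_of_rep {σ : Equiv.Perm GolayPt} {t : ℕ} (hσ : σ ∈ M24) (h : RepT σ t)
    (h1 : preT t R = R) (h2 : nlane t 23 = 23) (h3 : nlane t 3 = 3) : σ ∈ Lb := by
  rw [mem_Lb]
  refine ⟨hσ, ?_, ?_, ?_⟩
  · have := setOf_preT h R
    rw [h1] at this
    rw [smul_eq_iff_eq_inv_smul]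
    exact this
  · rw [h.apply_pt (by norm_num), h2]
  · rw [h.apply_pt (by norm_num), h3]

theorem X_mem : X ∈ Lb :=
  mem_Lb_of_rep (evalW_mem _ letters_mem_M24 wX) repX (by decide +kernel) (by decide +kernel)
    (by decide +kernel)

theorem V_mem : V ∈ Lb :=
  mem_Lb_of_rep (evalW_mem _ letters_mem_M24 wV) repV (by decide +kernel) (by decide +kernel)
    (by decide +kernel)

theorem idxM_one : idxM 1 = 121 := by decide

theorem idxM_g1 : idxM g1 = 132 := by decide

theorem idxM_g2 : idxM g2 = 122 := by decide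

theorem Ft_121 : Ft 121 = idT := by decide +kernel

theorem Ft_1210 : Ft 1210 = idT := by decide +kernel

theorem Ft_132 : Ft 132 = tX := by decide +kernel

theorem Ft_122 : Ft 122 = tV := by decide +kernel

theorem mem_closure (A : S11) : A ∈ Subgroup.closure ({g1, g2} : Set S11) := by
  rw [closure_gens]
  trivial

theorem exists_rep (A : S11) : ∃ σ ∈ Lb, RepT σ (Ft (idxM A)) := by
  have hA := mem_closure A
  induction hA using Subgroup.closure_induction_right with
  | one =>
    refine ⟨1, Lb.one_mem, ?_⟩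
    rw [idxM_one, Ft_121]
    exact repT_one
  | mul_right x hx y hy ih =>
    obtain ⟨σ, hσ, hrep⟩ := ih
    rcases hy with rfl | rfl
    · refine ⟨σ * X, Lb.mul_mem hσ X_mem, ?_⟩
      rw [step1]
      exact hrep.mul repX
    · refine ⟨σ * V, Lb.mul_mem hσ V_mem, ?_⟩
      rw [step2]
      exact hrep.mul repV
  | mul_inv_cancel x hx y hy ih =>
    obtain ⟨σ, hσ, hrep⟩ := ih
    rcases hy with rfl | rfl
    · refine ⟨σ * X⁻¹, Lb.mul_mem hσ (Lb.inv_mem X_mem), ?_⟩
      have h := step1 (x * g1⁻¹)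
      rw [inv_mul_cancel_right] at h
      rw [h] at hrep
      exact repT_cancel hrep repX
    · refine ⟨σ * V⁻¹, Lb.mul_mem hσ (Lb.inv_mem V_mem), ?_⟩
      have h := step2 (x * g2⁻¹)
      rw [inv_mul_cancel_right] at h
      rw [h] at hrep
      exact repT_cancel hrep repV

/-- the underlying map of the homomorphism -/
noncomputable def phi0 (A : S11) : Equiv.Perm GolayPt := Classical.choose (exists_rep A)

theorem phi0_mem (A : S11) : phi0 A ∈ Lb := (Classical.choose_spec (exists_rep A)).1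

theorem phi0_rep (A : S11) : RepT (phi0 A) (Ft (idxM A)) := (Classical.choose_spec (exists_rep A)).2

theorem phi0_one : phi0 1 = 1 :=
  (phi0_rep 1).ext (by rw [idxM_one, Ft_121]; exact repT_one)

theorem phi0_g1 : phi0 g1 = X :=
  (phi0_rep g1).ext (by rw [idxM_g1, Ft_132]; exact repX)

theorem phi0_g2 : phi0 g2 = V :=
  (phi0_rep g2).ext (by rw [idxM_g2, Ft_122]; exact repV)

theorem phi0_mul_g1 (A : S11) : phi0 (A * g1) = phi0 A * X :=
  (phi0_rep _).ext (by rw [step1]; exact (phi0_rep A).mul repX)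

theorem phi0_mul_g2 (A : S11) : phi0 (A * g2) = phi0 A * V :=
  (phi0_rep _).ext (by rw [step2]; exact (phi0_rep A).mul repV)

theorem phi0_mul (A B : S11) : phi0 (A * B) = phi0 A * phi0 B := by
  have hB := mem_closure B
  induction hB using Subgroup.closure_induction generalizing A with
  | mem y hy =>
    rcases hy with rfl | rfl
    · rw [phi0_mul_g1, phi0_g1]
    · rw [phi0_mul_g2, phi0_g2]
  | one => rw [mul_one, phi0_one, mul_one]
  | mul x y hx hy ihx ihy => rw [← mul_assoc, ihy, ihx, ihy x, mul_assoc]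
  | inv x hx ih =>
    have h1 := ih (A * x⁻¹)
    rw [inv_mul_cancel_right] at h1
    have h2 := ih x⁻¹
    rw [inv_mul_cancel, phi0_one] at h2
    have h3 : phi0 x⁻¹ = (phi0 x)⁻¹ := eq_inv_of_mul_eq_one_left h2.symm
    rw [h3]
    exact eq_mul_inv_of_mul_eq h1.symm

/-- the homomorphism -/
noncomputable def phi : S11 →* Equiv.Perm GolayPt := MonoidHom.mk' phi0 phi0_mul

theorem phi_apply (A : S11) : phi A = phi0 A := rfl

theorem phi_mem (A : S11) : phi A ∈ Lb := phi0_mem A

theorem isIdT_of_rep {t : ℕ} (h : RepT 1 t) : isIdT t = true := by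
  unfold isIdT
  rw [List.all_eq_true]
  intro i hi
  rw [List.mem_range] at hi
  have h1 := h.apply_pt hi
  have h2 : idx ((1 : Equiv.Perm GolayPt) (pt i)) = i := by
    show idx (pt i) = i
    exact idx_pt hi
  rw [h1, idx_pt (nlane_lt _ _)] at h2
  rw [h2]
  exact Nat.beq_refl _

theorem sq_cases : ∀ r : ZMod 11, r ^ 2 = 1 → r = 1 ∨ r = 10 := by decide

theorem phi_eq_one_iff (A : S11) : phi A = 1 ↔ A ∈ Subgroup.center S11 := by
  rw [Matrix.SpecialLinearGroup.mem_center_iff]
  constructor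
  · intro h
    have hrep := phi0_rep A
    rw [← phi_apply, h] at hrep
    obtain ⟨hb, hc, had⟩ := isId_spec A (isIdT_of_rep hrep)
    have hb' : A.1 0 1 = 0 := (ZMod.val_eq_zero _).mp hb
    have hc' : A.1 1 0 = 0 := (ZMod.val_eq_zero _).mp hc
    have key : ∀ (x : ZMod 11) (n : ℕ), x.val = n → x = (n : ZMod 11) := by
      intro x n hx
      rw [← hx, ZMod.natCast_zmod_val]
    rcases had with ⟨ha, hd⟩ | ⟨ha, hd⟩
    · refine ⟨1, one_pow _, ?_⟩
      ext i j
      have h2 : ∀ i : Fin 2, i = 0 ∨ i = 1 := by decide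
      rcases h2 i with rfl | rfl <;> rcases h2 j with rfl | rfl
      · rw [key _ _ ha]; simp
      · rw [hb']; simp
      · rw [hc']; simp
      · rw [key _ _ hd]; simp
    · refine ⟨10, by decide, ?_⟩
      ext i j
      have h2 : ∀ i : Fin 2, i = 0 ∨ i = 1 := by decide
      rcases h2 i with rfl | rfl <;> rcases h2 j with rfl | rfl
      · rw [key _ _ ha]; simp
      · rw [hb']; simp
      · rw [hc']; simp
      · rw [key _ _ hd]; simp
  · rintro ⟨r, hr, hA⟩
    have hr2 : r ^ 2 = 1 := by simpa using hr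
    have e00 : A.1 0 0 = r := by rw [← hA]; simp
    have e01 : A.1 0 1 = 0 := by rw [← hA]; simp
    have e10 : A.1 1 0 = 0 := by rw [← hA]; simp
    have e11 : A.1 1 1 = r := by rw [← hA]; simp
    have hidx : Ft (idxM A) = idT := by
      unfold idxM
      rw [e00, e01, e10, e11]
      rcases sq_cases r hr2 with rfl | rfl
      · exact Ft_121
      · exact Ft_1210
    rw [phi_apply]
    exact (phi0_rep A).ext (by rw [hidx]; exact repT_one)

end Cfsg.Agent.Lib.Helper27.L211
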