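import Cfsg.Agent.Lib.Helper27.L211c
import Cfsg.Agent.Lib.Helper5.PSL2
import Cfsg.Agent.Lib.Helper6.M12
import Cfsg.Agent.Lib.Helper86.PermCount
import Cfsg.Agent.S1600

set_option autoImplicit false

/-! The stabiliser of a dodecad, a point of it and a point outside it in the group of the
length-24 code is isomorphic to `PSL(2, 11)`. -/

namespace Cfsg.Agent.Lib.Helper27.L211

open Cfsg Cfsg.Agent.Lib.Helper7 Cfsg.Agent.Lib.Helper27.OO Cfsg.Agent.Lib.Helper27.Dod
open Cfsg.Agent.Lib.Helper86.PermCount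
open Matrix
open scoped Pointwise

theorem card_S11 : Nat.card S11 = 1320 := by
  haveI := prime11
  have h := Cfsg.Agent.Lib.Helper5.card_SL2 (F := ZMod 11)
  rw [ZMod.card] at h
  exact h

theorem card_psl : Nat.card (Matrix.ProjectiveSpecialLinearGroup (Fin 2) (ZMod 11)) = 660 := by
  have h20 : (2 : ZMod 11) ≠ 0 := by decide
  haveI := prime11
  have h1 := Cfsg.Agent.Lib.Helper5.card_PSL_mul_card_center (Fin 2) (ZMod 11)
  have h2 := Cfsg.Agent.Lib.Helper5.card_center_SL2_of_two_ne_zero (F := ZMod 11) h20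
  rw [h2, card_S11] at h1
  omega

/-- moving a dodecad, a point of it and a point outside to the base configuration -/
theorem exists_base (d : Finset GolayPt) (hd : d ∈ dodecads) (p q : GolayPt) (hp : p ∈ d)
    (hq : q ∉ d) : ∃ r1 ∈ d, ∃ r2 ∈ d, p ≠ r1 ∧ p ≠ r2 ∧ r1 ≠ r2 ∧
    ∃ g ∈ M24, g • d = setOf R ∧ g p = pt 23 ∧ g q = pt 3 := by
  have hc : d.card = 12 := hd.2
  have h1 : 0 < (d.erase p).card := by
    rw [Finset.card_erase_of_mem hp, hc]
    norm_num
  obtain ⟨r1, hr1⟩ := Finset.card_pos.mp h1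
  have hr1d : r1 ∈ d := Finset.mem_of_mem_erase hr1
  have hr1p : r1 ≠ p := Finset.ne_of_mem_erase hr1
  have h2 : 0 < ((d.erase p).erase r1).card := by
    rw [Finset.card_erase_of_mem hr1, Finset.card_erase_of_mem hp, hc]
    norm_num
  obtain ⟨r2, hr2⟩ := Finset.card_pos.mp h2
  have hr2d : r2 ∈ d := Finset.mem_of_mem_erase (Finset.mem_of_mem_erase hr2)
  have hr2p : r2 ≠ p := Finset.ne_of_mem_erase (Finset.mem_of_mem_erase hr2)
  have hr21 : r2 ≠ r1 := Finset.ne_of_mem_erase hr2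
  refine ⟨r1, hr1d, r2, hr2d, hr1p.symm, hr2p.symm, hr21.symm, ?_⟩
  obtain ⟨g1, hg1, hg1p, hg1q, hg1r⟩ := exists_map3 hr1p.symm hr2p.symm hr21.symm (p' := pt 23)
    (q' := pt 0) (r' := pt 1) (by decide) (by decide) (by decide)
  have hi1 : Inc (g1 • d) := by
    unfold Inc
    rw [← hg1p, ← hg1q, ← hg1r, apply_mem_smul_iff, apply_mem_smul_iff, apply_mem_smul_iff]
    exact ⟨hp, hr1d, hr2d⟩
  have hd1 : g1 • d ∈ Cfsg.dodecads :=
    ⟨smul_mem_golaySupports hg1 hd.1, by rw [Finset.card_smul_finset]; exact hd.2⟩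
  obtain ⟨u, hu, hud⟩ := lvl1 hd1 hi1
  have hu' := (fixSub_F_iff u).mp hu
  have hx : (u * g1) q ∉ setOf R := by
    rw [← hud, ← mul_smul, apply_mem_smul_iff]
    exact hq
  have hy : pt 3 ∉ setOf R := by
    rw [pt_mem_setOf (by norm_num)]
    decide
  obtain ⟨v, hv, hvxy⟩ := A0_trans hx hy
  rw [mem_A0_iff] at hv
  obtain ⟨⟨hv1, hv23, -, -⟩, hvR⟩ := hv
  refine ⟨v * (u * g1), Cfsg.M24.mul_mem hv1 (Cfsg.M24.mul_mem hu'.1 hg1), ?_, ?_, ?_⟩
  · rw [mul_smul, mul_smul, hud, hvR]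
  · rw [Equiv.Perm.mul_apply, Equiv.Perm.mul_apply, hg1p, hu'.2.1, hv23]
  · rw [Equiv.Perm.mul_apply]
    exact hvxy

/-- the order of the stabiliser -/
theorem card_stab (d : Finset GolayPt) (hd : d ∈ dodecads) (p q r1 r2 : GolayPt) (hp : p ∈ d)
    (hq : q ∉ d) (hr1 : r1 ∈ d) (hr2 : r2 ∈ d) (hp1 : p ≠ r1) (hp2 : p ≠ r2) (h12 : r1 ≠ r2) :
    Nat.card ↥(MulAction.stabilizer M24 d ⊓ MulAction.stabilizer M24 p ⊓
      MulAction.stabilizer M24 q) = 660 := by
  have hK := Cfsg.Agent.Lib.Helper6.M12.card_stab_dodecad_point hd hp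
  have hinj : Function.Injective (M24.subtype) := Subgroup.subtype_injective _
  have hK' : Nat.card ((MulAction.stabilizer M24 d ⊓ MulAction.stabilizer M24 p).map M24.subtype)
      = 7920 := by
    rw [Subgroup.card_map_of_injective hinj, hK]
  have hT' : Nat.card ((MulAction.stabilizer M24 d ⊓ MulAction.stabilizer M24 p ⊓
      MulAction.stabilizer M24 q).map M24.subtype) = Nat.card ↥(MulAction.stabilizer M24 d ⊓
      MulAction.stabilizer M24 p ⊓ MulAction.stabilizer M24 q) :=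
    Subgroup.card_map_of_injective hinj
  have hstb : (MulAction.stabilizer M24 d ⊓ MulAction.stabilizer M24 p ⊓
      MulAction.stabilizer M24 q).map M24.subtype
      = stb ((MulAction.stabilizer M24 d ⊓ MulAction.stabilizer M24 p).map M24.subtype) q := by
    ext σ
    rw [mem_stb, Subgroup.mem_map, Subgroup.mem_map]
    constructor
    · rintro ⟨x, hx, rfl⟩
      rw [Subgroup.mem_inf] at hx
      exact ⟨⟨x, hx.1, rfl⟩, hx.2⟩
    · rintro ⟨⟨x, hx, rfl⟩, hxq⟩
      exact ⟨x, Subgroup.mem_inf.mpr ⟨hx, hxq⟩, rfl⟩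
  have horb : orbF ((MulAction.stabilizer M24 d ⊓ MulAction.stabilizer M24 p).map M24.subtype) q
      = Finset.univ \ d := by
    ext r
    rw [mem_orbF, Finset.mem_sdiff]
    constructor
    · rintro ⟨σ, hσ, rfl⟩
      refine ⟨Finset.mem_univ _, ?_⟩
      rw [Subgroup.mem_map] at hσ
      obtain ⟨x, hx, rfl⟩ := hσ
      rw [Subgroup.mem_inf] at hx
      have hxd : (x : Equiv.Perm GolayPt) • d = d := hx.1
      intro hmem
      rw [← hxd] at hmem
      exact hq ((apply_mem_smul_iff _ _ _).mp hmem)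
    · rintro ⟨-, hr⟩
      obtain ⟨g, hg, hgq⟩ := (Cfsg.Agent.S1600.result d hd p r1 r2 hp hr1 hr2 hp1 hp2 h12).2 q hq r hr
      rw [Subgroup.mem_inf, Subgroup.mem_inf] at hg
      exact ⟨g.1, Subgroup.mem_map.mpr ⟨g, hg.1.1, rfl⟩, hgq⟩
  have hcard : (Finset.univ \ d : Finset GolayPt).card = 12 := by
    rw [Finset.card_sdiff_of_subset (Finset.subset_univ _), Finset.card_univ, hd.2]
    rfl
  have h := card_stb_mul_card_orbF
    ((MulAction.stabilizer M24 d ⊓ MulAction.stabilizer M24 p).map M24.subtype) q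
  rw [horb, hcard, hK', ← hstb, hT'] at h
  omega

theorem main (d : Finset GolayPt) (hd : d ∈ dodecads) (p q : GolayPt) (hp : p ∈ d)
    (hq : q ∉ d) : Nonempty (↥(MulAction.stabilizer M24 d ⊓ MulAction.stabilizer M24 p ⊓
      MulAction.stabilizer M24 q) ≃* Matrix.ProjectiveSpecialLinearGroup (Fin 2) (ZMod 11)) := by
  obtain ⟨r1, hr1, r2, hr2, hp1, hp2, h12, g, hg, hgd, hgp, hgq⟩ := exists_base d hd p q hp hq
  have hT := card_stab d hd p q r1 r2 hp hq hr1 hr2 hp1 hp2 h12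
  -- the conjugated homomorphism
  let Ψ0 : S11 →* Equiv.Perm GolayPt :=
    MonoidHom.mk' (fun A => g⁻¹ * phi A * g) (by
      intro A B
      rw [map_mul]
      group)
  have hΨ0 : ∀ A, Ψ0 A = g⁻¹ * phi A * g := fun _ => rfl
  have hmem : ∀ A, Ψ0 A ∈ M24 := by
    intro A
    rw [hΨ0]
    exact M24.mul_mem (M24.mul_mem (M24.inv_mem hg) (mem_Lb.mp (phi_mem A)).1) hg
  let Ψ : S11 →* ↥M24 := Ψ0.codRestrict M24 hmem
  have hΨ : ∀ A, ((Ψ A : ↥M24) : Equiv.Perm GolayPt) = g⁻¹ * phi A * g := fun _ => rfl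
  have memT : ∀ a : ↥M24, a ∈ (MulAction.stabilizer M24 d ⊓ MulAction.stabilizer M24 p ⊓
      MulAction.stabilizer M24 q) ↔
      ((a : Equiv.Perm GolayPt) • d = d ∧ (a : Equiv.Perm GolayPt) p = p ∧
        (a : Equiv.Perm GolayPt) q = q) := by
    intro a
    simp only [Subgroup.mem_inf, MulAction.mem_stabilizer_iff, and_assoc]
    rfl
  have hrange : Ψ.range ≤ MulAction.stabilizer M24 d ⊓ MulAction.stabilizer M24 p ⊓
      MulAction.stabilizer M24 q := by
    rintro _ ⟨A, rfl⟩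
    rw [memT, hΨ]
    obtain ⟨-, hR, h23, h3⟩ := mem_Lb.mp (phi_mem A)
    refine ⟨?_, ?_, ?_⟩
    · exact conj_smul g (phi A) d d (by rw [hgd, hR])
    · exact conj_apply g (phi A) p (by rw [hgp, h23])
    · exact conj_apply g (phi A) q (by rw [hgq, h3])
  have hker : Subgroup.center S11 = Ψ.ker := by
    ext A
    rw [MonoidHom.mem_ker, ← phi_eq_one_iff]
    constructor
    · intro h
      apply Subtype.ext
      rw [hΨ, h]
      simp
    · intro h
      have h1 := congrArg Subtype.val h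
      rw [hΨ] at h1
      have h2 : phi A = g * (g⁻¹ * phi A * g) * g⁻¹ := by group
      rw [h2, h1]
      simp
  have e1 : Matrix.ProjectiveSpecialLinearGroup (Fin 2) (ZMod 11) ≃* ↥Ψ.range :=
    (QuotientGroup.quotientMulEquivOfEq hker).trans (QuotientGroup.quotientKerEquivRange Ψ)
  have hcr : Nat.card ↥Ψ.range = 660 := by
    rw [← Nat.card_congr e1.toEquiv, card_psl]
  have heq : Ψ.range = MulAction.stabilizer M24 d ⊓ MulAction.stabilizer M24 p ⊓
      MulAction.stabilizer M24 q :=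
    Subgroup.eq_of_le_of_card_ge hrange (by rw [hT, hcr])
  exact ⟨(e1.trans (MulEquiv.subgroupCongr heq)).symm⟩

end Cfsg.Agent.Lib.Helper27.L211
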