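import Cfsg.Agent.Lib.Helper27.GolayDual
import Cfsg.Agent.Lib.Helper27.InvSub
import Cfsg.Agent.Lib.Helper93.Sextets

set_option autoImplicit false

open scoped Pointwise

namespace Cfsg.Agent.Lib.Helper27.OL

open Cfsg.Agent.Lib.Helper7 Cfsg.Agent.Lib.Helper27.OO Cfsg.Agent.Lib.Helper27.GC
  Cfsg.Agent.Lib.Helper27.CF Cfsg.Agent.Lib.Helper27.GD Cfsg.Agent.Lib.Helper27.IS
  Cfsg.Agent.Lib.Helper93

theorem support₂_add_one (w : Cfsg.GolayPt → ZMod 2) :
    Cfsg.support₂ (w + 1) = (Cfsg.support₂ w)ᶜ := by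
  rw [support₂_add, support₂_one]
  ext r
  simp [Finset.mem_symmDiff]

theorem ind_mem {o : Finset Cfsg.GolayPt} (ho : o ∈ Cfsg.octads) : ind o ∈ Cfsg.golayCode := by
  obtain ⟨w, hw, rfl⟩ := ho.1
  rw [ind_support₂]
  exact hw

theorem N_eq_filter (S : Finset Cfsg.GolayPt) :
    N S = (octadFinset.filter (fun o => (o ∩ S).card % 2 = 1)).card := by
  unfold N
  rw [← Set.ncard_coe_finset]
  congr 1
  ext o
  simp [mem_octadFinset]

/-- The all-ones word as an element of the code. -/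
def oneC : ↥Cfsg.golayCode := ⟨1, one_mem_golayCode⟩

section

variable (x : ↥Cfsg.golayCode ≃ₗ[ZMod 2] ↥Cfsg.golayCode)

/-- Support of the image of an octad word. -/
noncomputable def Y {o : Finset Cfsg.GolayPt} (ho : o ∈ Cfsg.octads) : Finset Cfsg.GolayPt :=
  Cfsg.support₂ (x ⟨ind o, ind_mem ho⟩).1

open Classical in
/-- The octad underlying the image of an octad word. -/
noncomputable def β (o : Finset Cfsg.GolayPt) : Finset Cfsg.GolayPt :=
  if h : o ∈ Cfsg.octads then (if (Y x h).card = 8 then Y x h else (Y x h)ᶜ) else o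

variable (h1 : ∀ e : ↥Cfsg.golayCode, (e : Cfsg.GolayPt → ZMod 2) = (fun _ => (1 : ZMod 2)) →
  x e = e)
variable (horb : ∀ c : ↥Cfsg.golayCode, ∃ σ ∈ Cfsg.M24,
  ((x c : ↥Cfsg.golayCode) : Cfsg.GolayPt → ZMod 2) =
      (fun p => (c : Cfsg.GolayPt → ZMod 2) (σ.symm p)) ∨
    ((x c : ↥Cfsg.golayCode) : Cfsg.GolayPt → ZMod 2) =
      (fun p => (c : Cfsg.GolayPt → ZMod 2) (σ.symm p)) + fun _ => (1 : ZMod 2))

include horb in
theorem Y_cases {o : Finset Cfsg.GolayPt} (ho : o ∈ Cfsg.octads) :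
    (∃ σ ∈ Cfsg.M24, Y x ho = σ • o) ∨ (∃ σ ∈ Cfsg.M24, Y x ho = (σ • o)ᶜ) := by
  obtain ⟨σ, hσ, h | h⟩ := horb ⟨ind o, ind_mem ho⟩
  · left
    refine ⟨σ, hσ, ?_⟩
    unfold Y
    rw [h]
    have := smul_support₂ σ (ind o)
    rw [support₂_ind] at this
    exact this.symm
  · right
    refine ⟨σ, hσ, ?_⟩
    unfold Y
    rw [h]
    have := smul_support₂ σ (ind o)
    rw [support₂_ind] at this
    rw [this]
    exact support₂_add_one _

include horb in
theorem β_cases {o : Finset Cfsg.GolayPt} (ho : o ∈ Cfsg.octads) :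
    β x o ∈ Cfsg.octads ∧ (β x o = Y x ho ∨ β x o = (Y x ho)ᶜ) := by
  unfold β
  rw [dif_pos ho]
  rcases Y_cases x horb ho with ⟨σ, hσ, h⟩ | ⟨σ, hσ, h⟩
  · have h8 : (Y x ho).card = 8 := by
      rw [h, Finset.card_smul_finset]; exact ho.2
    rw [if_pos h8]
    exact ⟨h ▸ smul_mem_octads hσ ho, Or.inl rfl⟩
  · have h8 : (Y x ho).card ≠ 8 := by
      rw [h, Finset.card_compl, card_pts, Finset.card_smul_finset, ho.2]; norm_num
    rw [if_neg h8]
    refine ⟨?_, Or.inr rfl⟩
    rw [h, compl_compl]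
    exact smul_mem_octads hσ ho

theorem Y_inj {o1 o2 : Finset Cfsg.GolayPt} (ho1 : o1 ∈ Cfsg.octads) (ho2 : o2 ∈ Cfsg.octads)
    (h : Y x ho1 = Y x ho2) : o1 = o2 := by
  unfold Y at h
  have e1 := support₂_injective h
  have e2 := x.injective (Subtype.ext e1)
  exact ind_injective (congrArg Subtype.val e2)

include h1 in
theorem Y_compl_absurd {o1 o2 : Finset Cfsg.GolayPt} (ho1 : o1 ∈ Cfsg.octads)
    (ho2 : o2 ∈ Cfsg.octads) (h : Y x ho1 = (Y x ho2)ᶜ) : False := by
  unfold Y at h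
  rw [← support₂_add_one] at h
  have e1 := support₂_injective h
  have hone : x oneC = oneC := h1 oneC rfl
  have e2 : x ⟨ind o1, ind_mem ho1⟩ = x (⟨ind o2, ind_mem ho2⟩ + oneC) := by
    rw [map_add, hone]
    exact Subtype.ext e1
  have e3 := congrArg Subtype.val (x.injective e2)
  have e4 : ind o1 = ind o2 + 1 := e3
  have e5 : o1 = o2ᶜ := by
    rw [← support₂_ind o1, e4, support₂_add_one, support₂_ind]
  have := ho1.2
  rw [e5, Finset.card_compl, card_pts, ho2.2] at this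
  omega

include h1 horb in
theorem β_inj {o1 o2 : Finset Cfsg.GolayPt} (ho1 : o1 ∈ Cfsg.octads) (ho2 : o2 ∈ Cfsg.octads)
    (h : β x o1 = β x o2) : o1 = o2 := by
  rcases (β_cases x horb ho1).2 with a | a <;> rcases (β_cases x horb ho2).2 with b | b
  · exact Y_inj x ho1 ho2 (a.symm.trans (h.trans b))
  · exact absurd (a.symm.trans (h.trans b)) (fun e => Y_compl_absurd x h1 ho1 ho2 e)
  · exact absurd (b.symm.trans (h.symm.trans a)) (fun e => Y_compl_absurd x h1 ho2 ho1 e)
  · exact Y_inj x ho1 ho2 (compl_injective (a.symm.trans (h.trans b)))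

include h1 horb in
theorem β_image : octadFinset.image (β x) = octadFinset := by
  apply Finset.eq_of_subset_of_card_le
  · intro o ho
    obtain ⟨o', ho', rfl⟩ := Finset.mem_image.mp ho
    exact (mem_octadFinset _).mpr (β_cases x horb ((mem_octadFinset o').mp ho')).1
  · rw [Finset.card_image_of_injOn]
    intro a ha b hb hab
    exact β_inj x h1 horb ((mem_octadFinset a).mp ha) ((mem_octadFinset b).mp hb) hab

theorem parity_compl (Y T : Finset Cfsg.GolayPt) (hT : T.card % 2 = 0) :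
    (Yᶜ ∩ T).card % 2 = (Y ∩ T).card % 2 := by
  have e := Finset.card_inter_add_card_sdiff T Y
  have e2 : Yᶜ ∩ T = T \ Y := by
    ext r
    simp [and_comm]
  rw [e2, Finset.inter_comm Y T]
  omega

include h1 horb in
/-- A functional `c ↦ (x c) p + (x c) q` given by a set of points `S` counts `352` octads. -/
theorem count_eq {p q : Cfsg.GolayPt} (hpq : p ≠ q) (S : Finset Cfsg.GolayPt)
    (hS : ∀ c : ↥Cfsg.golayCode, (x c).1 p + (x c).1 q = ∑ r ∈ S, c.1 r) : N S = 352 := by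
  classical
  rw [N_eq_filter]
  have hiff : ∀ o ∈ octadFinset,
      ((o ∩ S).card % 2 = 1 ↔ (β x o ∩ {p, q}).card % 2 = 1) := by
    intro o ho
    have ho' := (mem_octadFinset o).mp ho
    have e1 := hS ⟨ind o, ind_mem ho'⟩
    have e1' : (x ⟨ind o, ind_mem ho'⟩).1 p + (x ⟨ind o, ind_mem ho'⟩).1 q =
        (((o ∩ S).card : ℕ) : ZMod 2) := by
      rw [e1]; exact sum_ind S o
    have e2 : (x ⟨ind o, ind_mem ho'⟩).1 p + (x ⟨ind o, ind_mem ho'⟩).1 q =
        (((Y x ho' ∩ {p, q}).card : ℕ) : ZMod 2) := by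
      rw [← sum_ind, Finset.sum_pair hpq]
      unfold Y
      rw [ind_support₂]
    have e3 : (β x o ∩ {p, q}).card % 2 = (Y x ho' ∩ {p, q}).card % 2 := by
      rcases (β_cases x horb ho').2 with a | a
      · rw [a]
      · rw [a]
        exact parity_compl _ _ (by rw [Finset.card_pair hpq])
    have e4 : (o ∩ S).card % 2 = (Y x ho' ∩ {p, q}).card % 2 :=
      (ZMod.natCast_eq_natCast_iff' _ _ 2).mp (e1'.symm.trans e2)
    omega
  rw [Finset.filter_congr hiff]
  have himg := β_image x h1 horb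
  have hcount : (octadFinset.filter (fun o => (β x o ∩ {p, q}).card % 2 = 1)).card =
      ((octadFinset.image (β x)).filter (fun o => (o ∩ {p, q}).card % 2 = 1)).card := by
    rw [Finset.filter_image, Finset.card_image_of_injOn]
    intro a ha b hb hab
    have ha' := (Finset.mem_filter.mp ha).1
    have hb' := (Finset.mem_filter.mp hb).1
    exact β_inj x h1 horb ((mem_octadFinset a).mp ha') ((mem_octadFinset b).mp hb') hab
  rw [hcount, himg, ← N_eq_filter, N_two (Finset.card_pair hpq)]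

/-- The functional `c ↦ (x c) p + (x c) q`. -/
noncomputable def G (p q : Cfsg.GolayPt) : ↥Cfsg.golayCode →ₗ[ZMod 2] ZMod 2 where
  toFun c := (x c).1 p + (x c).1 q
  map_add' a b := by
    simp only [map_add, Submodule.coe_add, Pi.add_apply]
    ring
  map_smul' m a := by
    simp only [map_smul, Submodule.coe_smul, Pi.smul_apply, smul_eq_mul, RingHom.id_apply, mul_add]

include h1 horb in
/-- Each functional `c ↦ (x c) p + (x c) q` is the sum over a pair of points. -/
theorem pair_functional {p q : Cfsg.GolayPt} (hpq : p ≠ q) :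
    ∃ S : Finset Cfsg.GolayPt, S.card = 2 ∧
      ∀ c : ↥Cfsg.golayCode, (x c).1 p + (x c).1 q = ∑ r ∈ S, c.1 r := by
  classical
  obtain ⟨G', hG'⟩ := LinearMap.exists_extend (G x p q)
  set v : Cfsg.GolayPt → ZMod 2 := fun r => G' (fun j => if r = j then 1 else 0) with hvdef
  have hv : ∀ w : Cfsg.GolayPt → ZMod 2, G' w = ∑ r, w r * v r := by
    intro w
    rw [LinearMap.pi_apply_eq_sum_univ G' w]
    rfl
  obtain ⟨v₀, hv4, hvC⟩ : ∃ v₀ : Cfsg.GolayPt → ZMod 2, (Cfsg.support₂ v₀).card ≤ 4 ∧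
      v - v₀ ∈ Cfsg.golayCode := by
    rcases coset_leaders v with ⟨u, hu, huC⟩ | ⟨u, -, hu, -⟩
    · exact ⟨u, by rw [← hammingNorm_eq]; omega, huC⟩
    · exact ⟨u 0, by rw [← hammingNorm_eq, (hu 0).1], (hu 0).2⟩
  have hG2 : ∀ c : ↥Cfsg.golayCode,
      (x c).1 p + (x c).1 q = ∑ r ∈ Cfsg.support₂ v₀, c.1 r := by
    intro c
    have e1 : (x c).1 p + (x c).1 q = G' c.1 := by
      have := LinearMap.congr_fun hG' c
      exact this.symm
    rw [e1, hv]
    have e2 := Cfsg.Agent.Lib.Helper6.Golay.self_orthogonal c.2 hvC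
    have e3 : ∑ r, c.1 r * v r = ∑ r, c.1 r * v₀ r + ∑ r, c.1 r * (v - v₀) r := by
      rw [← Finset.sum_add_distrib]
      refine Finset.sum_congr rfl (fun i _ => ?_)
      rw [Pi.sub_apply]
      ring
    rw [e3, e2, add_zero, sum_mul_supp]
  have hN := count_eq x h1 horb hpq _ hG2
  -- parity of the support
  have hone : x oneC = oneC := h1 oneC rfl
  have hpar : (Cfsg.support₂ v₀).card % 2 = 0 := by
    have e := hG2 oneC
    rw [hone] at e
    have e' : ((1 : ZMod 2) + 1) = (((Cfsg.support₂ v₀).card : ℕ) : ZMod 2) := by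
      have : ∑ r ∈ Cfsg.support₂ v₀, oneC.1 r = (((Cfsg.support₂ v₀).card : ℕ) : ZMod 2) := by
        have h2 : ∀ r ∈ Cfsg.support₂ v₀, oneC.1 r = (1 : ZMod 2) := fun _ _ => rfl
        rw [Finset.sum_congr rfl h2, Finset.sum_const, nsmul_eq_mul, mul_one]
      rw [← this, ← e]
      rfl
    have e'' : (((Cfsg.support₂ v₀).card : ℕ) : ZMod 2) = 0 := by
      rw [← e']; decide
    rw [ZMod.natCast_eq_zero_iff_even, Nat.even_iff] at e''
    exact e''
  refine ⟨Cfsg.support₂ v₀, ?_, hG2⟩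
  have hcases : (Cfsg.support₂ v₀).card = 0 ∨ (Cfsg.support₂ v₀).card = 2 ∨
      (Cfsg.support₂ v₀).card = 4 := by omega
  rcases hcases with h | h | h
  · rw [Finset.card_eq_zero.mp h, N_empty] at hN
    omega
  · exact h
  · rw [N_four h] at hN
    omega

end

end Cfsg.Agent.Lib.Helper27.OL
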