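import Cfsg.Agent.Lib.Helper27.OrbLin

set_option autoImplicit false

open scoped Pointwise

namespace Cfsg.Agent.Lib.Helper27.OL

open Cfsg.Agent.Lib.Helper7 Cfsg.Agent.Lib.Helper27.OO Cfsg.Agent.Lib.Helper27.GC
  Cfsg.Agent.Lib.Helper27.CF Cfsg.Agent.Lib.Helper27.GD Cfsg.Agent.Lib.Helper27.IS
  Cfsg.Agent.Lib.Helper93

theorem ind_symmDiff (A B : Finset Cfsg.GolayPt) : ind (symmDiff A B) = ind A + ind B := by
  apply support₂_injective
  rw [support₂_ind, support₂_add, support₂_ind, support₂_ind]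

theorem sum_symmDiff (A B : Finset Cfsg.GolayPt) (c : Cfsg.GolayPt → ZMod 2) :
    ∑ r ∈ symmDiff A B, c r = ∑ r ∈ A, c r + ∑ r ∈ B, c r := by
  rw [← sum_mul_ind, ind_symmDiff, ← sum_mul_ind c A, ← sum_mul_ind c B, ← Finset.sum_add_distrib]
  refine Finset.sum_congr rfl (fun i _ => ?_)
  rw [Pi.add_apply]
  ring

theorem exists_other (L : Finset Cfsg.GolayPt) (h : L.card < 24) : ∃ r, r ∉ L := by
  by_contra hne
  push Not at hne
  have : L = Finset.univ := Finset.eq_univ_iff_forall.mpr hne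
  rw [this, Finset.card_univ, card_pts] at h
  omega

theorem pair_eq {T : Finset Cfsg.GolayPt} (hT : T.card = 2) {a b : Cfsg.GolayPt} (ha : a ∈ T)
    (hb : b ∈ T) (hab : a ≠ b) : T = {a, b} := by
  symm
  apply Finset.eq_of_subset_of_card_le
  · intro r hr
    rcases Finset.mem_insert.mp hr with rfl | hr
    · exact ha
    · rw [Finset.mem_singleton.mp hr]; exact hb
  · rw [hT, Finset.card_pair hab]

theorem zmod2_move : ∀ a b c d : ZMod 2, a + b = c + d → a = c + (b + d) := by decide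

/-- A linear automorphism of the code fixing the all-ones word and preserving the orbits of the
group of the code modulo the all-ones word is induced, modulo the all-ones word, by an element of
that group. -/
theorem orbit_linear (x : ↥Cfsg.golayCode ≃ₗ[ZMod 2] ↥Cfsg.golayCode)
    (h1 : ∀ e : ↥Cfsg.golayCode, (e : Cfsg.GolayPt → ZMod 2) = (fun _ => (1 : ZMod 2)) → x e = e)
    (horb : ∀ c : ↥Cfsg.golayCode, ∃ σ ∈ Cfsg.M24,
      ((x c : ↥Cfsg.golayCode) : Cfsg.GolayPt → ZMod 2) =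
          (fun p => (c : Cfsg.GolayPt → ZMod 2) (σ.symm p)) ∨
        ((x c : ↥Cfsg.golayCode) : Cfsg.GolayPt → ZMod 2) =
          (fun p => (c : Cfsg.GolayPt → ZMod 2) (σ.symm p)) + fun _ => (1 : ZMod 2)) :
    ∃ σ ∈ Cfsg.M24, ∀ c : ↥Cfsg.golayCode,
      ((x c : ↥Cfsg.golayCode) : Cfsg.GolayPt → ZMod 2) =
          (fun p => (c : Cfsg.GolayPt → ZMod 2) (σ.symm p)) ∨
        ((x c : ↥Cfsg.golayCode) : Cfsg.GolayPt → ZMod 2) =
          (fun p => (c : Cfsg.GolayPt → ZMod 2) (σ.symm p)) + fun _ => (1 : ZMod 2) := by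
  classical
  have key : ∀ p q : Cfsg.GolayPt, p ≠ q → ∃ S : Finset Cfsg.GolayPt, S.card = 2 ∧
      ∀ c : ↥Cfsg.golayCode, (x c).1 p + (x c).1 q = ∑ r ∈ S, c.1 r :=
    fun p q hpq => pair_functional x h1 horb hpq
  choose! τ hτ using key
  have hcard : ∀ p q, p ≠ q → (τ p q).card = 2 := fun p q h => (hτ p q h).1
  have hfun : ∀ p q, p ≠ q → ∀ c : ↥Cfsg.golayCode, (x c).1 p + (x c).1 q = ∑ r ∈ τ p q, c.1 r :=
    fun p q h => (hτ p q h).2
  -- symmetry
  have C1 : ∀ p q, p ≠ q → τ p q = τ q p := by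
    intro p q hpq
    apply uniq
    · intro c hc
      rw [← hfun p q hpq ⟨c, hc⟩, ← hfun q p (Ne.symm hpq) ⟨c, hc⟩, add_comm]
    · rw [hcard p q hpq, hcard q p (Ne.symm hpq)]
      norm_num
  -- triangles
  have C2 : ∀ p q r, p ≠ q → q ≠ r → p ≠ r → symmDiff (τ p q) (τ q r) = τ p r := by
    intro p q r hpq hqr hpr
    apply uniq
    · intro c hc
      rw [sum_symmDiff, ← hfun p q hpq ⟨c, hc⟩, ← hfun q r hqr ⟨c, hc⟩, ← hfun p r hpr ⟨c, hc⟩]
      have h4 : ∀ a b d : ZMod 2, a + b + (b + d) = a + d := by decide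
      exact h4 _ _ _
    · have e1 := Finset.card_le_card (Finset.symmDiff_subset_union (s := τ p q) (t := τ q r))
      have e2 := Finset.card_union_le (τ p q) (τ q r)
      rw [hcard p q hpq, hcard q r hqr] at e2
      rw [hcard p r hpr]
      omega
  -- injectivity
  have C3 : ∀ p q p' q', p ≠ q → p' ≠ q' → τ p q = τ p' q' →
      ({p, q} : Finset Cfsg.GolayPt) = {p', q'} := by
    intro p q p' q' hpq hpq' h
    apply uniq
    · intro c hc
      have e1 := hfun p q hpq (x.symm ⟨c, hc⟩)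
      have e2 := hfun p' q' hpq' (x.symm ⟨c, hc⟩)
      rw [LinearEquiv.apply_symm_apply] at e1 e2
      rw [Finset.sum_pair hpq, Finset.sum_pair hpq']
      rw [h] at e1
      exact e1.trans e2.symm
    · rw [Finset.card_pair hpq, Finset.card_pair hpq']
      norm_num
  -- two pairs at a point meet in one point
  have C4 : ∀ p q r, p ≠ q → p ≠ r → q ≠ r → (τ p q ∩ τ p r).card = 1 := by
    intro p q r hpq hpr hqr
    have e := C2 q p r (Ne.symm hpq) hpr hqr
    have e2 := card_symmDiff_add (τ q p) (τ p r)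
    rw [e, hcard q r hqr, hcard q p (Ne.symm hpq), hcard p r hpr, ← C1 p q hpq] at e2
    omega
  -- the common point of the pairs at a point
  have star : ∀ p, ∃ s, ∀ q, q ≠ p → s ∈ τ p q := by
    intro p
    obtain ⟨q0, hq0⟩ := exists_other {p} (by simp)
    have hq0p : q0 ≠ p := fun h => hq0 (by simp [h])
    obtain ⟨r0, hr0⟩ := exists_other {p, q0} (by
      have := Finset.card_le_two (a := p) (b := q0); omega)
    have hr0p : r0 ≠ p := fun h => hr0 (by simp [h])
    have hr0q : r0 ≠ q0 := fun h => hr0 (by simp [h])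
    obtain ⟨s, hs⟩ := Finset.card_eq_one.mp (C4 p q0 r0 (Ne.symm hq0p) (Ne.symm hr0p)
      (Ne.symm hr0q))
    have hs1 : s ∈ τ p q0 := by
      have : s ∈ τ p q0 ∩ τ p r0 := by rw [hs]; exact Finset.mem_singleton_self s
      exact (Finset.mem_inter.mp this).1
    have hs2 : s ∈ τ p r0 := by
      have : s ∈ τ p q0 ∩ τ p r0 := by rw [hs]; exact Finset.mem_singleton_self s
      exact (Finset.mem_inter.mp this).2
    refine ⟨s, ?_⟩
    intro q hqp
    by_cases hq1 : q = q0
    · rw [hq1]; exact hs1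
    by_cases hq2 : q = r0
    · rw [hq2]; exact hs2
    by_contra hsq
    obtain ⟨a, ha⟩ := Finset.card_eq_one.mp (C4 p q q0 (Ne.symm hqp) (Ne.symm hq0p) hq1)
    obtain ⟨b, hb⟩ := Finset.card_eq_one.mp (C4 p q r0 (Ne.symm hqp) (Ne.symm hr0p) hq2)
    have ha' : a ∈ τ p q ∩ τ p q0 := by rw [ha]; exact Finset.mem_singleton_self a
    have hb' : b ∈ τ p q ∩ τ p r0 := by rw [hb]; exact Finset.mem_singleton_self b
    rw [Finset.mem_inter] at ha' hb'
    have hab : a ≠ b := by
      intro h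
      have : a ∈ τ p q0 ∩ τ p r0 := Finset.mem_inter.mpr ⟨ha'.2, h ▸ hb'.2⟩
      rw [hs, Finset.mem_singleton] at this
      exact hsq (this ▸ ha'.1)
    have hanr : a ∉ τ p r0 := by
      intro h
      have : a ∈ τ p q0 ∩ τ p r0 := Finset.mem_inter.mpr ⟨ha'.2, h⟩
      rw [hs, Finset.mem_singleton] at this
      exact hsq (this ▸ ha'.1)
    have hbnq : b ∉ τ p q0 := by
      intro h
      have : b ∈ τ p q0 ∩ τ p r0 := Finset.mem_inter.mpr ⟨h, hb'.2⟩
      rw [hs, Finset.mem_singleton] at this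
      exact hsq (this ▸ hb'.1)
    have e := C2 q0 p r0 hq0p (Ne.symm hr0p) (Ne.symm hr0q)
    rw [← C1 p q0 (Ne.symm hq0p)] at e
    have ha2 : a ∈ τ q0 r0 := by
      rw [← e, Finset.mem_symmDiff]; exact Or.inl ⟨ha'.2, hanr⟩
    have hb2 : b ∈ τ q0 r0 := by
      rw [← e, Finset.mem_symmDiff]; exact Or.inr ⟨hb'.2, hbnq⟩
    have e1 := pair_eq (hcard q0 r0 (Ne.symm hr0q)) ha2 hb2 hab
    have e2 := pair_eq (hcard p q (Ne.symm hqp)) ha'.1 hb'.1 hab
    have e3 := C3 p q q0 r0 (Ne.symm hqp) (Ne.symm hr0q) (e2.trans e1.symm)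
    have : p ∈ ({q0, r0} : Finset Cfsg.GolayPt) := by
      rw [← e3]; exact Finset.mem_insert_self _ _
    rcases Finset.mem_insert.mp this with h | h
    · exact hq0p h.symm
    · exact hr0p (Finset.mem_singleton.mp h).symm
  choose σ hσ using star
  -- injectivity of the point map
  have hinj : Function.Injective σ := by
    intro p q hpq
    by_contra hne
    obtain ⟨r, hr⟩ := exists_other {p, q} (by
      have := Finset.card_le_two (a := p) (b := q); omega)
    have hrp : r ≠ p := fun h => hr (by simp [h])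
    have hrq : r ≠ q := fun h => hr (by simp [h])
    have m1 : σ p ∈ τ p q := hσ p q (Ne.symm hne)
    have m2 : σ p ∈ τ q r := by rw [hpq]; exact hσ q r hrq
    have m3 : σ p ∈ τ p r := hσ p r hrp
    have e := C2 p q r hne (Ne.symm hrq) (Ne.symm hrp)
    rw [← e, Finset.mem_symmDiff] at m3
    rcases m3 with ⟨-, h⟩ | ⟨-, h⟩
    · exact h m2
    · exact h m1
  have hpair : ∀ p q, p ≠ q → τ p q = {σ p, σ q} := by
    intro p q hpq
    refine pair_eq (hcard p q hpq) (hσ p q (Ne.symm hpq)) ?_ (fun h => hpq (hinj h))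
    rw [C1 p q hpq]
    exact hσ q p hpq
  have hD : ∀ (c : ↥Cfsg.golayCode) (p q : Cfsg.GolayPt), p ≠ q →
      (x c).1 p + (x c).1 q = c.1 (σ p) + c.1 (σ q) := by
    intro c p q hpq
    rw [hfun p q hpq c, hpair p q hpq, Finset.sum_pair (fun h => hpq (hinj h))]
  -- the shape of the images
  have hshape : ∀ c : ↥Cfsg.golayCode, ∃ ε : ZMod 2, ∀ p, (x c).1 p = c.1 (σ p) + ε := by
    intro c
    refine ⟨(x c).1 (pt 0) + c.1 (σ (pt 0)), ?_⟩
    intro p
    by_cases hp : p = pt 0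
    · rw [hp]
      have h4 : ∀ a b : ZMod 2, a = b + (a + b) := by decide
      exact h4 _ _
    · exact zmod2_move _ _ _ _ (hD c p (pt 0) hp)
  let e : Equiv.Perm Cfsg.GolayPt := Equiv.ofBijective σ (Finite.injective_iff_bijective.mp hinj)
  have he : ∀ p, e p = σ p := fun p => rfl
  refine ⟨e.symm, ?_, ?_⟩
  · apply mem_M24_of_forall
    intro w hw
    obtain ⟨ε, hε⟩ := hshape ⟨w, hw⟩
    have e1 : w ∘ (e.symm).symm = (x ⟨w, hw⟩).1 + ε • (1 : Cfsg.GolayPt → ZMod 2) := by
      funext p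
      have := hε p
      simp only [Function.comp_apply, Equiv.symm_symm, he, Pi.add_apply, Pi.smul_apply,
        Pi.one_apply, smul_eq_mul, mul_one]
      rw [this]
      have h4 : ∀ a b : ZMod 2, a = a + b + b := by decide
      exact h4 _ _
    rw [e1]
    exact Cfsg.golayCode.add_mem (x ⟨w, hw⟩).2 (Cfsg.golayCode.smul_mem _ one_mem_golayCode)
  · intro c
    obtain ⟨ε, hε⟩ := hshape c
    rcases zmod2_cases ε with h0 | h0
    · left
      funext p
      rw [hε p, h0, add_zero]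
      rfl
    · right
      funext p
      rw [hε p, h0]
      rfl

end Cfsg.Agent.Lib.Helper27.OL
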