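import Mathlib
import Cfsg.Prelude.Def_BlockLocal
import Cfsg.Agent.Lib.Helper27.Knorr3
import Cfsg.Agent.Lib.Helper16.NormalKer
import Cfsg.Agent.Lib.Helper77.BrauerCorr
import Cfsg.Agent.Lib.Helper78.ExtFirstMain
import Cfsg.Agent.Lib.Helper23.Transitivity3

set_option autoImplicit false
set_option linter.unusedSectionVars false
set_option linter.style.haveILetI false

namespace Cfsg.Agent.Lib.Helper27.PiKer

open Cfsg Cfsg.Agent.Lib.Helper16 Cfsg.Agent.Lib.Helper77

universe u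

section Eps

variable {G : Type u} [Group G] [Fintype G] {p : ℕ} [Fact p.Prime] {M : Ideal Cfsg.AlgInt}

open scoped Classical in
/-- the normalized indicator function of a subgroup -/
noncomputable def epsFun (K : Subgroup G) : G → ℂ :=
  fun g => if g ∈ K then (Nat.card K : ℂ)⁻¹ else 0

theorem isRClass_epsFun (hM : Cfsg.IsPModular p M) (K : Subgroup G) [hKn : K.Normal]
    (hK : ¬ p ∣ Nat.card K) : IsRClass M (epsFun K) := by
  classical
  have hMp := isPrime_of_isPModular hM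
  refine ⟨?_, ?_⟩
  · intro g h
    unfold epsFun
    have : h * g * h⁻¹ ∈ K ↔ g ∈ K := by
      constructor
      · intro hh
        have := hKn.conj_mem _ hh h⁻¹
        simpa [mul_assoc] using this
      · intro hg
        exact hKn.conj_mem _ hg h
    simp only [this]
  · intro g
    unfold epsFun
    split_ifs
    · exact memLocalRing_inv_natCast hM hK
    · exact memLocalRing_zero hMp

theorem omega_epsFun (χ : G → ℂ) (K : Subgroup G) [Fintype K] :
    omega χ (epsFun K) = (Nat.card K : ℂ)⁻¹ * (∑ u : K, χ (u : G)) / χ 1 := by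
  classical
  unfold omega epsFun
  rw [Finset.mul_sum, Finset.sum_div]
  rw [← Finset.sum_subtype (Finset.univ.filter (fun g : G => g ∈ K)) (p := fun g => g ∈ K)
    (by intro x; simp) (fun g => (Nat.card K : ℂ)⁻¹ * χ g / χ 1)]
  rw [Finset.sum_filter]
  apply Finset.sum_congr rfl
  intro g _
  split_ifs <;> simp

theorem omega_epsFun_of_ker (χ : G → ℂ) (hχ1 : χ 1 ≠ 0) (K : Subgroup G)
    (h : ∀ k ∈ K, χ k = χ 1) : omega χ (epsFun K) = 1 := by
  classical
  haveI : Fintype K := Fintype.ofFinite _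
  rw [omega_epsFun]
  have e : ∑ u : K, χ (u : G) = (Nat.card K : ℂ) * χ 1 := by
    rw [Finset.sum_congr rfl (fun (u : K) _ => h (u : G) u.2), Finset.sum_const, Finset.card_univ,
      Nat.card_eq_fintype_card]
    simp
  rw [e]
  have hK0 : (Nat.card K : ℂ) ≠ 0 := by
    exact_mod_cast Nat.card_pos.ne'
  field_simp

theorem ker_of_omega_epsFun_ne_zero (χ : Cfsg.IrrCharacter G) (K : Subgroup G) [K.Normal]
    (h : omega (χ : G → ℂ) (epsFun K) ≠ 0) : ∀ k ∈ K, (χ : G → ℂ) k = (χ : G → ℂ) 1 := by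
  classical
  haveI : Fintype K := Fintype.ofFinite _
  apply eq_one_of_sum_coset_ne_zero K χ.2 1
  intro h0
  apply h
  rw [omega_epsFun]
  have : ∑ u : K, (χ : G → ℂ) (u : G) = 0 := by
    simpa using h0
  rw [this]
  simp

end Eps

section BR

variable {G : Type u} [Group G] [Fintype G] {p : ℕ} [Fact p.Prime] {M : Ideal Cfsg.AlgInt}

omit [Fintype G] in
theorem cK_normal (K P H : Subgroup G) [hKn : K.Normal]
    (hHN : H ≤ Subgroup.normalizer (P : Set G)) :
    ((K ⊓ Subgroup.centralizer (P : Set G)).subgroupOf H).Normal := by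
  refine ⟨fun k hk h => ?_⟩
  rw [Subgroup.mem_subgroupOf] at hk ⊢
  refine ⟨hKn.conj_mem _ hk.1 _, ?_⟩
  exact (conj_mem_centralizer_iff (hHN h.2) _).mpr hk.2

theorem brRes_epsFun (K P H : Subgroup G) :
    brRes P H (epsFun K) =
      ((Nat.card ((K ⊓ Subgroup.centralizer (P : Set G)).subgroupOf H) : ℂ) *
        (Nat.card K : ℂ)⁻¹) •
      epsFun ((K ⊓ Subgroup.centralizer (P : Set G)).subgroupOf H) := by
  classical
  funext h
  have hK0 : (Nat.card ((K ⊓ Subgroup.centralizer (P : Set G)).subgroupOf H) : ℂ) ≠ 0 := by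
    exact_mod_cast Nat.card_pos.ne'
  unfold brRes epsFun
  generalize (Nat.card ((K ⊓ Subgroup.centralizer (P : Set G)).subgroupOf H) : ℂ) = c at hK0 ⊢
  simp only [Pi.smul_apply, smul_eq_mul, Subgroup.mem_subgroupOf, Subgroup.mem_inf]
  by_cases h1 : (h : G) ∈ Subgroup.centralizer (P : Set G)
  · by_cases h2 : (h : G) ∈ K
    · rw [if_pos h1, if_pos h2, if_pos ⟨h2, h1⟩]; field_simp
    · rw [if_pos h1, if_neg h2, if_neg (fun h3 => h2 h3.1)]; simp
  · rw [if_neg h1, if_neg (fun h3 => h1 h3.2)]; simp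

/-- **Kernels under block induction.** If `ξ ∈ Irr(H)` and `χ ∈ Irr(G)` are linked by block
induction from `H`, `P ≤ H ≤ N_G(P)`, and `K` is a normal `p'`-subgroup of `G`, then `K ≤ ker χ`
iff `C_K(P) ∩ H ≤ ker ξ`. -/
theorem ker_iff_of_ind (hM : Cfsg.IsPModular p M) (P H : Subgroup G) (hP : IsPGroup p P)
    (hPH : P ≤ H) (hHN : H ≤ Subgroup.normalizer (P : Set G)) (ξ : Cfsg.IrrCharacter H)
    (χ : Cfsg.IrrCharacter G)
    (h : ∀ g : G, MemLocalIdeal M (Cfsg.inducedCentralChar H (ξ : H → ℂ) g -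
      Cfsg.centralChar (χ : G → ℂ) g))
    (K : Subgroup G) [K.Normal] (hK : ¬ p ∣ Nat.card K) :
    (∀ k ∈ K, (χ : G → ℂ) k = (χ : G → ℂ) 1) ↔
    (∀ k : H, (k : G) ∈ K → (k : G) ∈ Subgroup.centralizer (P : Set G) →
      (ξ : H → ℂ) k = (ξ : H → ℂ) 1) := by
  classical
  have hMp := isPrime_of_isPModular hM
  haveI : Fintype H := Fintype.ofFinite _
  set K' : Subgroup H := (K ⊓ Subgroup.centralizer (P : Set G)).subgroupOf H with hK'
  haveI : K'.Normal := cK_normal K P H hHN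
  have hK'p : ¬ p ∣ Nat.card K' := by
    intro hdvd
    apply hK
    have h1 : K'.map H.subtype ≤ K := by
      rintro _ ⟨k, hk, rfl⟩
      exact (Subgroup.mem_subgroupOf.mp hk).1
    have h2 := Subgroup.card_dvd_of_le h1
    rw [Subgroup.card_map_of_injective H.subtype_injective] at h2
    exact hdvd.trans h2
  have key := omega_brRes_sub hM P H hP hPH hHN ξ χ h (isRClass_epsFun hM K hK)
  rw [brRes_epsFun, omega_smul] at key
  have hiff : (∀ k : H, (k : G) ∈ K → (k : G) ∈ Subgroup.centralizer (P : Set G) →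
      (ξ : H → ℂ) k = (ξ : H → ℂ) 1) ↔ (∀ k ∈ K', (ξ : H → ℂ) k = (ξ : H → ℂ) 1) := by
    constructor
    · intro h1 k hk
      rw [hK', Subgroup.mem_subgroupOf] at hk
      exact h1 k hk.1 hk.2
    · intro h1 k hk1 hk2
      apply h1 k
      rw [hK', Subgroup.mem_subgroupOf]
      exact ⟨hk1, hk2⟩
  rw [hiff]
  constructor
  · intro hχ
    rw [omega_epsFun_of_ker _ (Cfsg.Agent.Lib.Helper16.irr_one_ne_zero χ) K hχ] at key
    by_contra hcon
    have h0 : omega (ξ : H → ℂ) (epsFun K') = 0 := by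
      by_contra hne
      exact hcon (ker_of_omega_epsFun_ne_zero ξ K' hne)
    rw [h0, mul_zero, zero_sub] at key
    have := memLocalIdeal_neg key
    rw [neg_neg] at this
    exact not_memLocalIdeal_one hMp this
  · intro hξ
    rw [omega_epsFun_of_ker _ (Cfsg.Agent.Lib.Helper16.irr_one_ne_zero ξ) K' hξ, mul_one] at key
    by_contra hcon
    have h0 : omega (χ : G → ℂ) (epsFun K) = 0 := by
      by_contra hne
      exact hcon (ker_of_omega_epsFun_ne_zero χ K hne)
    rw [h0, sub_zero] at key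
    have h3 := memLocalIdeal_mul_left hMp (memLocalRing_natCast hMp (Nat.card K)) key
    have hK0 : (Nat.card K : ℂ) ≠ 0 := by exact_mod_cast Nat.card_pos.ne'
    have e : (Nat.card K : ℂ) * ((Nat.card K' : ℂ) * (Nat.card K : ℂ)⁻¹) = (Nat.card K' : ℂ) := by
      field_simp
    rw [e] at h3
    exact hK'p ((memLocalIdeal_natCast_iff hM _).mp h3)

end BR

section BRSub

variable {G : Type u} [Group G] [Fintype G] {p : ℕ} [Fact p.Prime] {M : Ideal Cfsg.AlgInt}

/-- every member of `β` is trivial on the elements of `X` lying in `K` -/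
def KerOn {X : Subgroup G} (K : Subgroup G) (β : Set (Cfsg.IrrCharacter X)) : Prop :=
  ∀ χ ∈ β, ∀ k : X, (k : G) ∈ K → (χ : X → ℂ) k = (χ : X → ℂ) 1

omit [Fintype G] in
theorem KerOn.mono {X : Subgroup G} {K K' : Subgroup G} {β : Set (Cfsg.IrrCharacter X)}
    (h : KerOn K β) (hle : K' ≤ K) : KerOn K' β :=
  fun χ hχ k hk => h χ hχ k (hle hk)

omit [Fintype G] in
theorem mem_centralizer_subgroupOf {X P : Subgroup G} (hPX : P ≤ X) (k : X) :
    k ∈ Subgroup.centralizer ((P.subgroupOf X : Subgroup X) : Set X) ↔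
      (k : G) ∈ Subgroup.centralizer (P : Set G) := by
  rw [Subgroup.mem_centralizer_iff, Subgroup.mem_centralizer_iff]
  constructor
  · intro h d hd
    have := h ⟨d, hPX hd⟩ (Subgroup.mem_subgroupOf.mpr hd)
    exact congrArg Subtype.val this
  · intro h d hd
    apply Subtype.ext
    exact h (d : G) (Subgroup.mem_subgroupOf.mp hd)

/-- **Kernels under block induction, inside a subgroup `X`.** -/
theorem kerOn_iff_of_ind (hM : Cfsg.IsPModular p M) {X H : Subgroup G} (hHX : H ≤ X)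
    (P K : Subgroup G) (hP : IsPGroup p P) (hPH : P ≤ H)
    (hHN : H ≤ Subgroup.normalizer (P : Set G)) (hKX : K ≤ X)
    (hXK : X ≤ Subgroup.normalizer (K : Set G)) (hK : ¬ p ∣ Nat.card K)
    (b : Set (Cfsg.IrrCharacter H)) (B : Set (Cfsg.IrrCharacter X))
    (hind : Cfsg.IsInducedBlock M (H.subgroupOf X) (pullSet hHX b) B) :
    KerOn K B ↔ KerOn (K ⊓ Subgroup.centralizer (P : Set G)) b := by
  classical
  have hMp := isPrime_of_isPModular hM
  haveI : Fintype X := Fintype.ofFinite _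
  have hPX : P ≤ X := hPH.trans hHX
  haveI hKn : (K.subgroupOf X).Normal :=
    (Subgroup.normal_subgroupOf_iff_le_normalizer hKX).mpr hXK
  have hPp : IsPGroup p (P.subgroupOf X) := hP.comap_subtype
  have hPH' : P.subgroupOf X ≤ H.subgroupOf X := Subgroup.comap_mono hPH
  have hHN' : H.subgroupOf X ≤ Subgroup.normalizer ((P.subgroupOf X : Subgroup X) : Set X) := by
    rw [← Subgroup.subgroupOf_normalizer_eq hPX]
    exact Subgroup.comap_mono hHN
  have hKp : ¬ p ∣ Nat.card (K.subgroupOf X) := by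
    rw [Nat.card_congr (Subgroup.subgroupOfEquivOfLe hKX).toEquiv]
    exact hK
  have br : ∀ ξ' ∈ pullSet hHX b, ∀ χ ∈ B,
      ((∀ k ∈ K.subgroupOf X, (χ : X → ℂ) k = (χ : X → ℂ) 1) ↔
      (∀ k : H.subgroupOf X, (k : X) ∈ K.subgroupOf X →
        (k : X) ∈ Subgroup.centralizer ((P.subgroupOf X : Subgroup X) : Set X) →
        (ξ' : H.subgroupOf X → ℂ) k = (ξ' : H.subgroupOf X → ℂ) 1)) := by
    intro ξ' hξ' χ hχ
    exact ker_iff_of_ind hM (P.subgroupOf X) (H.subgroupOf X) hPp hPH' hHN' ξ' χ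
      (hind.2.2 ξ' hξ' χ hχ) (K.subgroupOf X) hKp
  have t1 : KerOn K B ↔ ∀ χ ∈ B, ∀ k ∈ K.subgroupOf X, (χ : X → ℂ) k = (χ : X → ℂ) 1 := by
    constructor
    · intro h χ hχ k hk
      exact h χ hχ k (Subgroup.mem_subgroupOf.mp hk)
    · intro h χ hχ k hk
      exact h χ hχ k (Subgroup.mem_subgroupOf.mpr hk)
  have t2 : KerOn (K ⊓ Subgroup.centralizer (P : Set G)) b ↔
      ∀ ξ' ∈ pullSet hHX b, ∀ k : H.subgroupOf X, (k : X) ∈ K.subgroupOf X →
        (k : X) ∈ Subgroup.centralizer ((P.subgroupOf X : Subgroup X) : Set X) →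
        (ξ' : H.subgroupOf X → ℂ) k = (ξ' : H.subgroupOf X → ℂ) 1 := by
    constructor
    · rintro h _ ⟨ξ, hξ, rfl⟩ k hk1 hk2
      rw [mapIrr_one, mapIrr_apply, MulEquiv.symm_symm]
      apply h ξ hξ
      exact ⟨Subgroup.mem_subgroupOf.mp hk1, (mem_centralizer_subgroupOf hPX _).mp hk2⟩
    · intro h ξ hξ k hk
      have h1 := h (mapIrr (Subgroup.subgroupOfEquivOfLe hHX).symm ξ) ⟨ξ, hξ, rfl⟩
        ((Subgroup.subgroupOfEquivOfLe hHX).symm k) (Subgroup.mem_subgroupOf.mpr hk.1)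
        ((mem_centralizer_subgroupOf hPX _).mpr hk.2)
      rwa [mapIrr_apply_apply, mapIrr_one] at h1
  rw [t1, t2]
  constructor
  · intro h ξ' hξ'
    obtain ⟨χ₀, hχ₀⟩ := IsPBlock.nonempty hMp hind.2.1
    exact (br ξ' hξ' χ₀ hχ₀).mp (h χ₀ hχ₀)
  · intro h χ hχ
    obtain ⟨ξ₀, hξ₀⟩ := IsPBlock.nonempty hMp hind.1
    exact (br ξ₀ hξ₀ χ hχ).mpr (h ξ₀ hξ₀)

end BRSub

section Conj

variable {G : Type u} [Group G] [Fintype G] {p : ℕ} [Fact p.Prime] {M : Ideal Cfsg.AlgInt}

omit [Fintype G] in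
/-- block induction is compatible with conjugating the subgroup -/
theorem ind_conj_equiv (hM : M.IsPrime) {H H' : Subgroup G} (κ : H ≃* H') (g : G)
    (hκ : ∀ h : H, ((κ h : H') : G) = g * (h : G) * g⁻¹)
    (b : Set (Cfsg.IrrCharacter H)) (B : Set (Cfsg.IrrCharacter G))
    (h : Cfsg.IsInducedBlock M H b B) : Cfsg.IsInducedBlock M H' (mapSet κ b) B := by
  refine ⟨isPBlock_mapSet hM _ h.1, h.2.1, ?_⟩
  rintro _ ⟨ξ, hξ, rfl⟩ χ hχ a
  have key := h.2.2 ξ hξ χ hχ a
  have e : Cfsg.inducedCentralChar H' (mapIrr κ ξ : H' → ℂ) a =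
      Cfsg.inducedCentralChar H (ξ : H → ℂ) a := by
    unfold Cfsg.inducedCentralChar
    symm
    apply finsum_mem_eq_of_bijOn (fun k : H => κ k)
    · refine ⟨?_, ?_, ?_⟩
      · intro k hk
        show IsConj a ((κ k : H') : G)
        rw [hκ]
        have hk' : IsConj a (k : G) := hk
        exact hk'.trans (isConj_iff.mpr ⟨g, rfl⟩)
      · intro x _ y _ hxy
        exact κ.injective hxy
      · intro k' hk'
        refine ⟨κ.symm k', ?_, κ.apply_symm_apply k'⟩
        show IsConj a ((κ.symm k' : H) : G)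
        have e1 : ((k' : H') : G) = g * ((κ.symm k' : H) : G) * g⁻¹ := by
          rw [← hκ, κ.apply_symm_apply]
        have hk'' : IsConj a (k' : G) := hk'
        refine hk''.trans (isConj_iff.mpr ⟨g⁻¹, ?_⟩)
        rw [e1]
        group
    · intro k _
      rw [mapIrr_apply_apply, mapIrr_one]
  rw [e]
  exact key

/-- conjugation, between the normalizers of conjugate subgroups -/
noncomputable def normConj (D : Subgroup G) (x : G) :
    Subgroup.normalizer (D : Set G) ≃*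
      Subgroup.normalizer ((D.map (MulAut.conj x).toMonoidHom : Subgroup G) : Set G) :=
  ((MulAut.conj x).subgroupMap (Subgroup.normalizer (D : Set G))).trans
    (MulEquiv.subgroupCongr (Subgroup.map_equiv_normalizer_eq D (MulAut.conj x)))

omit [Fintype G] in
theorem normConj_coe (D : Subgroup G) (x : G) (n : Subgroup.normalizer (D : Set G)) :
    ((normConj D x n : Subgroup.normalizer
      ((D.map (MulAut.conj x).toMonoidHom : Subgroup G) : Set G)) : G) = x * (n : G) * x⁻¹ :=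
  rfl

/-- the `σ`-core of `X` lies in the kernel of `β` -/
def Good (σ : Set ℕ) {X : Subgroup G} (β : Set (Cfsg.IrrCharacter X)) : Prop :=
  ∀ x : X, x ∈ Cfsg.piCore σ X → x ∈ Cfsg.blockKer β

omit [Fintype G] in
theorem good_iff_kerOn (σ : Set ℕ) {X : Subgroup G} (β : Set (Cfsg.IrrCharacter X)) :
    Good σ β ↔ KerOn (Cfsg.piCoreOf σ X) β := by
  constructor
  · rintro h χ hχ k ⟨k', hk', hkk'⟩
    have : k' = k := Subtype.ext hkk'
    subst this
    exact h k' hk' χ hχ
  · intro h x hx χ hχ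
    exact h χ hχ x ⟨x, hx, rfl⟩

/-- **Independence of the defect group.** The kernel condition on the Brauer correspondent does
not depend on the choice of the defect group. -/
theorem good_transfer (hM : Cfsg.IsPModular p M) (σ : Set ℕ) (B : Set (Cfsg.IrrCharacter G))
    (hB : Cfsg.IsPBlock M B) (D₁ D₂ : Subgroup G) (hD₁ : Cfsg.IsDefectGroup p M B D₁)
    (hD₂ : Cfsg.IsDefectGroup p M B D₂)
    (B₁ : Set (Cfsg.IrrCharacter (Subgroup.normalizer (D₁ : Set G))))
    (B₂ : Set (Cfsg.IrrCharacter (Subgroup.normalizer (D₂ : Set G))))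
    (h₁ : Cfsg.IsInducedBlock M (Subgroup.normalizer (D₁ : Set G)) B₁ B)
    (h₂ : Cfsg.IsInducedBlock M (Subgroup.normalizer (D₂ : Set G)) B₂ B)
    (hgood : Good σ B₁) : Good σ B₂ := by
  classical
  have hMp := isPrime_of_isPModular hM
  obtain ⟨x, rfl⟩ := isDefectGroup_conj hM B hB hD₁ hD₂
  have hi := ind_conj_equiv hMp (normConj D₁ x) x (fun _ => rfl) B₁ B h₁
  have hdef := (isDefectGroup_of_isInducedBlock_normalizer hM B hB _ hD₂ B₂ h₂).1
  have e := firstMain_unique hM _ (isPGroup_of_isDefectGroup hD₂) B hB B₂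
    (mapSet (normConj D₁ x) B₁) h₂.1 hdef h₂ hi
  intro n hn
  rw [← e]
  rintro _ ⟨χ, hχ, rfl⟩
  rw [mapIrr_apply, mapIrr_one]
  apply hgood _ _ χ hχ
  exact Cfsg.Agent.S3743.piCore_map_le σ (normConj D₁ x).symm ⟨n, hn, rfl⟩

/-- the Brauer correspondent of a block of `H`, as a block of `H ⊓ N_G(P)` -/
theorem exists_corr_inf (hM : Cfsg.IsPModular p M) (H : Subgroup G)
    (c : Set (Cfsg.IrrCharacter H)) (hc : Cfsg.IsPBlock M c) (P : Subgroup H)
    (hP : Cfsg.IsDefectGroup p M c P) :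
    ∃ β : Set (Cfsg.IrrCharacter
        (H ⊓ Subgroup.normalizer ((P.map H.subtype : Subgroup G) : Set G) : Subgroup G)),
      Cfsg.IsPBlock M β ∧
      Cfsg.IsInducedBlock M
        ((H ⊓ Subgroup.normalizer ((P.map H.subtype : Subgroup G) : Set G)).subgroupOf H)
        (pullSet inf_le_left β) c := by
  classical
  have hMp := isPrime_of_isPModular hM
  haveI : Fintype H := Fintype.ofFinite _
  obtain ⟨β0, hβ0⟩ := exists_isInducedBlock_normalizer hM c hc P hP
  have hEq : (H ⊓ Subgroup.normalizer ((P.map H.subtype : Subgroup G) : Set G)).subgroupOf H =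
      Subgroup.normalizer (P : Set H) := by
    rw [Subgroup.inf_subgroupOf_left, Knorr.normalizer_map_subgroupOf]
  have hi1 := Knorr.ind_of_equiv (Subgroup.normalizer (P : Set H)) _
    (MulEquiv.subgroupCongr hEq.symm) (fun _ => rfl) β0 c hβ0
  refine ⟨mapSet (Subgroup.subgroupOfEquivOfLe inf_le_left)
    (mapSet (MulEquiv.subgroupCongr hEq.symm) β0),
    isPBlock_mapSet hMp _ (isPBlock_mapSet hMp _ hβ0.1), ?_⟩
  unfold pullSet
  rw [mapSet_symm_mapSet]
  exact hi1

end Conj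

section Desc

variable {G : Type u} [Group G] [Fintype G] {p : ℕ} [Fact p.Prime] {M : Ideal Cfsg.AlgInt}

open Cfsg.Agent.Lib.Helper23

omit [Fintype G] in
theorem le_normalizer_inf {A K C : Subgroup G} (h1 : A ≤ Subgroup.normalizer (K : Set G))
    (h2 : A ≤ Subgroup.normalizer (C : Set G)) :
    A ≤ Subgroup.normalizer ((K ⊓ C : Subgroup G) : Set G) := by
  intro a ha
  rw [Subgroup.mem_normalizer_iff]
  intro w
  have e1 := Subgroup.mem_normalizer_iff.mp (h1 ha) w
  have e2 := Subgroup.mem_normalizer_iff.mp (h2 ha) w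
  constructor
  · rintro ⟨w1, w2⟩
    exact ⟨e1.mp w1, e2.mp w2⟩
  · rintro ⟨w1, w2⟩
    exact ⟨e1.mpr w1, e2.mpr w2⟩

theorem not_dvd_card_piCoreOf (σ : Set ℕ) (hpσ : p ∉ σ) (X : Subgroup G) :
    ¬ p ∣ Nat.card (Cfsg.piCoreOf σ X) :=
  fun h => hpσ (piCoreOf_isPi σ X p Fact.out h)

/-- `O_σ(X) ∩ C ≤ O_σ(C)` when `C ≤ X` -/
theorem piCoreOf_inf_le (σ : Set ℕ) {X C : Subgroup G} (hCX : C ≤ X) :
    Cfsg.piCoreOf σ X ⊓ C ≤ Cfsg.piCoreOf σ C := by
  apply le_piCoreOf_of_normal inf_le_right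
  · exact le_normalizer_inf (hCX.trans (piCoreOf_normalizer σ X)) Subgroup.le_normalizer
  · intro r hr hdvd
    exact piCoreOf_isPi σ X r hr (hdvd.trans (Subgroup.card_dvd_of_le inf_le_left))

/-- `O_σ(C_G(D)) ≤ O_σ(N_G(D))` -/
theorem piCoreOf_centralizer_le (σ : Set ℕ) (D : Subgroup G) :
    Cfsg.piCoreOf σ (Subgroup.centralizer (D : Set G)) ≤
      Cfsg.piCoreOf σ (Subgroup.normalizer (D : Set G)) := by
  apply le_piCoreOf_of_normal ((piCoreOf_le σ _).trans (Subgroup.centralizer_le_normalizer _))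
  · exact (Cfsg.Agent.Lib.Helper77.normalizer_le_normalizer_centralizer D).trans
      (normalizer_le_normalizer_piCoreOf σ _)
  · exact piCoreOf_isPi σ _

/-- **Descent.** If the kernel condition holds for the Brauer correspondents of `B`, it holds for
every block `B₀` of a subgroup `G₀ ≥ C_G(D₀)` inducing `B`, `D₀` a defect group of `B₀`. -/
theorem desc (hM : Cfsg.IsPModular p M) (σ : Set ℕ) (hpσ : p ∉ σ)
    (B : Set (Cfsg.IrrCharacter G))
    (hyp : ∀ (D : Subgroup G), Cfsg.IsDefectGroup p M B D →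
      ∀ B₁ : Set (Cfsg.IrrCharacter (Subgroup.normalizer (D : Set G))),
        Cfsg.IsInducedBlock M (Subgroup.normalizer (D : Set G)) B₁ B → Good σ B₁) :
    ∀ (n : ℕ) (G₀ : Subgroup G) (B₀ : Set (Cfsg.IrrCharacter G₀)) (D₀ : Subgroup G₀),
      Nat.card G - Nat.card D₀ = n →
      Cfsg.IsInducedBlock M G₀ B₀ B → Cfsg.IsDefectGroup p M B₀ D₀ →
      Subgroup.centralizer ((D₀.map G₀.subtype : Subgroup G) : Set G) ≤ G₀ → Good σ B₀ := by
  intro n
  induction n using Nat.strong_induction_on with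
  | _ n ih =>
  intro G₀ B₀ D₀ hn hB₀ hD₀ hC
  classical
  have hMp := isPrime_of_isPModular hM
  haveI : Fintype G₀ := Fintype.ofFinite _
  have hpD₀ : IsPGroup p D₀ := isPGroup_of_isDefectGroup hD₀
  have hpD₀' : IsPGroup p (D₀.map G₀.subtype) := hpD₀.map _
  have hD₀'G₀ : D₀.map G₀.subtype ≤ G₀ := Subgroup.map_subtype_le D₀
  obtain ⟨b₁, hb₁, hind₁⟩ := exists_corr_inf hM G₀ B₀ hB₀.1 D₀ hD₀
  generalize hD₀' : D₀.map G₀.subtype = D₀' at hpD₀' hD₀'G₀ b₁ hb₁ hind₁ hC
  have hcardD : Nat.card D₀' = Nat.card D₀ := by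
    rw [← hD₀']
    exact Subgroup.card_map_of_injective G₀.subtype_injective
  haveI : Fintype (Subgroup.normalizer (D₀' : Set G)) := Fintype.ofFinite _
  have hH₁N : G₀ ⊓ Subgroup.normalizer (D₀' : Set G) ≤ Subgroup.normalizer (D₀' : Set G) :=
    inf_le_right
  have hD₀'H₁ : D₀' ≤ G₀ ⊓ Subgroup.normalizer (D₀' : Set G) :=
    le_inf hD₀'G₀ Subgroup.le_normalizer
  haveI hP₀n : (D₀'.subgroupOf (Subgroup.normalizer (D₀' : Set G))).Normal :=
    (Subgroup.normal_subgroupOf_iff_le_normalizer Subgroup.le_normalizer).mpr le_rfl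
  have hpP₀ : IsPGroup p (D₀'.subgroupOf (Subgroup.normalizer (D₀' : Set G))) :=
    hpD₀'.comap_subtype
  obtain ⟨B₀', hind₂⟩ := exists_isInducedBlock_of_isPBlock hM
    (D₀'.subgroupOf (Subgroup.normalizer (D₀' : Set G)))
    ((G₀ ⊓ Subgroup.normalizer (D₀' : Set G)).subgroupOf (Subgroup.normalizer (D₀' : Set G)))
    hpP₀ (Subgroup.comap_mono hD₀'H₁)
    (by
      intro k hk
      rw [Subgroup.mem_subgroupOf]
      exact ⟨hC ((mem_centralizer_subgroupOf Subgroup.le_normalizer k).mp hk), k.2⟩)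
    (le_top.trans_eq (Subgroup.normalizer_eq_top_iff.mpr hP₀n).symm)
    (pullSet hH₁N b₁) (isPBlock_pullSet hMp hH₁N hb₁)
  obtain ⟨B', hB'⟩ := exists_isInducedBlock_of_isPBlock hM D₀'
    (Subgroup.normalizer (D₀' : Set G)) hpD₀' Subgroup.le_normalizer
    (Subgroup.centralizer_le_normalizer _) le_rfl B₀' hind₂.2.1
  have hb₁B : Cfsg.IsInducedBlock M (G₀ ⊓ Subgroup.normalizer (D₀' : Set G)) b₁ B :=
    Cfsg.Agent.Lib.Helper78.efm_trans hMp inf_le_left b₁ B₀ B hind₁ hB₀
  have hb₁B' : Cfsg.IsInducedBlock M (G₀ ⊓ Subgroup.normalizer (D₀' : Set G)) b₁ B' :=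
    Cfsg.Agent.Lib.Helper78.efm_trans hMp hH₁N b₁ B₀' B' hind₂ hB'
  have hBB' : B' = B := Cfsg.Agent.Lib.Helper78.efm_unique hMp hb₁B' hb₁B
  subst hBB'
  -- the kernel condition for `B₀'`
  have hgoodN : Good σ B₀' := by
    by_cases hA : Cfsg.IsDefectGroup p M B' D₀'
    · exact hyp D₀' hA B₀' hB'
    · obtain ⟨D₁, hD₁⟩ := exists_isDefectGroup p hMp B₀' hind₂.2.1
      have hle : D₀'.subgroupOf (Subgroup.normalizer (D₀' : Set G)) ≤ D₁ :=
        normal_pgroup_le_of_isDefectGroup hM _ hpP₀ hind₂.2.1 hD₁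
      have hne : D₀'.subgroupOf (Subgroup.normalizer (D₀' : Set G)) ≠ D₁ := by
        intro heq
        apply hA
        rw [← heq] at hD₁
        exact firstMain_i hM D₀' hpD₀' B₀' hind₂.2.1 hD₁ B' hB'
      have h2 : Nat.card (D₀'.subgroupOf (Subgroup.normalizer (D₀' : Set G))) = Nat.card D₀' :=
        Nat.card_congr (Subgroup.subgroupOfEquivOfLe Subgroup.le_normalizer).toEquiv
      have h3 : Nat.card (D₀'.subgroupOf (Subgroup.normalizer (D₀' : Set G))) < Nat.card D₁ := by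
        by_contra hcon
        exact hne (Subgroup.eq_of_le_of_card_ge hle (not_lt.mp hcon))
      have hcard : Nat.card D₁ ≤ Nat.card G :=
        (Subgroup.card_le_card_group D₁).trans (Subgroup.card_le_card_group _)
      refine ih (Nat.card G - Nat.card D₁) (by omega) (Subgroup.normalizer (D₀' : Set G)) B₀' D₁
        rfl hB' hD₁ ?_
      intro c hc
      apply Subgroup.centralizer_le_normalizer
      rw [Subgroup.mem_centralizer_iff] at hc ⊢
      intro d hd
      apply hc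
      exact ⟨⟨d, Subgroup.le_normalizer hd⟩, hle (Subgroup.mem_subgroupOf.mpr hd), rfl⟩
  have k1 : KerOn (Cfsg.piCoreOf σ (Subgroup.normalizer (D₀' : Set G))) B₀' :=
    (good_iff_kerOn σ B₀').mp hgoodN
  have k2 := (kerOn_iff_of_ind hM hH₁N D₀' (Cfsg.piCoreOf σ (Subgroup.normalizer (D₀' : Set G)))
    hpD₀' hD₀'H₁ inf_le_right (piCoreOf_le σ _) (piCoreOf_normalizer σ _)
    (not_dvd_card_piCoreOf σ hpσ _) b₁ B₀' hind₂).mp k1
  have hle2 : Cfsg.piCoreOf σ G₀ ⊓ Subgroup.centralizer (D₀' : Set G) ≤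
      Cfsg.piCoreOf σ (Subgroup.normalizer (D₀' : Set G)) ⊓
        Subgroup.centralizer (D₀' : Set G) :=
    le_inf ((piCoreOf_inf_le σ hC).trans (piCoreOf_centralizer_le σ D₀')) inf_le_right
  have k3 := k2.mono hle2
  have k4 := (kerOn_iff_of_ind hM inf_le_left D₀' (Cfsg.piCoreOf σ G₀)
    hpD₀' hD₀'H₁ inf_le_right (piCoreOf_le σ _) (piCoreOf_normalizer σ _)
    (not_dvd_card_piCoreOf σ hpσ _) b₁ B₀ hind₁).mpr k3
  exact (good_iff_kerOn σ B₀).mpr k4

end Desc

end Cfsg.Agent.Lib.Helper27.PiKer
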