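import Mathlib
import Cfsg.Agent.Lib.Helper27.PiKer1

set_option autoImplicit false
set_option linter.unusedSectionVars false
set_option linter.style.haveILetI false

namespace Cfsg.Agent.Lib.Helper27.PiKer

open Cfsg Cfsg.Agent.Lib.Helper16 Cfsg.Agent.Lib.Helper77

universe u

section Asc

variable {G : Type u} [Group G] [Fintype G] {p : ℕ} [Fact p.Prime] {M : Ideal Cfsg.AlgInt}

open Cfsg.Agent.Lib.Helper23

/-- every `σ`-element of `C_G(D)` lies in `O_σ(C_G(D))` -/
def HallC (σ : Set ℕ) (D : Subgroup G) : Prop :=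
  ∀ x ∈ Subgroup.centralizer (D : Set G), (∀ q : ℕ, q.Prime → q ∣ orderOf x → q ∈ σ) →
    x ∈ Cfsg.piCoreOf σ (Subgroup.centralizer (D : Set G))

/-- **Ascent.** A block `b` of `H`, `D₀ C_G(D₀) ≤ H ≤ N_G(D₀)`, inducing `B` and trivial on the
normal Hall `σ`-subgroup of `C_G(D₀)`, forces the kernel condition on a Brauer correspondent of
`B`. -/
theorem asc (hM : Cfsg.IsPModular p M) (σ : Set ℕ) (hpσ : p ∉ σ)
    (B : Set (Cfsg.IrrCharacter G)) :
    ∀ (n : ℕ) (D₀ H : Subgroup G) (b : Set (Cfsg.IrrCharacter H)),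
      Nat.card G - Nat.card D₀ = n → IsPGroup p D₀ → D₀ ≤ H →
      Subgroup.centralizer (D₀ : Set G) ≤ H → H ≤ Subgroup.normalizer (D₀ : Set G) →
      Cfsg.IsInducedBlock M H b B → HallC σ D₀ →
      KerOn (Cfsg.piCoreOf σ (Subgroup.centralizer (D₀ : Set G))) b →
      ∃ (D : Subgroup G) (B₁ : Set (Cfsg.IrrCharacter (Subgroup.normalizer (D : Set G)))),
        Cfsg.IsDefectGroup p M B D ∧
        Cfsg.IsInducedBlock M (Subgroup.normalizer (D : Set G)) B₁ B ∧ Good σ B₁ := by
  intro n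
  induction n using Nat.strong_induction_on with
  | _ n ih =>
  intro D₀ H b hn hpD₀ hD₀H hCH hHN hb hcompl hkerb
  classical
  have hMp := isPrime_of_isPModular hM
  haveI : Fintype H := Fintype.ofFinite _
  haveI : Fintype (Subgroup.normalizer (D₀ : Set G)) := Fintype.ofFinite _
  haveI hP₀n : (D₀.subgroupOf (Subgroup.normalizer (D₀ : Set G))).Normal :=
    (Subgroup.normal_subgroupOf_iff_le_normalizer Subgroup.le_normalizer).mpr le_rfl
  have hpP₀ : IsPGroup p (D₀.subgroupOf (Subgroup.normalizer (D₀ : Set G))) :=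
    hpD₀.comap_subtype
  obtain ⟨B₀', hind₂⟩ := exists_isInducedBlock_of_isPBlock hM
    (D₀.subgroupOf (Subgroup.normalizer (D₀ : Set G)))
    (H.subgroupOf (Subgroup.normalizer (D₀ : Set G)))
    hpP₀ (Subgroup.comap_mono hD₀H)
    (by
      intro k hk
      rw [Subgroup.mem_subgroupOf]
      exact hCH ((mem_centralizer_subgroupOf Subgroup.le_normalizer k).mp hk))
    (le_top.trans_eq (Subgroup.normalizer_eq_top_iff.mpr hP₀n).symm)
    (pullSet hHN b) (isPBlock_pullSet hMp hHN hb.1)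
  obtain ⟨B', hB'⟩ := exists_isInducedBlock_of_isPBlock hM D₀
    (Subgroup.normalizer (D₀ : Set G)) hpD₀ Subgroup.le_normalizer
    (Subgroup.centralizer_le_normalizer _) le_rfl B₀' hind₂.2.1
  have hbB' : Cfsg.IsInducedBlock M H b B' :=
    Cfsg.Agent.Lib.Helper78.efm_trans hMp hHN b B₀' B' hind₂ hB'
  have hBB' : B' = B := Cfsg.Agent.Lib.Helper78.efm_unique hMp hbB' hb
  subst hBB'
  have hK₀N : Cfsg.piCoreOf σ (Subgroup.centralizer (D₀ : Set G)) ≤
      Subgroup.normalizer (D₀ : Set G) :=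
    (piCoreOf_le σ _).trans (Subgroup.centralizer_le_normalizer _)
  have hNK₀ : Subgroup.normalizer (D₀ : Set G) ≤
      Subgroup.normalizer (Cfsg.piCoreOf σ (Subgroup.centralizer (D₀ : Set G)) : Set G) :=
    (Cfsg.Agent.Lib.Helper77.normalizer_le_normalizer_centralizer D₀).trans
      (normalizer_le_normalizer_piCoreOf σ _)
  have hK₀p := not_dvd_card_piCoreOf (p := p) σ hpσ (Subgroup.centralizer (D₀ : Set G))
  have k1 : KerOn (Cfsg.piCoreOf σ (Subgroup.centralizer (D₀ : Set G))) B₀' :=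
    (kerOn_iff_of_ind hM hHN D₀ _ hpD₀ hD₀H hHN hK₀N hNK₀ hK₀p b B₀' hind₂).mpr
      (hkerb.mono inf_le_left)
  by_cases hA : Cfsg.IsDefectGroup p M B' D₀
  · refine ⟨D₀, B₀', hA, hB', (good_iff_kerOn σ B₀').mpr (k1.mono ?_)⟩
    rintro _ ⟨x', hx', rfl⟩
    have hdis : Disjoint (Cfsg.piCore σ (Subgroup.normalizer (D₀ : Set G)))
        (D₀.subgroupOf (Subgroup.normalizer (D₀ : Set G))) := by
      apply Subgroup.disjoint_of_coprime_natCard
      obtain ⟨k, hk⟩ := IsPGroup.iff_card.mp hpP₀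
      rw [hk]
      apply Nat.Coprime.pow_right
      apply Nat.Coprime.symm
      rw [Nat.Prime.coprime_iff_not_dvd Fact.out]
      exact fun h => hpσ (Cfsg.Agent.S3743.piCore_isPi σ p Fact.out h)
    have hcomm := Subgroup.commute_of_normal_of_disjoint _ _ (Cfsg.piCore_normal σ _) hP₀n hdis
    have hxC : ((x' : Subgroup.normalizer (D₀ : Set G)) : G) ∈
        Subgroup.centralizer (D₀ : Set G) := by
      rw [Subgroup.mem_centralizer_iff]
      intro d hd
      have := hcomm x' ⟨d, Subgroup.le_normalizer hd⟩ hx' (Subgroup.mem_subgroupOf.mpr hd)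
      exact (congrArg Subtype.val this.eq).symm
    apply hcompl _ hxC
    intro q hq hdvd
    rw [Subgroup.orderOf_coe] at hdvd
    exact Cfsg.Agent.S3743.piCore_isPi (G := Subgroup.normalizer (D₀ : Set G)) σ q hq
      (hdvd.trans (Subgroup.orderOf_dvd_natCard _ hx'))
  · obtain ⟨D₁, hD₁⟩ := exists_isDefectGroup p hMp B₀' hind₂.2.1
    have hle : D₀.subgroupOf (Subgroup.normalizer (D₀ : Set G)) ≤ D₁ :=
      normal_pgroup_le_of_isDefectGroup hM _ hpP₀ hind₂.2.1 hD₁
    have hne : D₀.subgroupOf (Subgroup.normalizer (D₀ : Set G)) ≠ D₁ := by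
      intro heq
      apply hA
      rw [← heq] at hD₁
      exact firstMain_i hM D₀ hpD₀ B₀' hind₂.2.1 hD₁ B' hB'
    have h2 : Nat.card (D₀.subgroupOf (Subgroup.normalizer (D₀ : Set G))) = Nat.card D₀ :=
      Nat.card_congr (Subgroup.subgroupOfEquivOfLe Subgroup.le_normalizer).toEquiv
    have h3 : Nat.card (D₀.subgroupOf (Subgroup.normalizer (D₀ : Set G))) < Nat.card D₁ := by
      by_contra hcon
      exact hne (Subgroup.eq_of_le_of_card_ge hle (not_lt.mp hcon))
    obtain ⟨b', hb', hind'⟩ := exists_corr_inf hM (Subgroup.normalizer (D₀ : Set G)) B₀'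
      hind₂.2.1 D₁ hD₁
    have hpD₁ : IsPGroup p (D₁.map (Subgroup.normalizer (D₀ : Set G)).subtype) :=
      (isPGroup_of_isDefectGroup hD₁).map _
    have hD₁N : D₁.map (Subgroup.normalizer (D₀ : Set G)).subtype ≤
        Subgroup.normalizer (D₀ : Set G) := Subgroup.map_subtype_le D₁
    have hD₀D₁ : D₀ ≤ D₁.map (Subgroup.normalizer (D₀ : Set G)).subtype := by
      intro d hd
      exact ⟨⟨d, Subgroup.le_normalizer hd⟩, hle (Subgroup.mem_subgroupOf.mpr hd), rfl⟩
    have hcardD : Nat.card (D₁.map (Subgroup.normalizer (D₀ : Set G)).subtype) = Nat.card D₁ :=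
      Subgroup.card_map_of_injective (Subgroup.subtype_injective _)
    generalize hD₁' : D₁.map (Subgroup.normalizer (D₀ : Set G)).subtype = D₁' at b' hb' hind' hpD₁ hD₁N hD₀D₁ hcardD
    have hcard : Nat.card D₁' ≤ Nat.card G := Subgroup.card_le_card_group _
    have hCC : Subgroup.centralizer (D₁' : Set G) ≤ Subgroup.centralizer (D₀ : Set G) :=
      Subgroup.centralizer_le hD₀D₁
    have hb'B : Cfsg.IsInducedBlock M
        (Subgroup.normalizer (D₀ : Set G) ⊓ Subgroup.normalizer (D₁' : Set G)) b' B' :=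
      Cfsg.Agent.Lib.Helper78.efm_trans hMp inf_le_left b' B₀' B' hind' hB'
    refine ih (Nat.card G - Nat.card D₁') (by omega) D₁'
      (Subgroup.normalizer (D₀ : Set G) ⊓ Subgroup.normalizer (D₁' : Set G)) b' rfl hpD₁
      (le_inf hD₁N Subgroup.le_normalizer)
      (le_inf (hCC.trans (Subgroup.centralizer_le_normalizer _))
        (Subgroup.centralizer_le_normalizer _))
      inf_le_right hb'B ?_ ?_
    · intro x hx hxσ
      have hx0 : x ∈ Cfsg.piCoreOf σ (Subgroup.centralizer (D₀ : Set G)) :=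
        hcompl x (hCC hx) hxσ
      exact piCoreOf_inf_le σ hCC ⟨hx0, hx⟩
    · have hK₁K₀ : Cfsg.piCoreOf σ (Subgroup.centralizer (D₁' : Set G)) ≤
          Cfsg.piCoreOf σ (Subgroup.centralizer (D₀ : Set G)) ⊓
            Subgroup.centralizer (D₁' : Set G) := by
        intro x hx
        have hxC := piCoreOf_le σ _ hx
        refine ⟨hcompl x (hCC hxC) ?_, hxC⟩
        intro q hq hdvd
        exact piCoreOf_isPi σ _ q hq (hdvd.trans (Subgroup.orderOf_dvd_natCard _ hx))
      exact ((kerOn_iff_of_ind hM inf_le_left D₁' _ hpD₁ (le_inf hD₁N Subgroup.le_normalizer)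
        inf_le_right hK₀N hNK₀ hK₀p b' B₀' hind').mp k1).mono hK₁K₀

end Asc

end Cfsg.Agent.Lib.Helper27.PiKer
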