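import Mathlib
import Cfsg.Agent.Lib.Helper27.PiKer1
import Cfsg.Agent.Lib.Helper78.PrincipalVal
import Cfsg.Agent.S0923

set_option autoImplicit false
set_option linter.unusedSectionVars false
set_option linter.style.haveILetI false

namespace Cfsg.Agent.Lib.Helper27.PiKer

open Cfsg Cfsg.Agent.Lib.Helper16 Cfsg.Agent.Lib.Helper77

universe u

section SumBlocks

variable {X : Type*} [Group X] [Finite X] {M : Ideal Cfsg.AlgInt}

/-- a class function all of whose block parts agree at `y₁` and `y₂` takes the same value at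
`y₁` and `y₂` -/
theorem eq_of_blockPart_eq (hM : M.IsPrime) (φ : X → ℂ) (hφ : Cfsg.IsClassFunction X φ)
    (y₁ y₂ : X)
    (h : ∀ b : Set (Cfsg.IrrCharacter X), Cfsg.IsPBlock M b →
      Cfsg.blockPart b φ y₁ = Cfsg.blockPart b φ y₂) :
    φ y₁ = φ y₂ := by
  classical
  let _ := Fintype.ofFinite X
  have := Cfsg.Agent.Lib.Helper81.irr_finite (G := X)
  have := Fintype.ofFinite (Cfsg.IrrCharacter X)
  have hpart : ∀ y : X, ∀ b : Set (Cfsg.IrrCharacter X), Cfsg.IsPBlock M b →
      Cfsg.blockPart b φ y = ∑ ξ ∈ (Finset.univ : Finset (Cfsg.IrrCharacter X)).filter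
        (fun ξ : Cfsg.IrrCharacter X => Cfsg.blockOf M (ξ : X → ℂ) = b),
          Cfsg.classInner φ (ξ : X → ℂ) * (ξ : X → ℂ) y := by
    intro y b hb
    have h2 : Cfsg.blockPart b φ y =
        ∑ᶠ χ ∈ b, Cfsg.classInner φ (χ : X → ℂ) * (χ : X → ℂ) y := rfl
    rw [h2, finsum_mem_eq_sum_ite, ← Finset.sum_filter]
    refine Finset.sum_congr ?_ (fun _ _ => rfl)
    ext ξ
    simp only [Finset.mem_filter, Finset.mem_univ, true_and]
    constructor
    · intro hξ
      exact (IsPBlock.eq_blockOf hM hb hξ).symm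
    · intro hξ
      rw [← hξ]
      exact mem_blockOf_self hM ξ
  have hexp : ∀ y : X, φ y = ∑ b ∈ Finset.univ.image
      (fun ξ : Cfsg.IrrCharacter X => Cfsg.blockOf M (ξ : X → ℂ)), Cfsg.blockPart b φ y := by
    intro y
    rw [Cfsg.Agent.Lib.Helper80.classFun_expansion_apply φ hφ y]
    rw [← Finset.sum_fiberwise_of_maps_to
      (s := (Finset.univ : Finset (Cfsg.IrrCharacter X)))
      (t := Finset.univ.image (fun ξ : Cfsg.IrrCharacter X => Cfsg.blockOf M (ξ : X → ℂ)))
      (g := fun ξ : Cfsg.IrrCharacter X => Cfsg.blockOf M (ξ : X → ℂ))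
      (fun ξ _ => Finset.mem_image_of_mem _ (Finset.mem_univ ξ))]
    apply Finset.sum_congr rfl
    intro b hb
    obtain ⟨ξ0, _, rfl⟩ := Finset.mem_image.mp hb
    exact (hpart y _ ⟨ξ0, rfl⟩).symm
  rw [hexp y₁, hexp y₂]
  apply Finset.sum_congr rfl
  intro b hb
  obtain ⟨ξ0, _, rfl⟩ := Finset.mem_image.mp hb
  exact h _ ⟨ξ0, rfl⟩

end SumBlocks

section Const

variable {G : Type u} [Group G] [Fintype G] {p : ℕ} [Fact p.Prime] {M : Ideal Cfsg.AlgInt}

/-- **Constancy on cosets.** Under the kernel condition for the Brauer correspondents of `B`,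
if `C_G(y)` has a normal Hall `σ`-subgroup (`y` a `p`-element), then the characters in `B` are
constant on `y O_σ(C_G(y))`. -/
theorem const_on_coset (hM : Cfsg.IsPModular p M) (σ : Set ℕ) (hpσ : p ∉ σ)
    (B : Set (Cfsg.IrrCharacter G)) (hB : Cfsg.IsPBlock M B)
    (hyp : ∀ (D : Subgroup G), Cfsg.IsDefectGroup p M B D →
      ∀ B₁ : Set (Cfsg.IrrCharacter (Subgroup.normalizer (D : Set G))),
        Cfsg.IsInducedBlock M (Subgroup.normalizer (D : Set G)) B₁ B → Good σ B₁)
    (y : G) (hy : ∃ k : ℕ, orderOf y = p ^ k)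
    (hC : ∀ x : Subgroup.centralizer ({y} : Set G),
      (∀ q : ℕ, q.Prime → q ∣ orderOf x → q ∈ σ) →
        x ∈ Cfsg.piCore σ (Subgroup.centralizer ({y} : Set G)))
    (χ : Cfsg.IrrCharacter G) (hχ : χ ∈ B) (x : G)
    (hx : x ∈ Subgroup.centralizer ({y} : Set G))
    (hxσ : ∀ q : ℕ, q.Prime → q ∣ orderOf x → q ∈ σ) :
    (χ : G → ℂ) (y * x) = (χ : G → ℂ) y := by
  classical
  have hMp := isPrime_of_isPModular hM
  haveI : Fintype (Subgroup.centralizer ({y} : Set G)) := Fintype.ofFinite _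
  have hφ : Cfsg.IsClassFunction (Subgroup.centralizer ({y} : Set G))
      (fun c : Subgroup.centralizer ({y} : Set G) => (χ : G → ℂ) (y * (c : G))) := by
    intro g h
    have hcomm : (h : G) * y = y * (h : G) := by
      have := h.2
      rw [Subgroup.mem_centralizer_iff] at this
      exact (this y (Set.mem_singleton y)).symm
    have h1 : y * ((h * g * h⁻¹ : Subgroup.centralizer ({y} : Set G)) : G) =
        (h : G) * (y * (g : G)) * (h : G)⁻¹ := by
      push_cast
      rw [← mul_assoc, ← mul_assoc, ← mul_assoc, hcomm]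
    show (χ : G → ℂ) (y * ((h * g * h⁻¹ : Subgroup.centralizer ({y} : Set G)) : G)) = _
    rw [h1]
    exact Cfsg.Agent.Lib.Helper81.irr_conj_class χ _ _
  have hyC : y ∈ Subgroup.centralizer ({y} : Set G) := by
    rw [Subgroup.mem_centralizer_iff]
    intro m hm
    rw [Set.mem_singleton_iff] at hm
    rw [hm]
  have hxt : (⟨x, hx⟩ : Subgroup.centralizer ({y} : Set G)) ∈
      Cfsg.piCore σ (Subgroup.centralizer ({y} : Set G)) := by
    apply hC
    intro q hq hdvd
    rw [Subgroup.orderOf_mk] at hdvd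
    exact hxσ q hq hdvd
  have hxreg : ¬ p ∣ orderOf (⟨x, hx⟩ : Subgroup.centralizer ({y} : Set G)) := by
    intro hdvd
    rw [Subgroup.orderOf_mk] at hdvd
    exact hpσ (hxσ p Fact.out hdvd)
  have h1reg : ¬ p ∣ orderOf (1 : Subgroup.centralizer ({y} : Set G)) := by
    rw [orderOf_one]
    exact (Fact.out : p.Prime).one_lt.ne' ∘ Nat.dvd_one.mp
  haveI hzn : (Subgroup.zpowers (⟨y, hyC⟩ : Subgroup.centralizer ({y} : Set G))).Normal := by
    refine ⟨fun n hn g => ?_⟩
    have hcomm : ∀ m ∈ Subgroup.zpowers (⟨y, hyC⟩ : Subgroup.centralizer ({y} : Set G)),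
        g * m = m * g := by
      intro m hm
      obtain ⟨k, rfl⟩ := Subgroup.mem_zpowers_iff.mp hm
      have hc : Commute g (⟨y, hyC⟩ : Subgroup.centralizer ({y} : Set G)) := by
        apply Subtype.ext
        have := g.2
        rw [Subgroup.mem_centralizer_iff] at this
        exact (this y (Set.mem_singleton y)).symm
      exact (hc.zpow_right k).eq
    rw [hcomm n hn, mul_inv_cancel_right]
    exact hn
  have hpz : IsPGroup p (Subgroup.zpowers (⟨y, hyC⟩ : Subgroup.centralizer ({y} : Set G))) := by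
    obtain ⟨k, hk⟩ := hy
    apply IsPGroup.of_card (n := k)
    rw [Nat.card_zpowers, Subgroup.orderOf_mk, hk]
  have key := eq_of_blockPart_eq hMp _ hφ (⟨x, hx⟩ : Subgroup.centralizer ({y} : Set G)) 1
    (fun b hb => by
      by_cases hind : Cfsg.IsInducedBlock M (Subgroup.centralizer ({y} : Set G)) b B
      · obtain ⟨Db, hDb⟩ := exists_isDefectGroup p hMp b hb
        have hzD : Subgroup.zpowers (⟨y, hyC⟩ : Subgroup.centralizer ({y} : Set G)) ≤ Db :=
          normal_pgroup_le_of_isDefectGroup hM _ hpz hb hDb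
        have hCD : Subgroup.centralizer
            ((Db.map (Subgroup.centralizer ({y} : Set G)).subtype : Subgroup G) : Set G) ≤
            Subgroup.centralizer ({y} : Set G) := by
          intro c hc
          rw [Subgroup.mem_centralizer_iff] at hc ⊢
          intro m hm
          rw [Set.mem_singleton_iff] at hm
          subst hm
          exact hc m ⟨⟨m, hyC⟩, hzD (Subgroup.mem_zpowers _), rfl⟩
        have hgood : Good σ b := desc hM σ hpσ B hyp _ _ b Db rfl hind hDb hCD
        have hker : ∀ ψ ∈ b, (ψ : Subgroup.centralizer ({y} : Set G) → ℂ) ⟨x, hx⟩ =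
            (ψ : Subgroup.centralizer ({y} : Set G) → ℂ) 1 := fun ψ hψ => hgood _ hxt ψ hψ
        show (∑ᶠ ψ ∈ b, _ * (ψ : Subgroup.centralizer ({y} : Set G) → ℂ) ⟨x, hx⟩) =
          ∑ᶠ ψ ∈ b, _ * (ψ : Subgroup.centralizer ({y} : Set G) → ℂ) 1
        apply finsum_mem_congr rfl
        intro ψ hψ
        rw [hker ψ hψ]
      · rw [Cfsg.Agent.S0923.result p M hM y hy B hB χ hχ b hb hind _ hxreg,
          Cfsg.Agent.S0923.result p M hM y hy B hB χ hχ b hb hind _ h1reg])
  simpa using key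

end Const

end Cfsg.Agent.Lib.Helper27.PiKer
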