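import Cfsg.Agent.Lib.Helper27.TernaryGolay
import Cfsg.Agent.Lib.Helper86.PermCount

set_option autoImplicit false

/-! Monomial automorphisms of the ternary code of length 12: group structure, action on the
supports of the words of weight 6, explicit elements. -/

namespace Cfsg.Agent.Lib.Helper27.TGM

open Cfsg Cfsg.Agent.Lib.Helper27.TG
open scoped Pointwise

/-- `(σ, c)` is a monomial automorphism of the code -/
def IsMon (σ : Equiv.Perm ArrayPt) (c : ArrayPt → (ZMod 3)ˣ) : Prop :=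
  ∀ x ∈ ternaryGolayCode, monomialMap σ c x ∈ ternaryGolayCode

theorem mm_one (x : ArrayPt → ZMod 3) :
    monomialMap (1 : Equiv.Perm ArrayPt) (fun _ => (1 : (ZMod 3)ˣ)) x = x := by
  funext i
  have h : (1 : Equiv.Perm ArrayPt).symm i = i := rfl
  simp [monomialMap, h]

theorem mm_mul (σ τ : Equiv.Perm ArrayPt) (c e : ArrayPt → (ZMod 3)ˣ) (x : ArrayPt → ZMod 3) :
    monomialMap (σ * τ) (fun i => c i * e (σ.symm i)) x
      = monomialMap σ c (monomialMap τ e x) := by
  funext i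
  have h : (σ * τ).symm i = τ.symm (σ.symm i) := rfl
  simp only [monomialMap, Units.val_mul, h]
  ring

theorem mm_injective (σ : Equiv.Perm ArrayPt) (c : ArrayPt → (ZMod 3)ˣ) :
    Function.Injective (monomialMap σ c : (ArrayPt → ZMod 3) → (ArrayPt → ZMod 3)) := by
  intro x y h
  funext i
  have h1 := congrFun h (σ i)
  simp only [monomialMap, Equiv.symm_apply_apply] at h1
  exact (Units.mul_right_inj (c (σ i))).mp h1

theorem mon_surj {σ : Equiv.Perm ArrayPt} {c : ArrayPt → (ZMod 3)ˣ} (h : IsMon σ c)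
    (y : ArrayPt → ZMod 3) (hy : y ∈ ternaryGolayCode) :
    ∃ x ∈ ternaryGolayCode, monomialMap σ c x = y := by
  let f : ↥ternaryGolayCode → ↥ternaryGolayCode := fun x => ⟨monomialMap σ c x.1, h x.1 x.2⟩
  have hinj : Function.Injective f := by
    intro x y hxy
    apply Subtype.ext
    exact mm_injective σ c (congrArg Subtype.val hxy)
  have hsurj : Function.Surjective f := Finite.injective_iff_surjective.mp hinj
  obtain ⟨x, hx⟩ := hsurj ⟨y, hy⟩
  exact ⟨x.1, x.2, congrArg Subtype.val hx⟩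

theorem mon_one : IsMon 1 (fun _ => 1) := by
  intro x hx
  rw [mm_one]
  exact hx

theorem mon_mul {σ τ : Equiv.Perm ArrayPt} {c e : ArrayPt → (ZMod 3)ˣ} (h : IsMon σ c)
    (h' : IsMon τ e) : IsMon (σ * τ) (fun i => c i * e (σ.symm i)) := by
  intro x hx
  rw [mm_mul]
  exact h _ (h' _ hx)

theorem mon_inv {σ : Equiv.Perm ArrayPt} {c : ArrayPt → (ZMod 3)ˣ} (h : IsMon σ c) :
    IsMon σ⁻¹ (fun i => (c (σ i))⁻¹) := by
  intro y hy
  obtain ⟨x, hx, rfl⟩ := mon_surj h y hy
  have : monomialMap σ⁻¹ (fun i => (c (σ i))⁻¹) (monomialMap σ c x) = x := by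
    funext i
    have h1 : (σ⁻¹).symm i = σ i := rfl
    simp only [monomialMap, h1, Equiv.symm_apply_apply]
    rw [← mul_assoc, ← Units.val_mul, inv_mul_cancel, Units.val_one, one_mul]
  rw [this]
  exact hx

theorem mon_neg {σ : Equiv.Perm ArrayPt} {c : ArrayPt → (ZMod 3)ˣ} (h : IsMon σ c) :
    IsMon σ (fun i => -c i) := by
  intro x hx
  have : monomialMap σ (fun i => -c i) x = -monomialMap σ c x := by
    funext i
    simp [monomialMap]
  rw [this]
  exact Submodule.neg_mem _ (h x hx)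

/-- the permutation parts of the monomial automorphisms -/
def liftG : Subgroup (Equiv.Perm ArrayPt) where
  carrier := {σ | ∃ c, IsMon σ c}
  mul_mem' := by
    rintro σ τ ⟨c, hc⟩ ⟨e, he⟩
    exact ⟨_, mon_mul hc he⟩
  one_mem' := ⟨_, mon_one⟩
  inv_mem' := by
    rintro σ ⟨c, hc⟩
    exact ⟨_, mon_inv hc⟩

theorem mem_liftG {σ : Equiv.Perm ArrayPt} : σ ∈ liftG ↔ ∃ c, IsMon σ c := Iff.rfl

theorem supp_mm (σ : Equiv.Perm ArrayPt) (c : ArrayPt → (ZMod 3)ˣ) (x : ArrayPt → ZMod 3) :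
    ternarySupport (monomialMap σ c x) = σ • ternarySupport x := by
  ext i
  rw [← Finset.inv_smul_mem_iff]
  have h1 : σ⁻¹ • i = σ.symm i := rfl
  rw [h1]
  have ha : i ∈ ternarySupport (monomialMap σ c x) ↔ (c i : ZMod 3) * x (σ.symm i) ≠ 0 := by
    simp [ternarySupport, monomialMap]
  have hb : σ.symm i ∈ ternarySupport x ↔ x (σ.symm i) ≠ 0 := by
    simp [ternarySupport]
  rw [ha, hb]
  constructor
  · intro h hx
    apply h
    rw [hx, mul_zero]
  · intro h hx
    rcases mul_eq_zero.mp hx with h2 | h2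
    · exact (Units.ne_zero _) h2
    · exact h h2

/-- the supports of the words of weight 6 -/
abbrev Hx : Set (Finset ArrayPt) :=
  {h : Finset ArrayPt | ∃ x ∈ ternaryGolayCode, ternarySupport x = h ∧ h.card = 6}

theorem smul_Hx_subset {σ : Equiv.Perm ArrayPt} (hσ : σ ∈ liftG) : σ • Hx ⊆ Hx := by
  obtain ⟨c, hc⟩ := hσ
  rintro _ ⟨h, ⟨x, hx, rfl, h6⟩, rfl⟩
  refine ⟨monomialMap σ c x, hc x hx, supp_mm σ c x, ?_⟩
  show (σ • ternarySupport x).card = 6
  rw [Finset.card_smul_finset]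
  exact h6

theorem liftG_le : liftG ≤ setSystemAut Hx := by
  intro σ hσ
  rw [MulAction.mem_stabilizer_iff]
  apply Set.Subset.antisymm (smul_Hx_subset hσ)
  have h1 := smul_Hx_subset (liftG.inv_mem hσ)
  have h2 : σ • σ⁻¹ • Hx ⊆ σ • Hx := Set.smul_set_mono h1
  rwa [smul_inv_smul] at h2

end Cfsg.Agent.Lib.Helper27.TGM
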