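import Cfsg.Agent.Lib.Helper27.TGMon

set_option autoImplicit false

/-! Explicit monomial automorphisms of the ternary code of length 12 and a lower bound for the
order of the group of their permutation parts. -/

namespace Cfsg.Agent.Lib.Helper27.TGM

open Cfsg Cfsg.Agent.Lib.Helper27.TG Cfsg.Agent.Lib.Helper86.PermCount
open scoped Pointwise

/-- index of a position -/
def idxA (p : ArrayPt) : ℕ := 3 * p.1.val + p.2.val

/-- position of an index -/
def ptA (n : ℕ) : ArrayPt :=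
  ((⟨n / 3 % 4, Nat.mod_lt _ (by norm_num)⟩ : Fin 4),
    ((⟨n % 3, Nat.mod_lt _ (by norm_num)⟩ : Fin 3) : ZMod 3))

/-- the map of positions given by a table -/
def permFun (l : List ℕ) (p : ArrayPt) : ArrayPt := ptA (l.getD (idxA p) 0)

/-- the permutation given by a table and the table of its inverse -/
def mkPerm (l l' : List ℕ) (h1 : ∀ p, permFun l' (permFun l p) = p)
    (h2 : ∀ p, permFun l (permFun l' p) = p) : Equiv.Perm ArrayPt :=
  ⟨permFun l, permFun l', h1, h2⟩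

/-- the sign vector given by a table (1 for +, anything else for -) -/
def sgnF (l : List ℕ) (p : ArrayPt) : (ZMod 3)ˣ := if l.getD (idxA p) 0 = 1 then 1 else -1

theorem mm_add (σ : Equiv.Perm ArrayPt) (c : ArrayPt → (ZMod 3)ˣ) (x y : ArrayPt → ZMod 3) :
    monomialMap σ c (x + y) = monomialMap σ c x + monomialMap σ c y := by
  funext i
  simp only [monomialMap, Pi.add_apply]
  ring

theorem mm_smul (σ : Equiv.Perm ArrayPt) (c : ArrayPt → (ZMod 3)ˣ) (r : ZMod 3)
    (x : ArrayPt → ZMod 3) : monomialMap σ c (r • x) = r • monomialMap σ c x := by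
  funext i
  simp only [monomialMap, Pi.smul_apply, smul_eq_mul]
  ring

/-- a decidable sufficient condition for membership in the code -/
abbrev IsW (x : ArrayPt → ZMod 3) : Prop :=
  x = word (x (0, 0)) (x (0, 1)) (x (0, 2)) (x (1, 0)) (x (1, 1)) (x (2, 0))

theorem mem_of_isW {x : ArrayPt → ZMod 3} (h : IsW x) : x ∈ ternaryGolayCode := by
  rw [h]
  exact word_mem _ _ _ _ _ _

theorem isMon_of_basis (σ : Equiv.Perm ArrayPt) (c : ArrayPt → (ZMod 3)ˣ)
    (h0 : IsW (monomialMap σ c B0)) (h1 : IsW (monomialMap σ c B1))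
    (h2 : IsW (monomialMap σ c B2)) (h3 : IsW (monomialMap σ c B3))
    (h4 : IsW (monomialMap σ c B4)) (h5 : IsW (monomialMap σ c B5)) : IsMon σ c := by
  intro x hx
  obtain ⟨a, b, c', d, e, f, rfl⟩ := (mem_iff x).mp hx
  rw [word_eq]
  simp only [mm_add, mm_smul]
  exact Submodule.add_mem _ (Submodule.add_mem _ (Submodule.add_mem _ (Submodule.add_mem _
    (Submodule.add_mem _ (Submodule.smul_mem _ a (mem_of_isW h0))
    (Submodule.smul_mem _ b (mem_of_isW h1)))
    (Submodule.smul_mem _ c' (mem_of_isW h2))) (Submodule.smul_mem _ d (mem_of_isW h3)))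
    (Submodule.smul_mem _ e (mem_of_isW h4))) (Submodule.smul_mem _ f (mem_of_isW h5))

def la : List ℕ := [0, 2, 3, 4, 10, 6, 7, 11, 1, 8, 5, 9]
def lai : List ℕ := [0, 8, 1, 2, 3, 10, 5, 6, 9, 11, 4, 7]
def sa : List ℕ := [2, 2, 2, 2, 1, 1, 2, 1, 2, 2, 2, 1]
def ga : Equiv.Perm ArrayPt := mkPerm la lai (by decide +kernel) (by decide +kernel)
theorem ga_mon : IsMon ga (sgnF sa) :=
  isMon_of_basis _ _ (by decide +kernel) (by decide +kernel) (by decide +kernel) (by decide +kernel)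
    (by decide +kernel) (by decide +kernel)
theorem ga_mem : ga ∈ liftG := ⟨_, ga_mon⟩

def lt : List ℕ := [1, 0, 2, 3, 4, 5, 11, 9, 10, 7, 8, 6]
def lti : List ℕ := [1, 0, 2, 3, 4, 5, 11, 9, 10, 7, 8, 6]
def st : List ℕ := [1, 1, 1, 1, 1, 1, 1, 1, 1, 1, 1, 1]
def gt : Equiv.Perm ArrayPt := mkPerm lt lti (by decide +kernel) (by decide +kernel)
theorem gt_mon : IsMon gt (sgnF st) :=
  isMon_of_basis _ _ (by decide +kernel) (by decide +kernel) (by decide +kernel) (by decide +kernel)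
    (by decide +kernel) (by decide +kernel)
theorem gt_mem : gt ∈ liftG := ⟨_, gt_mon⟩

def lb : List ℕ := [0, 1, 3, 4, 7, 9, 10, 8, 2, 11, 5, 6]
def lbi : List ℕ := [0, 1, 8, 2, 3, 10, 11, 4, 7, 5, 6, 9]
def sb : List ℕ := [1, 1, 1, 1, 2, 2, 1, 1, 2, 1, 2, 1]
def gb : Equiv.Perm ArrayPt := mkPerm lb lbi (by decide +kernel) (by decide +kernel)
theorem gb_mon : IsMon gb (sgnF sb) :=
  isMon_of_basis _ _ (by decide +kernel) (by decide +kernel) (by decide +kernel) (by decide +kernel)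
    (by decide +kernel) (by decide +kernel)
theorem gb_mem : gb ∈ liftG := ⟨_, gb_mon⟩

def ls : List ℕ := [0, 1, 5, 2, 3, 4, 6, 8, 9, 10, 7, 11]
def lsi : List ℕ := [0, 1, 3, 4, 5, 2, 6, 10, 7, 8, 9, 11]
def ss : List ℕ := [2, 2, 1, 2, 2, 1, 1, 2, 1, 2, 1, 1]
def gs : Equiv.Perm ArrayPt := mkPerm ls lsi (by decide +kernel) (by decide +kernel)
theorem gs_mon : IsMon gs (sgnF ss) :=
  isMon_of_basis _ _ (by decide +kernel) (by decide +kernel) (by decide +kernel) (by decide +kernel)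
    (by decide +kernel) (by decide +kernel)
theorem gs_mem : gs ∈ liftG := ⟨_, gs_mon⟩

def lc : List ℕ := [0, 1, 2, 4, 5, 3, 7, 8, 6, 10, 11, 9]
def lci : List ℕ := [0, 1, 2, 5, 3, 4, 8, 6, 7, 11, 9, 10]
def sc : List ℕ := [1, 1, 1, 1, 1, 1, 1, 1, 1, 1, 1, 1]
def gc : Equiv.Perm ArrayPt := mkPerm lc lci (by decide +kernel) (by decide +kernel)
theorem gc_mon : IsMon gc (sgnF sc) :=
  isMon_of_basis _ _ (by decide +kernel) (by decide +kernel) (by decide +kernel) (by decide +kernel)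
    (by decide +kernel) (by decide +kernel)
theorem gc_mem : gc ∈ liftG := ⟨_, gc_mon⟩

def ld : List ℕ := [0, 1, 2, 6, 7, 8, 9, 10, 11, 3, 4, 5]
def ldi : List ℕ := [0, 1, 2, 9, 10, 11, 3, 4, 5, 6, 7, 8]
def sd : List ℕ := [1, 1, 1, 1, 1, 1, 1, 1, 1, 1, 1, 1]
def gd : Equiv.Perm ArrayPt := mkPerm ld ldi (by decide +kernel) (by decide +kernel)
theorem gd_mon : IsMon gd (sgnF sd) :=
  isMon_of_basis _ _ (by decide +kernel) (by decide +kernel) (by decide +kernel) (by decide +kernel)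
    (by decide +kernel) (by decide +kernel)
theorem gd_mem : gd ∈ liftG := ⟨_, gd_mon⟩

theorem hL2 : ∀ q : ArrayPt, q ≠ ptA 0 → ∃ j : Fin 11, (permFun la)^[j.val] (ptA 1) = q := by
  decide +kernel

theorem hL3 : ∀ q : ArrayPt, q ≠ ptA 0 → q ≠ ptA 1 →
    ∃ i : Fin 5, ∃ e : Fin 2, (permFun lb)^[i.val] ((permFun ls)^[e.val] (ptA 2)) = q := by
  decide +kernel

theorem hL4 : ∀ q : ArrayPt, q ≠ ptA 0 → q ≠ ptA 1 → q ≠ ptA 2 →
    ∃ i : Fin 3, ∃ j : Fin 3, (permFun lc)^[i.val] ((permFun ld)^[j.val] (ptA 3)) = q := by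
  decide +kernel

theorem card_pts : Fintype.card ArrayPt = 12 := by decide +kernel

theorem pow_apply (g : Equiv.Perm ArrayPt) (l : List ℕ) (hg : ∀ p, g p = permFun l p) (n : ℕ)
    (p : ArrayPt) : (g ^ n) p = (permFun l)^[n] p := by
  induction n generalizing p with
  | zero => rfl
  | succ n ih =>
    rw [pow_succ, Equiv.Perm.mul_apply, Function.iterate_succ_apply, hg, ih]

theorem card_ge (S : Finset ArrayPt) (K : Subgroup (Equiv.Perm ArrayPt)) (p : ArrayPt)
    (h : ∀ q ∈ S, ∃ g ∈ K, g p = q) : S.card * Nat.card (stb K p) ≤ Nat.card K := by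
  rw [← card_stb_mul_card_orbF K p, mul_comm]
  apply Nat.mul_le_mul_left
  apply Finset.card_le_card
  intro q hq
  exact mem_orbF.mpr (h q hq)

theorem card_liftG_ge : 11880 ≤ Nat.card liftG := by
  have ha0 : ga (ptA 0) = ptA 0 := by decide +kernel
  have ht0 : gt (ptA 0) = ptA 1 := by decide +kernel
  have hb0 : gb (ptA 0) = ptA 0 := by decide +kernel
  have hb1 : gb (ptA 1) = ptA 1 := by decide +kernel
  have hs0 : gs (ptA 0) = ptA 0 := by decide +kernel
  have hs1 : gs (ptA 1) = ptA 1 := by decide +kernel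
  have hc0 : gc (ptA 0) = ptA 0 := by decide +kernel
  have hc1 : gc (ptA 1) = ptA 1 := by decide +kernel
  have hc2 : gc (ptA 2) = ptA 2 := by decide +kernel
  have hd0 : gd (ptA 0) = ptA 0 := by decide +kernel
  have hd1 : gd (ptA 1) = ptA 1 := by decide +kernel
  have hd2 : gd (ptA 2) = ptA 2 := by decide +kernel
  -- level 1
  have h1 : 12 * Nat.card (stb liftG (ptA 0)) ≤ Nat.card liftG := by
    have := card_ge Finset.univ liftG (ptA 0) (by
      intro q _
      by_cases hq : q = ptA 0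
      · exact ⟨1, liftG.one_mem, by rw [hq]; rfl⟩
      · obtain ⟨j, hj⟩ := hL2 q hq
        refine ⟨ga ^ j.val * gt, liftG.mul_mem (liftG.pow_mem ga_mem _) gt_mem, ?_⟩
        rw [Equiv.Perm.mul_apply, ht0, pow_apply ga la (fun _ => rfl), hj])
    rwa [Finset.card_univ, card_pts] at this
  -- level 2
  have ga1 : ga ∈ stb liftG (ptA 0) := mem_stb.mpr ⟨ga_mem, ha0⟩
  have h2 : 11 * Nat.card (stb (stb liftG (ptA 0)) (ptA 1)) ≤ Nat.card (stb liftG (ptA 0)) := by
    have := card_ge (Finset.univ.erase (ptA 0)) (stb liftG (ptA 0)) (ptA 1) (by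
      intro q hq
      obtain ⟨j, hj⟩ := hL2 q (Finset.ne_of_mem_erase hq)
      refine ⟨ga ^ j.val, Subgroup.pow_mem _ ga1 _, ?_⟩
      rw [pow_apply ga la (fun _ => rfl), hj])
    rwa [Finset.card_erase_of_mem (Finset.mem_univ _), Finset.card_univ, card_pts] at this
  -- level 3
  have gb2 : gb ∈ stb (stb liftG (ptA 0)) (ptA 1) :=
    mem_stb.mpr ⟨mem_stb.mpr ⟨gb_mem, hb0⟩, hb1⟩
  have gs2 : gs ∈ stb (stb liftG (ptA 0)) (ptA 1) :=
    mem_stb.mpr ⟨mem_stb.mpr ⟨gs_mem, hs0⟩, hs1⟩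
  have h3 : 10 * Nat.card (stb (stb (stb liftG (ptA 0)) (ptA 1)) (ptA 2))
      ≤ Nat.card (stb (stb liftG (ptA 0)) (ptA 1)) := by
    have := card_ge ((Finset.univ.erase (ptA 0)).erase (ptA 1)) (stb (stb liftG (ptA 0)) (ptA 1))
      (ptA 2) (by
      intro q hq
      have hq1 := Finset.ne_of_mem_erase hq
      have hq0 := Finset.ne_of_mem_erase (Finset.mem_of_mem_erase hq)
      obtain ⟨i, e, hie⟩ := hL3 q hq0 hq1
      refine ⟨gb ^ i.val * gs ^ e.val,
        Subgroup.mul_mem _ (Subgroup.pow_mem _ gb2 _) (Subgroup.pow_mem _ gs2 _), ?_⟩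
      rw [Equiv.Perm.mul_apply, pow_apply gs ls (fun _ => rfl), pow_apply gb lb (fun _ => rfl),
        hie])
    have hc : ((Finset.univ.erase (ptA 0)).erase (ptA 1)).card = 10 := by decide +kernel
    rwa [hc] at this
  -- level 4
  have gc3 : gc ∈ stb (stb (stb liftG (ptA 0)) (ptA 1)) (ptA 2) :=
    mem_stb.mpr ⟨mem_stb.mpr ⟨mem_stb.mpr ⟨gc_mem, hc0⟩, hc1⟩, hc2⟩
  have gd3 : gd ∈ stb (stb (stb liftG (ptA 0)) (ptA 1)) (ptA 2) :=
    mem_stb.mpr ⟨mem_stb.mpr ⟨mem_stb.mpr ⟨gd_mem, hd0⟩, hd1⟩, hd2⟩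
  have h4 : 9 * Nat.card (stb (stb (stb (stb liftG (ptA 0)) (ptA 1)) (ptA 2)) (ptA 3))
      ≤ Nat.card (stb (stb (stb liftG (ptA 0)) (ptA 1)) (ptA 2)) := by
    have := card_ge (((Finset.univ.erase (ptA 0)).erase (ptA 1)).erase (ptA 2))
      (stb (stb (stb liftG (ptA 0)) (ptA 1)) (ptA 2)) (ptA 3) (by
      intro q hq
      have hq2 := Finset.ne_of_mem_erase hq
      have hq1 := Finset.ne_of_mem_erase (Finset.mem_of_mem_erase hq)
      have hq0 := Finset.ne_of_mem_erase (Finset.mem_of_mem_erase (Finset.mem_of_mem_erase hq))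
      obtain ⟨i, j, hij⟩ := hL4 q hq0 hq1 hq2
      refine ⟨gc ^ i.val * gd ^ j.val,
        Subgroup.mul_mem _ (Subgroup.pow_mem _ gc3 _) (Subgroup.pow_mem _ gd3 _), ?_⟩
      rw [Equiv.Perm.mul_apply, pow_apply gd ld (fun _ => rfl), pow_apply gc lc (fun _ => rfl),
        hij])
    have hc : (((Finset.univ.erase (ptA 0)).erase (ptA 1)).erase (ptA 2)).card = 9 := by
      decide +kernel
    rwa [hc] at this
  have h5 : 0 < Nat.card (stb (stb (stb (stb liftG (ptA 0)) (ptA 1)) (ptA 2)) (ptA 3)) :=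
    Nat.card_pos
  omega

end Cfsg.Agent.Lib.Helper27.TGM
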