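import Mathlib
import Cfsg.Prelude.Def_SporadicCombinatorics

set_option autoImplicit false

/-! Explicit description of the ternary code of length 12: parametrisation by six coordinates. -/

namespace Cfsg.Agent.Lib.Helper27.TG

open Cfsg

/-- table lookup on the 4 x 3 array -/
def tbl (l : List (ZMod 3)) : ArrayPt → ZMod 3 := fun p => l.getD (3 * p.1.val + p.2.val) 0

def B0 : ArrayPt → ZMod 3 := tbl [1, 0, 0, 0, 0, 1, 0, 0, 1, 1, 1, 2]
def B1 : ArrayPt → ZMod 3 := tbl [0, 1, 0, 0, 0, 1, 0, 2, 2, 2, 0, 2]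
def B2 : ArrayPt → ZMod 3 := tbl [0, 0, 1, 0, 0, 1, 0, 1, 0, 2, 1, 1]
def B3 : ArrayPt → ZMod 3 := tbl [0, 0, 0, 1, 0, 2, 0, 2, 1, 2, 1, 0]
def B4 : ArrayPt → ZMod 3 := tbl [0, 0, 0, 0, 1, 2, 0, 1, 2, 0, 1, 2]
def B5 : ArrayPt → ZMod 3 := tbl [0, 0, 0, 0, 0, 0, 1, 1, 1, 2, 2, 2]

/-- the word with information coordinates `a b c d e f` -/
def word (a b c d e f : ZMod 3) : ArrayPt → ZMod 3 :=
  fun p => a * B0 p + b * B1 p + c * B2 p + d * B3 p + e * B4 p + f * B5 p

theorem sum3 (g : ZMod 3 → ZMod 3) : ∑ r : ZMod 3, g r = g 0 + g 1 + g 2 := Fin.sum_univ_three g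

theorem ext12 {x y : ArrayPt → ZMod 3}
    (h00 : x (0, 0) = y (0, 0)) (h01 : x (0, 1) = y (0, 1)) (h02 : x (0, 2) = y (0, 2))
    (h10 : x (1, 0) = y (1, 0)) (h11 : x (1, 1) = y (1, 1)) (h12 : x (1, 2) = y (1, 2))
    (h20 : x (2, 0) = y (2, 0)) (h21 : x (2, 1) = y (2, 1)) (h22 : x (2, 2) = y (2, 2))
    (h30 : x (3, 0) = y (3, 0)) (h31 : x (3, 1) = y (3, 1)) (h32 : x (3, 2) = y (3, 2)) : x = y := by
  funext ⟨i, r⟩
  fin_cases i <;> fin_cases r <;> assumption

theorem word_at_00 : ∀ a b c d e f : ZMod 3, word a b c d e f (0, 0) = a := by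
  decide

theorem word_at_01 : ∀ a b c d e f : ZMod 3, word a b c d e f (0, 1) = b := by
  decide

theorem word_at_02 : ∀ a b c d e f : ZMod 3, word a b c d e f (0, 2) = c := by
  decide

theorem word_at_10 : ∀ a b c d e f : ZMod 3, word a b c d e f (1, 0) = d := by
  decide

theorem word_at_11 : ∀ a b c d e f : ZMod 3, word a b c d e f (1, 1) = e := by
  decide

theorem word_at_12 : ∀ a b c d e f : ZMod 3, word a b c d e f (1, 2) = a + b + c + 2 * d + 2 * e := by
  decide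

theorem word_at_20 : ∀ a b c d e f : ZMod 3, word a b c d e f (2, 0) = f := by
  decide

theorem word_at_21 : ∀ a b c d e f : ZMod 3, word a b c d e f (2, 1) = 2 * b + c + 2 * d + e + f := by
  decide

theorem word_at_22 : ∀ a b c d e f : ZMod 3, word a b c d e f (2, 2) = a + 2 * b + d + 2 * e + f := by
  decide

theorem word_at_30 : ∀ a b c d e f : ZMod 3, word a b c d e f (3, 0) = a + 2 * b + 2 * c + 2 * d + 2 * f := by
  decide

theorem word_at_31 : ∀ a b c d e f : ZMod 3, word a b c d e f (3, 1) = a + c + d + e + 2 * f := by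
  decide

theorem word_at_32 : ∀ a b c d e f : ZMod 3, word a b c d e f (3, 2) = 2 * a + 2 * b + c + 2 * e + 2 * f := by
  decide

theorem tet_mem (a b : ZMod 3) :
    a • (![0, 1, 1, 1] : Fin 4 → ZMod 3) + b • (![1, 0, 1, 2] : Fin 4 → ZMod 3) ∈ tetracode :=
  Submodule.add_mem _
    (Submodule.smul_mem _ a (Submodule.subset_span (by simp)))
    (Submodule.smul_mem _ b (Submodule.subset_span (by simp)))

theorem tet_cases {t : Fin 4 → ZMod 3} (ht : t ∈ tetracode) :
    ∃ a b : ZMod 3, t = a • (![0, 1, 1, 1] : Fin 4 → ZMod 3) + b • (![1, 0, 1, 2] : Fin 4 → ZMod 3) := by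
  obtain ⟨a, b, h⟩ := Submodule.mem_span_pair.mp ht
  exact ⟨a, b, h.symm⟩

theorem tet_mem_00 : ![0, 0, 0, 0] ∈ tetracode := by
  have h : (0 : ZMod 3) • (![0, 1, 1, 1] : Fin 4 → ZMod 3) + (0 : ZMod 3) • (![1, 0, 1, 2] : Fin 4 → ZMod 3) = ![0, 0, 0, 0] := by decide
  rw [← h]; exact tet_mem _ _

theorem tet_mem_01 : ![1, 0, 1, 2] ∈ tetracode := by
  have h : (0 : ZMod 3) • (![0, 1, 1, 1] : Fin 4 → ZMod 3) + (1 : ZMod 3) • (![1, 0, 1, 2] : Fin 4 → ZMod 3) = ![1, 0, 1, 2] := by decide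
  rw [← h]; exact tet_mem _ _

theorem tet_mem_02 : ![2, 0, 2, 1] ∈ tetracode := by
  have h : (0 : ZMod 3) • (![0, 1, 1, 1] : Fin 4 → ZMod 3) + (2 : ZMod 3) • (![1, 0, 1, 2] : Fin 4 → ZMod 3) = ![2, 0, 2, 1] := by decide
  rw [← h]; exact tet_mem _ _

theorem tet_mem_10 : ![0, 1, 1, 1] ∈ tetracode := by
  have h : (1 : ZMod 3) • (![0, 1, 1, 1] : Fin 4 → ZMod 3) + (0 : ZMod 3) • (![1, 0, 1, 2] : Fin 4 → ZMod 3) = ![0, 1, 1, 1] := by decide
  rw [← h]; exact tet_mem _ _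

theorem tet_mem_11 : ![1, 1, 2, 0] ∈ tetracode := by
  have h : (1 : ZMod 3) • (![0, 1, 1, 1] : Fin 4 → ZMod 3) + (1 : ZMod 3) • (![1, 0, 1, 2] : Fin 4 → ZMod 3) = ![1, 1, 2, 0] := by decide
  rw [← h]; exact tet_mem _ _

theorem tet_mem_12 : ![2, 1, 0, 2] ∈ tetracode := by
  have h : (1 : ZMod 3) • (![0, 1, 1, 1] : Fin 4 → ZMod 3) + (2 : ZMod 3) • (![1, 0, 1, 2] : Fin 4 → ZMod 3) = ![2, 1, 0, 2] := by decide
  rw [← h]; exact tet_mem _ _

theorem tet_mem_20 : ![0, 2, 2, 2] ∈ tetracode := by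
  have h : (2 : ZMod 3) • (![0, 1, 1, 1] : Fin 4 → ZMod 3) + (0 : ZMod 3) • (![1, 0, 1, 2] : Fin 4 → ZMod 3) = ![0, 2, 2, 2] := by decide
  rw [← h]; exact tet_mem _ _

theorem tet_mem_21 : ![1, 2, 0, 1] ∈ tetracode := by
  have h : (2 : ZMod 3) • (![0, 1, 1, 1] : Fin 4 → ZMod 3) + (1 : ZMod 3) • (![1, 0, 1, 2] : Fin 4 → ZMod 3) = ![1, 2, 0, 1] := by decide
  rw [← h]; exact tet_mem _ _

theorem tet_mem_22 : ![2, 2, 1, 0] ∈ tetracode := by
  have h : (2 : ZMod 3) • (![0, 1, 1, 1] : Fin 4 → ZMod 3) + (2 : ZMod 3) • (![1, 0, 1, 2] : Fin 4 → ZMod 3) = ![2, 2, 1, 0] := by decide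
  rw [← h]; exact tet_mem _ _

/-- every word of the code is given by its six information coordinates -/
theorem mem_imp (x : ArrayPt → ZMod 3) (hx : IsTernaryGolayWord x) :
    x = word (x (0, 0)) (x (0, 1)) (x (0, 2)) (x (1, 0)) (x (1, 1)) (x (2, 0)) := by
  obtain ⟨s, hcol, htet⟩ := hx
  have c0 := hcol 0
  have c1 := hcol 1
  have c2 := hcol 2
  have c3 := hcol 3
  rw [sum3] at c0 c1 c2 c3
  have t00 := htet _ tet_mem_00
  have t01 := htet _ tet_mem_01
  have t02 := htet _ tet_mem_02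
  have t10 := htet _ tet_mem_10
  have t11 := htet _ tet_mem_11
  have t12 := htet _ tet_mem_12
  have t20 := htet _ tet_mem_20
  have t21 := htet _ tet_mem_21
  have t22 := htet _ tet_mem_22
  simp only [Fin.sum_univ_four, Matrix.cons_val_zero, Matrix.cons_val_one, Matrix.cons_val] at t00 t01 t02 t10 t11 t12 t20 t21 t22
  have h3 : (3 : ZMod 3) = 0 := by decide
  apply ext12
  · rw [word_at_00]
  · rw [word_at_01]
  · rw [word_at_02]
  · rw [word_at_10]
  · rw [word_at_11]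
  · rw [word_at_12]
    linear_combination (-1) * c0 + (1) * c1 + ((-1) * x (1, 0) + (-1) * x (1, 1)) * h3
  · rw [word_at_20]
  · rw [word_at_21]
    linear_combination (-1) * c0 + (1) * c3 + (-1) * t00 + (-1) * t01 + (-1) * t10 + ((1) * x (0, 0) + (1) * x (2, 1) + (-1) * s) * h3
  · rw [word_at_22]
    linear_combination (1) * c2 + (-1) * c3 + (1) * t00 + (1) * t01 + (1) * t10 + ((-1) * x (0, 0) + (-1) * x (0, 1) + (-1) * x (1, 0) + (-1) * x (1, 1) + (-1) * x (2, 0) + (-1) * x (2, 1) + (1) * s) * h3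
  · rw [word_at_30]
    linear_combination (1) * c0 + (1) * t00 + ((-1) * x (0, 0) + (-1) * x (0, 1) + (-1) * x (0, 2) + (-1) * x (1, 0) + (-1) * x (2, 0)) * h3
  · rw [word_at_31]
    linear_combination (-1) * c0 + (-1) * c3 + (1) * t00 + (1) * t01 + (-1) * t10 + ((-1) * x (1, 0) + (-1) * x (2, 0) + (1) * x (3, 1) + (1) * s) * h3
  · rw [word_at_32]
    linear_combination (-1) * c0 + (-1) * c3 + (1) * t00 + (-1) * t01 + (1) * t10 + ((-1) * x (0, 0) + (-1) * x (1, 1) + (-1) * x (2, 0) + (1) * x (3, 2) + (1) * s) * h3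

theorem B0_mem : IsTernaryGolayWord B0 := by
  refine ⟨2, by decide, fun t ht => ?_⟩
  obtain ⟨a, b, rfl⟩ := tet_cases ht
  clear ht
  revert a b
  decide

theorem B1_mem : IsTernaryGolayWord B1 := by
  refine ⟨2, by decide, fun t ht => ?_⟩
  obtain ⟨a, b, rfl⟩ := tet_cases ht
  clear ht
  revert a b
  decide

theorem B2_mem : IsTernaryGolayWord B2 := by
  refine ⟨2, by decide, fun t ht => ?_⟩
  obtain ⟨a, b, rfl⟩ := tet_cases ht
  clear ht
  revert a b
  decide

theorem B3_mem : IsTernaryGolayWord B3 := by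
  refine ⟨0, by decide, fun t ht => ?_⟩
  obtain ⟨a, b, rfl⟩ := tet_cases ht
  clear ht
  revert a b
  decide

theorem B4_mem : IsTernaryGolayWord B4 := by
  refine ⟨0, by decide, fun t ht => ?_⟩
  obtain ⟨a, b, rfl⟩ := tet_cases ht
  clear ht
  revert a b
  decide

theorem B5_mem : IsTernaryGolayWord B5 := by
  refine ⟨0, by decide, fun t ht => ?_⟩
  obtain ⟨a, b, rfl⟩ := tet_cases ht
  clear ht
  revert a b
  decide

theorem word_eq (a b c d e f : ZMod 3) :
    word a b c d e f = a • B0 + b • B1 + c • B2 + d • B3 + e • B4 + f • B5 := by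
  funext p
  simp [word]

theorem word_mem (a b c d e f : ZMod 3) : word a b c d e f ∈ ternaryGolayCode := by
  rw [word_eq]
  have h0 : B0 ∈ ternaryGolayCode := B0_mem
  have h1 : B1 ∈ ternaryGolayCode := B1_mem
  have h2 : B2 ∈ ternaryGolayCode := B2_mem
  have h3 : B3 ∈ ternaryGolayCode := B3_mem
  have h4 : B4 ∈ ternaryGolayCode := B4_mem
  have h5 : B5 ∈ ternaryGolayCode := B5_mem
  exact Submodule.add_mem _ (Submodule.add_mem _ (Submodule.add_mem _ (Submodule.add_mem _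
    (Submodule.add_mem _ (Submodule.smul_mem _ a h0) (Submodule.smul_mem _ b h1))
    (Submodule.smul_mem _ c h2)) (Submodule.smul_mem _ d h3)) (Submodule.smul_mem _ e h4))
    (Submodule.smul_mem _ f h5)

/-- the code is exactly the set of `word a b c d e f` -/
theorem mem_iff (x : ArrayPt → ZMod 3) :
    x ∈ ternaryGolayCode ↔ ∃ a b c d e f : ZMod 3, x = word a b c d e f := by
  constructor
  · intro hx
    exact ⟨_, _, _, _, _, _, mem_imp x hx⟩
  · rintro ⟨a, b, c, d, e, f, rfl⟩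
    exact word_mem a b c d e f

/-- parameter space -/
abbrev P6 : Type := ZMod 3 × ZMod 3 × ZMod 3 × ZMod 3 × ZMod 3 × ZMod 3

/-- uncurried word -/
def wordP (m : P6) : ArrayPt → ZMod 3 := word m.1 m.2.1 m.2.2.1 m.2.2.2.1 m.2.2.2.2.1 m.2.2.2.2.2

theorem wordP_inj : Function.Injective wordP := by
  rintro ⟨a, b, c, d, e, f⟩ ⟨a', b', c', d', e', f'⟩ h
  simp only [wordP] at h
  have h00 := congrFun h (0, 0)
  have h01 := congrFun h (0, 1)
  have h02 := congrFun h (0, 2)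
  have h10 := congrFun h (1, 0)
  have h11 := congrFun h (1, 1)
  have h20 := congrFun h (2, 0)
  rw [word_at_00, word_at_00] at h00
  rw [word_at_01, word_at_01] at h01
  rw [word_at_02, word_at_02] at h02
  rw [word_at_10, word_at_10] at h10
  rw [word_at_11, word_at_11] at h11
  rw [word_at_20, word_at_20] at h20
  subst h00 h01 h02 h10 h11 h20
  rfl

theorem mem_iff' (x : ArrayPt → ZMod 3) : x ∈ ternaryGolayCode ↔ ∃ m : P6, wordP m = x := by
  rw [mem_iff]
  constructor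
  · rintro ⟨a, b, c, d, e, f, rfl⟩
    exact ⟨(a, b, c, d, e, f), rfl⟩
  · rintro ⟨⟨a, b, c, d, e, f⟩, rfl⟩
    exact ⟨a, b, c, d, e, f, rfl⟩

/-- sets of code words cut out by a predicate are images of finsets of parameters -/
theorem setOf_mem_and (Q : (ArrayPt → ZMod 3) → Prop) [DecidablePred Q] :
    {x : ArrayPt → ZMod 3 | x ∈ ternaryGolayCode ∧ Q x} =
      ((Finset.univ.filter (fun m : P6 => Q (wordP m))).image wordP : Finset (ArrayPt → ZMod 3)) := by
  ext x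
  simp only [Set.mem_ofPred_eq, Finset.coe_image, Finset.coe_filter, Finset.mem_univ, true_and,
    Set.mem_image, mem_iff']
  constructor
  · rintro ⟨⟨m, rfl⟩, hq⟩
    exact ⟨m, hq, rfl⟩
  · rintro ⟨m, hq, rfl⟩
    exact ⟨⟨m, rfl⟩, hq⟩

theorem ncard_mem_and (Q : (ArrayPt → ZMod 3) → Prop) [DecidablePred Q] :
    {x : ArrayPt → ZMod 3 | x ∈ ternaryGolayCode ∧ Q x}.ncard =
      (Finset.univ.filter (fun m : P6 => Q (wordP m))).card := by
  rw [setOf_mem_and, Set.ncard_coe_finset, Finset.card_image_of_injective _ wordP_inj]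

theorem weights_word : ∀ a b c d e f : ZMod 3, word a b c d e f ≠ 0 →
    (ternarySupport (word a b c d e f)).card = 6 ∨ (ternarySupport (word a b c d e f)).card = 9 ∨
    (ternarySupport (word a b c d e f)).card = 12 := by
  decide +kernel

/-- nonzero words have weight 6, 9 or 12 -/
theorem weights_mem (x : ArrayPt → ZMod 3) (hx : x ∈ ternaryGolayCode) (hx0 : x ≠ 0) :
    (ternarySupport x).card = 6 ∨ (ternarySupport x).card = 9 ∨ (ternarySupport x).card = 12 := by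
  obtain ⟨a, b, c, d, e, f, rfl⟩ := (mem_iff x).mp hx
  exact weights_word a b c d e f hx0

end Cfsg.Agent.Lib.Helper27.TG
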