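import Cfsg.Agent.Lib.Helper27.TGMon2
import Cfsg.Agent.S1592
import Cfsg.Agent.S1593
import Cfsg.Agent.S0425
import Cfsg.Agent.S0494

set_option autoImplicit false

/-! The group of monomial automorphisms of the ternary code of length 12 has order 190080 and
its permutation parts are the automorphisms of the system of supports of weight 6. -/

namespace Cfsg.Agent.Lib.Helper27.TGM

open Cfsg Cfsg.Agent.Lib.Helper27.TG
open scoped Pointwise

theorem aut_props : IsSimpleGroup ↥(setSystemAut Hx) ∧ Nat.card ↥(setSystemAut Hx) = 95040 :=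
  (Cfsg.Agent.S0425.result card_pts Cfsg.Agent.S1592.result.1).1

theorem liftG_eq : liftG = setSystemAut Hx := by
  obtain ⟨hsimple, hcard⟩ := aut_props
  apply le_antisymm liftG_le
  by_contra hne
  have hKtop : liftG.subgroupOf (setSystemAut Hx) ≠ ⊤ := by
    intro h
    exact hne (Subgroup.subgroupOf_eq_top.mp h)
  have hdvd := Cfsg.Agent.S0494.card_dvd_factorial_index (liftG.subgroupOf (setSystemAut Hx)) hKtop
  have hcardK : Nat.card (liftG.subgroupOf (setSystemAut Hx)) = Nat.card liftG :=
    Nat.card_congr (Subgroup.subgroupOfEquivOfLe liftG_le).toEquiv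
  have hidx := (liftG.subgroupOf (setSystemAut Hx)).index_mul_card
  rw [hcardK, hcard] at hidx
  rw [hcard] at hdvd
  have hge := card_liftG_ge
  obtain ⟨n, hn⟩ : ∃ n, (liftG.subgroupOf (setSystemAut Hx)).index = n := ⟨_, rfl⟩
  rw [hn] at hidx hdvd
  have hn8 : n ≤ 8 := by
    by_contra hlt
    push Not at hlt
    have : 9 * 11880 ≤ n * Nat.card liftG := Nat.mul_le_mul hlt hge
    omega
  interval_cases n <;> revert hdvd <;> decide

theorem card_liftG : Nat.card liftG = 95040 := by
  rw [liftG_eq]
  exact aut_props.2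

theorem units3' (u : (ZMod 3)ˣ) : u = 1 ∨ u = -1 := by
  revert u
  decide

theorem card_units3 : Nat.card (ZMod 3)ˣ = 2 := by
  rw [Nat.card_eq_fintype_card]
  decide

theorem card_mon : Nat.card {f : Equiv.Perm ArrayPt × (ArrayPt → (ZMod 3)ˣ) //
    ∀ x ∈ ternaryGolayCode, monomialMap f.1 f.2 x ∈ ternaryGolayCode} = 190080 := by
  have key : Nat.card {f : Equiv.Perm ArrayPt × (ArrayPt → (ZMod 3)ˣ) //
      ∀ x ∈ ternaryGolayCode, monomialMap f.1 f.2 x ∈ ternaryGolayCode}
      = Nat.card (↥liftG × (ZMod 3)ˣ) := by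
    symm
    have hc0 : ∀ σ : ↥liftG, IsMon σ.1 (Classical.choose σ.2) := fun σ => Classical.choose_spec σ.2
    apply Nat.card_congr
    refine Equiv.ofBijective (fun q => ⟨(q.1.1, fun i => q.2 * Classical.choose q.1.2 i), ?_⟩)
      ⟨?_, ?_⟩
    · rcases units3' q.2 with h | h
      · have : (fun i => q.2 * Classical.choose q.1.2 i) = Classical.choose q.1.2 := by
          funext i
          rw [h, one_mul]
        show IsMon q.1.1 (fun i => q.2 * Classical.choose q.1.2 i)
        rw [this]
        exact hc0 q.1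
      · have : (fun i => q.2 * Classical.choose q.1.2 i) = fun i => -Classical.choose q.1.2 i := by
          funext i
          rw [h, neg_one_mul]
        show IsMon q.1.1 (fun i => q.2 * Classical.choose q.1.2 i)
        rw [this]
        exact mon_neg (hc0 q.1)
    · rintro ⟨σ, ε⟩ ⟨σ', ε'⟩ h
      have h1 := congrArg Subtype.val h
      simp only [Prod.mk.injEq] at h1
      obtain ⟨h2, h3⟩ := h1
      have hσ : σ = σ' := Subtype.ext h2
      subst hσ
      have h4 := congrFun h3 (0, 0)
      simp only [mul_left_inj] at h4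
      rw [h4]
    · rintro ⟨⟨σ, c⟩, h⟩
      have hσ : σ ∈ liftG := ⟨c, h⟩
      have h0 := hc0 ⟨σ, hσ⟩
      have hmon1 : IsMon 1 (fun i => c i * (Classical.choose hσ i)⁻¹) := by
        intro y hy
        obtain ⟨x, hx, rfl⟩ := mon_surj h0 y hy
        have : monomialMap 1 (fun i => c i * (Classical.choose hσ i)⁻¹)
            (monomialMap σ (Classical.choose hσ) x) = monomialMap σ c x := by
          funext i
          have h1 : (1 : Equiv.Perm ArrayPt).symm i = i := rfl
          simp only [monomialMap, h1, Units.val_mul]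
          rw [mul_assoc, ← mul_assoc (((Classical.choose hσ i)⁻¹ : (ZMod 3)ˣ) : ZMod 3),
            ← Units.val_mul, inv_mul_cancel, Units.val_one, one_mul]
        rw [this]
        exact h x hx
      rcases Cfsg.Agent.S1593.result _ hmon1 with h1 | h1
      · refine ⟨(⟨σ, hσ⟩, 1), ?_⟩
        apply Subtype.ext
        show (σ, fun i => (1 : (ZMod 3)ˣ) * Classical.choose hσ i) = (σ, c)
        congr 1
        funext i
        have := h1 i
        rw [one_mul]
        exact (mul_inv_eq_one.mp this).symm
      · refine ⟨(⟨σ, hσ⟩, -1), ?_⟩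
        apply Subtype.ext
        show (σ, fun i => (-1 : (ZMod 3)ˣ) * Classical.choose hσ i) = (σ, c)
        congr 1
        funext i
        have := h1 i
        rw [mul_inv_eq_iff_eq_mul] at this
        rw [this]
  rw [key, Nat.card_prod, card_liftG, card_units3]

theorem lift_set_eq : {σ : Equiv.Perm ArrayPt | ∃ c : ArrayPt → (ZMod 3)ˣ,
    (∀ x ∈ ternaryGolayCode, monomialMap σ c x ∈ ternaryGolayCode)}
    = (setSystemAut Hx : Set (Equiv.Perm ArrayPt)) := by
  rw [← liftG_eq]
  rfl

end Cfsg.Agent.Lib.Helper27.TGM
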