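import Mathlib
import Cfsg.Prelude.Def_Blocks
import Cfsg.Agent.Lib.Helper16.LocalRing
import Cfsg.Agent.Lib.Helper80.OneDegree
import Cfsg.Agent.Lib.Helper80.CharOps
import Cfsg.Agent.Lib.Helper75.CharInd
import Cfsg.Agent.Lib.Helper79.ClassMult

/-!
# A combination of irreducible characters vanishing on `p`-singular elements

If `Φ = a χ + a' χ'` vanishes on all `p`-singular elements, then `Φ(g) / |C_G(g)|` is a local
integer for every `g`.
-/

set_option autoImplicit false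

namespace Cfsg.Agent.Lib.Helper27.VanishSing

open Cfsg Cfsg.Agent.Lib.Helper16

/-- a root of unity is an algebraic integer -/
theorem isIntegral_of_pow_eq_one {ω : ℂ} {n : ℕ} (hn : 0 < n) (h : ω ^ n = 1) :
    IsIntegral ℤ ω := by
  refine ⟨Polynomial.X ^ n - 1, Polynomial.monic_X_pow_sub_C (1 : ℤ) hn.ne', ?_⟩
  simp [h]

/-- the sum of a character of `G` over a coset `g Q`, `Q` a subgroup of a subgroup `C`
centralizing `g ∈ C`, is `|Q|` times an algebraic integer -/
theorem sum_coset_centralizer {G : Type*} [Group G] [Fintype G] {χ : G → ℂ}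
    (hχ : Cfsg.IsCharacter G χ) (C : Subgroup G) (g : G) (hgC : g ∈ C)
    (hcen : ∀ c ∈ C, c * g = g * c)
    (Q : Subgroup C) [Fintype Q] :
    ∃ α : Cfsg.AlgInt, ∑ q : Q, χ (g * ((q : C) : G)) =
      (Nat.card Q : ℂ) * (α : ℂ) := by
  classical
  have := Fintype.ofFinite (Cfsg.IrrCharacter C)
  have hz : (⟨g, hgC⟩ : C) ∈ Subgroup.center C := by
    rw [Subgroup.mem_center_iff]
    rintro ⟨c, hc⟩
    apply Subtype.ext
    exact hcen c hc
  obtain ⟨m, -, hexp⟩ := Cfsg.Agent.Lib.Helper80.character_expansion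
    (Cfsg.Agent.Lib.Helper75.isCharacter_res C hχ)
  have hval : ∀ c : C, χ (c : G) = ∑ ψ : Cfsg.IrrCharacter C, (m ψ : ℂ) * (ψ : C → ℂ) c := by
    intro c
    have := congrFun hexp c
    simpa [Finset.sum_apply] using this
  -- each irreducible constituent
  have hψ : ∀ ψ : Cfsg.IrrCharacter C, ∃ β : Cfsg.AlgInt,
      ∑ q : Q, (ψ : C → ℂ) (⟨g, hgC⟩ * (q : C)) = (Nat.card Q : ℂ) * (β : ℂ) := by
    intro ψ
    obtain ⟨ω, hω, hmul⟩ := Cfsg.Agent.Lib.Helper80.central_char_mul ψ.2 hz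
    obtain ⟨k, hk⟩ := Cfsg.Agent.Lib.Helper79.irr_sum_subgroup ψ.2 Q
    have hωint : IsIntegral ℤ ω := isIntegral_of_pow_eq_one (orderOf_pos _) hω
    refine ⟨⟨ω, hωint⟩ * (k : Cfsg.AlgInt), ?_⟩
    simp_rw [hmul]
    rw [← Finset.mul_sum, hk]
    push_cast
    ring
  choose β hβ using hψ
  refine ⟨∑ ψ : Cfsg.IrrCharacter C, (m ψ : Cfsg.AlgInt) * β ψ, ?_⟩
  have h1 : ∀ q : Q, χ (g * ((q : C) : G)) =
      ∑ ψ : Cfsg.IrrCharacter C, (m ψ : ℂ) * (ψ : C → ℂ) (⟨g, hgC⟩ * (q : C)) := by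
    intro q
    rw [← hval]
    rfl
  rw [Finset.sum_congr rfl (fun q _ => h1 q), Finset.sum_comm]
  have h2 : ∀ ψ : Cfsg.IrrCharacter C,
      ∑ q : Q, (m ψ : ℂ) * (ψ : C → ℂ) (⟨g, hgC⟩ * (q : C)) =
      (Nat.card Q : ℂ) * ((m ψ : ℂ) * (β ψ : ℂ)) := by
    intro ψ
    rw [← Finset.mul_sum, hβ]
    ring
  rw [Finset.sum_congr rfl (fun ψ _ => h2 ψ), ← Finset.mul_sum]
  push_cast
  rfl

/-- **L1** (for S4638): if `a χ + a' χ'` vanishes on `p`-singular elements, its value at `g`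
divided by `|C_G(g)|` is a local integer. -/
theorem vanish_singular_div_centralizer {G : Type*} [Group G] [Fintype G] {p : ℕ}
    [Fact p.Prime] {M : Ideal Cfsg.AlgInt} (hM : Cfsg.IsPModular p M)
    (chi chi' : Cfsg.IrrCharacter G) (a a' : ℤ)
    (hv : ∀ x : G, p ∣ orderOf x → (a : ℂ) * chi.1 x + (a' : ℂ) * chi'.1 x = 0) (g : G) :
    Cfsg.MemLocalRing M (((a : ℂ) * chi.1 g + (a' : ℂ) * chi'.1 g) /
      (Nat.card (Subgroup.centralizer ({g} : Set G)) : ℂ)) := by
  classical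
  have hMp := isPrime_of_isPModular hM
  by_cases hpg : p ∣ orderOf g
  · rw [hv g hpg, zero_div]
    exact memLocalRing_zero hMp
  set C := Subgroup.centralizer ({g} : Set G) with hC
  obtain ⟨Q⟩ : Nonempty (Sylow p C) := inferInstance
  have : Fintype (Q : Subgroup C) := Fintype.ofFinite _
  -- nontrivial elements of `Q` give `p`-singular `g q`
  have hsing : ∀ q : (Q : Subgroup C), q ≠ 1 → p ∣ orderOf (g * ((q : C) : G)) := by
    intro q hq
    have hcomm : Commute g ((q : C) : G) := by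
      have := (Subgroup.mem_centralizer_iff.mp (q : C).2) g (Set.mem_singleton g)
      exact this
    obtain ⟨k, hk⟩ := (IsPGroup.iff_orderOf.mp Q.isPGroup') q
    have hqo' : orderOf ((q : C) : G) = p ^ k := by
      rw [← hk, ← Subgroup.orderOf_coe, ← Subgroup.orderOf_coe]
    have hk0 : k ≠ 0 := by
      rintro rfl
      rw [pow_zero, orderOf_eq_one_iff] at hk
      exact hq hk
    have hcop : (orderOf g).Coprime (orderOf ((q : C) : G)) := by
      rw [hqo']
      exact Nat.Coprime.pow_right k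
        ((Nat.Prime.coprime_iff_not_dvd (Fact.out : p.Prime)).mpr hpg).symm
    rw [hcomm.orderOf_mul_eq_mul_orderOf_of_coprime hcop, hqo']
    exact Dvd.dvd.mul_left (dvd_pow_self p hk0) _
  have hgC : g ∈ C := by
    rw [hC, Subgroup.mem_centralizer_iff]
    intro h hh
    rw [Set.mem_singleton_iff] at hh
    rw [hh]
  have hcen : ∀ c ∈ C, c * g = g * c := fun c hc =>
    ((Subgroup.mem_centralizer_iff.mp hc) g (Set.mem_singleton g)).symm
  obtain ⟨α, hα⟩ := sum_coset_centralizer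
    (Cfsg.Agent.Lib.Helper80.isCharacter_of_isIrrCharacter chi.2) C g hgC hcen (Q : Subgroup C)
  obtain ⟨α', hα'⟩ := sum_coset_centralizer
    (Cfsg.Agent.Lib.Helper80.isCharacter_of_isIrrCharacter chi'.2) C g hgC hcen
    (Q : Subgroup C)
  have hsum : ∑ q : (Q : Subgroup C), ((a : ℂ) * chi.1 (g * ((q : C) : G)) +
      (a' : ℂ) * chi'.1 (g * ((q : C) : G))) = (a : ℂ) * chi.1 g + (a' : ℂ) * chi'.1 g := by
    rw [Finset.sum_eq_single (1 : (Q : Subgroup C))]
    · simp
    · intro q _ hq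
      exact hv _ (hsing q hq)
    · intro h
      exact absurd (Finset.mem_univ _) h
  have hval : (a : ℂ) * chi.1 g + (a' : ℂ) * chi'.1 g =
      (Nat.card (Q : Subgroup C) : ℂ) * ((a : ℂ) * (α : ℂ) + (a' : ℂ) * (α' : ℂ)) := by
    rw [← hsum, Finset.sum_add_distrib, ← Finset.mul_sum, ← Finset.mul_sum, hα, hα']
    ring
  have hidx : Nat.card (Q : Subgroup C) * (Q : Subgroup C).index = Nat.card C :=
    Subgroup.card_mul_index _
  have hnd : ¬ p ∣ (Q : Subgroup C).index := Q.not_dvd_index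
  have hQ0 : (Nat.card (Q : Subgroup C) : ℂ) ≠ 0 := by
    exact_mod_cast Nat.card_pos.ne'
  have hi0 : ((Q : Subgroup C).index : ℂ) ≠ 0 := by
    have : (Q : Subgroup C).index ≠ 0 := fun h => hnd (h ▸ dvd_zero p)
    exact_mod_cast this
  have hfin : ((a : ℂ) * chi.1 g + (a' : ℂ) * chi'.1 g) / (Nat.card C : ℂ) =
      ((a : ℂ) * (α : ℂ) + (a' : ℂ) * (α' : ℂ)) * (((Q : Subgroup C).index : ℂ))⁻¹ := by
    rw [hval, ← hidx]
    push_cast
    field_simp
  rw [hfin]
  refine memLocalRing_mul hMp ?_ (memLocalRing_inv_natCast hM hnd)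
  refine memLocalRing_add hMp (memLocalRing_mul hMp (memLocalRing_intCast hMp a)
    (memLocalRing_of_algInt hMp α)) (memLocalRing_mul hMp (memLocalRing_intCast hMp a')
    (memLocalRing_of_algInt hMp α'))

end Cfsg.Agent.Lib.Helper27.VanishSing
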